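import Cfsg.Agent.Lib.Helper15.ChevCharG2
import Cfsg.Agent.Lib.Helper15.ChevCharB2
import Cfsg.Agent.Lib.Helper15.ChevCharD4
import Cfsg.Agent.Lib.Helper15.ChevCharF4
import Cfsg.Agent.Lib.Helper15.ChevCharE6
import Cfsg.Agent.Lib.Helper15.ChevCharE7
import Cfsg.Agent.Lib.Helper15.ChevCharE8

set_option autoImplicit false

namespace Cfsg.Agent.Lib.Helper9

open Cfsg.Lie Cfsg.Agent.Lib.Helper15

/-- The chain data of the seven Chevalley data are verified. -/
theorem chainok_cert (D : ChevalleyDatum)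
    (hD : D ∈ [chevG2, chevB2, chevD4, chevF4, chevE6, chevE7, chevE8]) : ChevChar.ChainOK D := by
  simp only [List.mem_cons, List.mem_nil_iff, or_false] at hD
  rcases hD with rfl | rfl | rfl | rfl | rfl | rfl | rfl
  exacts [ChevChar.chainOK_G2, ChevChar.chainOK_B2, ChevChar.chainOK_D4, ChevChar.chainOK_F4,
    ChevChar.chainOK_E6, ChevChar.chainOK_E7, ChevChar.chainOK_E8]

end Cfsg.Agent.Lib.Helper9
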