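import Cfsg.Agent.Lib.Helper9.ChevMod2
import Cfsg.Agent.Lib.Helper9.CertH

set_option autoImplicit false

namespace Cfsg.Agent.Lib.Helper9

open Cfsg.Lie

/-- A product of three generators of the twisted group of type `F₄` with arguments in the prime
field (root indices with the codes of the arguments). -/
def szW : List (ℕ × ℕ) :=
  [(27, 1), (25, 1), (28, 1), (19, 1), (17, 1), (27, 1), (25, 1), (30, 1)]

/-- The word of `n_a n_b n_a n_b` for the fundamental roots `a = p₂`, `b = p₃`. -/
def szN : List (ℕ × ℕ) :=
  [(27, 1), (20, 7), (27, 1), (25, 1), (22, 7), (25, 1), (27, 1), (20, 7), (27, 1), (25, 1),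
   (22, 7), (25, 1)]

set_option maxRecDepth 1000000 in
theorem f4_sz_cert : allB 52 (fun c => pcolEq2 52 (wordOps chevF4 (litsOf chevF4) szW)
    (wordOps chevF4 (litsOf chevF4) szN) c) = true := by
  decide +kernel

end Cfsg.Agent.Lib.Helper9
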