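import Cfsg.Agent.Lib.Helper9.NhOkB2_1_0

set_option autoImplicit false

namespace Cfsg.Agent.Lib.Helper9

open Cfsg.Lie

theorem nhB2_1_ok (r : ℕ) (hr : r < 2) : (fun j => nhB chevB2 xLitB2 (getN permLitB2 1) 1 j) r = true := by
  by_cases h0 : r < 1
  · exact allFrom_spec nhB2_1_ok_0 (by omega) (by omega)
  exact allFrom_spec nhB2_1_ok_1 (by omega) (by omega)

end Cfsg.Agent.Lib.Helper9
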