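import Cfsg.Agent.Lib.Helper9.NhOkB2_0_
import Cfsg.Agent.Lib.Helper9.NhOkB2_1_

set_option autoImplicit false

namespace Cfsg.Agent.Lib.Helper9

open Cfsg.Lie

theorem nhB2_ok (i : ℕ) (hi : i < 2) (j : ℕ) (hj : j < 2) :
    nhB chevB2 xLitB2 (getN permLitB2 i) i j = true := by
  interval_cases i
  · exact nhB2_0_ok j hj
  · exact nhB2_1_ok j hj

end Cfsg.Agent.Lib.Helper9
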