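import Cfsg.Agent.Lib.Helper9.NhOkD4_0_
import Cfsg.Agent.Lib.Helper9.NhOkD4_1_
import Cfsg.Agent.Lib.Helper9.NhOkD4_2_
import Cfsg.Agent.Lib.Helper9.NhOkD4_3_

set_option autoImplicit false

namespace Cfsg.Agent.Lib.Helper9

open Cfsg.Lie

theorem nhD4_ok (i : ℕ) (hi : i < 4) (j : ℕ) (hj : j < 4) :
    nhB chevD4 xLitD4 (getN permLitD4 i) i j = true := by
  interval_cases i
  · exact nhD4_0_ok j hj
  · exact nhD4_1_ok j hj
  · exact nhD4_2_ok j hj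
  · exact nhD4_3_ok j hj

end Cfsg.Agent.Lib.Helper9
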