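import Cfsg.Agent.Lib.Helper9.NhOkE6_0_
import Cfsg.Agent.Lib.Helper9.NhOkE6_1_
import Cfsg.Agent.Lib.Helper9.NhOkE6_2_
import Cfsg.Agent.Lib.Helper9.NhOkE6_3_
import Cfsg.Agent.Lib.Helper9.NhOkE6_4_
import Cfsg.Agent.Lib.Helper9.NhOkE6_5_

set_option autoImplicit false

namespace Cfsg.Agent.Lib.Helper9

open Cfsg.Lie

theorem nhE6_ok (i : ℕ) (hi : i < 6) (j : ℕ) (hj : j < 6) :
    nhB chevE6 xLitE6 (getN permLitE6 i) i j = true := by
  interval_cases i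
  · exact nhE6_0_ok j hj
  · exact nhE6_1_ok j hj
  · exact nhE6_2_ok j hj
  · exact nhE6_3_ok j hj
  · exact nhE6_4_ok j hj
  · exact nhE6_5_ok j hj

end Cfsg.Agent.Lib.Helper9
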