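import Cfsg.Agent.Lib.Helper9.NhOkE7_5_0

set_option autoImplicit false

namespace Cfsg.Agent.Lib.Helper9

open Cfsg.Lie

theorem nhE7_5_ok (r : ℕ) (hr : r < 7) : (fun j => nhB chevE7 xLitE7 (getN permLitE7 5) 5 j) r = true := by
  by_cases h0 : r < 1
  · exact allFrom_spec nhE7_5_ok_0 (by omega) (by omega)
  by_cases h1 : r < 2
  · exact allFrom_spec nhE7_5_ok_1 (by omega) (by omega)
  by_cases h2 : r < 3
  · exact allFrom_spec nhE7_5_ok_2 (by omega) (by omega)
  by_cases h3 : r < 4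
  · exact allFrom_spec nhE7_5_ok_3 (by omega) (by omega)
  by_cases h4 : r < 5
  · exact allFrom_spec nhE7_5_ok_4 (by omega) (by omega)
  by_cases h5 : r < 6
  · exact allFrom_spec nhE7_5_ok_5 (by omega) (by omega)
  exact allFrom_spec nhE7_5_ok_6 (by omega) (by omega)

end Cfsg.Agent.Lib.Helper9
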