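import Cfsg.Agent.Lib.Helper9.NhOkE7_0_
import Cfsg.Agent.Lib.Helper9.NhOkE7_1_
import Cfsg.Agent.Lib.Helper9.NhOkE7_2_
import Cfsg.Agent.Lib.Helper9.NhOkE7_3_
import Cfsg.Agent.Lib.Helper9.NhOkE7_4_
import Cfsg.Agent.Lib.Helper9.NhOkE7_5_
import Cfsg.Agent.Lib.Helper9.NhOkE7_6_

set_option autoImplicit false

namespace Cfsg.Agent.Lib.Helper9

open Cfsg.Lie

theorem nhE7_ok (i : ℕ) (hi : i < 7) (j : ℕ) (hj : j < 7) :
    nhB chevE7 xLitE7 (getN permLitE7 i) i j = true := by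
  interval_cases i
  · exact nhE7_0_ok j hj
  · exact nhE7_1_ok j hj
  · exact nhE7_2_ok j hj
  · exact nhE7_3_ok j hj
  · exact nhE7_4_ok j hj
  · exact nhE7_5_ok j hj
  · exact nhE7_6_ok j hj

end Cfsg.Agent.Lib.Helper9
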