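import Cfsg.Agent.Lib.Helper9.NhOkE8_0_
import Cfsg.Agent.Lib.Helper9.NhOkE8_1_
import Cfsg.Agent.Lib.Helper9.NhOkE8_2_
import Cfsg.Agent.Lib.Helper9.NhOkE8_3_
import Cfsg.Agent.Lib.Helper9.NhOkE8_4_
import Cfsg.Agent.Lib.Helper9.NhOkE8_5_
import Cfsg.Agent.Lib.Helper9.NhOkE8_6_
import Cfsg.Agent.Lib.Helper9.NhOkE8_7_

set_option autoImplicit false

namespace Cfsg.Agent.Lib.Helper9

open Cfsg.Lie

theorem nhE8_ok (i : ℕ) (hi : i < 8) (j : ℕ) (hj : j < 8) :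
    nhB chevE8 xLitE8 (getN permLitE8 i) i j = true := by
  interval_cases i
  · exact nhE8_0_ok j hj
  · exact nhE8_1_ok j hj
  · exact nhE8_2_ok j hj
  · exact nhE8_3_ok j hj
  · exact nhE8_4_ok j hj
  · exact nhE8_5_ok j hj
  · exact nhE8_6_ok j hj
  · exact nhE8_7_ok j hj

end Cfsg.Agent.Lib.Helper9
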