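import Cfsg.Agent.Lib.Helper9.CertNX
import Cfsg.Agent.Lib.Helper9.NhOkG2
import Cfsg.Agent.Lib.Helper9.NhOkB2
import Cfsg.Agent.Lib.Helper9.NhOkD4
import Cfsg.Agent.Lib.Helper9.NhOkF4
import Cfsg.Agent.Lib.Helper9.NhOkE6
import Cfsg.Agent.Lib.Helper9.NhOkE7
import Cfsg.Agent.Lib.Helper9.NhOkE8

set_option autoImplicit false

namespace Cfsg.Agent.Lib.Helper9

open Cfsg.Lie

/-- The verified conjugation of the `h_{p_j}` by the `n_{p_i}`. -/
structure NHOK (D : ChevalleyDatum) : Prop where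
  nh : ∀ i < D.rank, ∀ j < D.rank, nhB D (litsOf D) (getN (permOf D) i) i j = true

theorem nhok_all (D : ChevalleyDatum)
    (hD : D ∈ [chevG2, chevB2, chevD4, chevF4, chevE6, chevE7, chevE8]) : NHOK D := by
  simp only [List.mem_cons, List.not_mem_nil, or_false] at hD
  rcases hD with rfl | rfl | rfl | rfl | rfl | rfl | rfl
  · exact ⟨nhG2_ok⟩
  · exact ⟨nhB2_ok⟩
  · exact ⟨nhD4_ok⟩
  · exact ⟨nhF4_ok⟩
  · exact ⟨nhE6_ok⟩
  · exact ⟨nhE7_ok⟩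
  · exact ⟨nhE8_ok⟩

end Cfsg.Agent.Lib.Helper9
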