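import Cfsg.Agent.Lib.Helper9.ThmPerf

set_option autoImplicit false

namespace Cfsg.Agent.Lib.Helper9

open Cfsg.Lie

/-- The pairs of roots with commutator formula reduced to the root element of a fundamental
root, type `D₄`. -/
def perfLD4 : List (ℕ × ℕ × ℕ) := [(0, 6, 22), (1, 1, 23), (2, 3, 22), (3, 2, 22)]

/-- The same for the type `F₄`. -/
def perfLF4 : List (ℕ × ℕ × ℕ) := [(0, 7, 44), (1, 8, 40), (2, 2, 46), (3, 1, 47)]

/-- The same for the type `E₆`. -/
def perfLE6 : List (ℕ × ℕ × ℕ) :=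
  [(0, 16, 66), (1, 1, 71), (2, 5, 69), (3, 2, 70), (4, 3, 69), (5, 4, 68)]

/-- The same for the type `E₇`. -/
def perfLE7 : List (ℕ × ℕ × ℕ) :=
  [(0, 1, 125), (1, 7, 122), (2, 2, 124), (3, 3, 123), (4, 4, 122), (5, 5, 121), (6, 6, 120)]

/-- The same for the type `E₈`. -/
def perfLE8 : List (ℕ × ℕ × ℕ) :=
  [(0, 14, 233), (1, 7, 234), (2, 6, 234), (3, 5, 235), (4, 4, 236), (5, 3, 237), (6, 2, 238),
    (7, 1, 239)]

/-- The test of a pair of roots. -/
def PerfFact (D : ChevalleyDatum) (p : ℕ × ℕ × ℕ) : Prop :=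
  p.2.1 < D.nroots ∧ p.2.2 < D.nroots ∧ p.2.2 ≠ D.neg p.2.1 ∧
    commB D (litsOf D) p.2.1 p.2.2 = true ∧
    (D.commTerms p.2.1 p.2.2 = [(D.simple p.1, 1, 1, 1)] ∨
      D.commTerms p.2.1 p.2.2 = [(D.simple p.1, -1, 1, 1)])

instance (D : ChevalleyDatum) (p : ℕ × ℕ × ℕ) : Decidable (PerfFact D p) :=
  inferInstanceAs (Decidable (_ ∧ _))

set_option maxRecDepth 1000000 in
theorem perfD4_facts : ∀ p ∈ perfLD4, PerfFact chevD4 p := by decide +kernel

set_option maxRecDepth 1000000 in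
theorem perfF4_facts : ∀ p ∈ perfLF4, PerfFact chevF4 p := by decide +kernel

set_option maxRecDepth 1000000 in
theorem perfE6_facts : ∀ p ∈ perfLE6, PerfFact chevE6 p := by decide +kernel

set_option maxRecDepth 1000000 in
theorem perfE7_facts : ∀ p ∈ perfLE7, PerfFact chevE7 p := by decide +kernel

set_option maxRecDepth 1000000 in
theorem perfE8_facts : ∀ p ∈ perfLE8, PerfFact chevE8 p := by decide +kernel

theorem perfD4_cov : ∀ i < chevD4.rank, ∃ p ∈ perfLD4, p.1 = i := by decide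
theorem perfF4_cov : ∀ i < chevF4.rank, ∃ p ∈ perfLF4, p.1 = i := by decide
theorem perfE6_cov : ∀ i < chevE6.rank, ∃ p ∈ perfLE6, p.1 = i := by decide
theorem perfE7_cov : ∀ i < chevE7.rank, ∃ p ∈ perfLE7, p.1 = i := by decide
theorem perfE8_cov : ∀ i < chevE8.rank, ∃ p ∈ perfLE8, p.1 = i := by decide

set_option maxRecDepth 1000000 in
theorem perfG2_facts : 1 < chevG2.nroots ∧ 11 < chevG2.nroots ∧ 11 ≠ chevG2.neg 1 ∧
    commB chevG2 (litsOf chevG2) 1 11 = true ∧
    chevG2.commTerms 1 11 = [(chevG2.simple 1, -1, 1, 1)] ∧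
    chevG2.simple 0 < chevG2.nroots ∧ chevG2.simple 1 < chevG2.nroots ∧
    rootExp chevG2 (chevG2.simple 1) (Nat.add chevG2.rank (chevG2.simple 0)) = -1 := by
  decide +kernel

set_option maxRecDepth 1000000 in
theorem perfB2_facts : 2 < chevB2.nroots ∧ 6 < chevB2.nroots ∧ 6 ≠ chevB2.neg 2 ∧
    commB chevB2 (litsOf chevB2) 2 6 = true ∧
    chevB2.commTerms 2 6 = [(chevB2.simple 1, -2, 1, 1)] ∧
    chevB2.simple 0 < chevB2.nroots ∧ chevB2.simple 1 < chevB2.nroots ∧
    rootExp chevB2 (chevB2.simple 1) (Nat.add chevB2.rank (chevB2.simple 0)) = -1 ∧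
    rootExp chevB2 (chevB2.simple 0) (Nat.add chevB2.rank (chevB2.simple 1)) = -2 := by
  decide +kernel

section

variable {F : Type*} [Field F]

/-- The Chevalley groups are perfect, the types `G₂` and `B₂` over the field with two elements
excepted. -/
theorem perfect_all (D : ChevalleyDatum)
    (hD : D ∈ [chevG2, chevB2, chevD4, chevF4, chevE6, chevE7, chevE8])
    (h2 : D = chevG2 ∨ D = chevB2 → ∃ a : F, a ≠ 0 ∧ a ≠ 1) :
    commutator ↥(D.group F) = ⊤ := by
  have hk := hok_all D hD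
  have wk := wok_all D hD
  have ak := haok_all D hD
  apply perfect_of_simple hk (nok_all D hD) (nxok_all D hD) (orbok_all D hD)
  simp only [List.mem_cons, List.not_mem_nil, or_false] at hD
  rcases hD with rfl | rfl | rfl | rfl | rfl | rfl | rfl
  · obtain ⟨u, hu0, hu1⟩ := h2 (Or.inl rfl)
    obtain ⟨f1, f2, f3, f4, f5, f6, f7, f8⟩ := perfG2_facts
    intro i hi t
    have hi' : i < 2 := hi
    interval_cases i
    · refine diag_comm_mem' hk wk ak f7 f6 hu0 ?_ t
      rw [f8, zpow_neg_one]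
      exact sub_ne_zero.mpr (by rwa [ne_eq, inv_eq_one])
    · exact single_comm_mem' hk f1 f2 f3 f4 f5 (by simp) t
  · obtain ⟨u, hu0, hu1⟩ := h2 (Or.inr rfl)
    obtain ⟨f1, f2, f3, f4, f5, f6, f7, f8, f9⟩ := perfB2_facts
    intro i hi t
    have hi' : i < 2 := hi
    interval_cases i
    · refine diag_comm_mem' hk wk ak f7 f6 hu0 ?_ t
      rw [f8, zpow_neg_one]
      exact sub_ne_zero.mpr (by rwa [ne_eq, inv_eq_one])
    · by_cases h20 : (2 : F) = 0
      · refine diag_comm_mem' hk wk ak f6 f7 hu0 ?_ t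
        rw [f9, show (-2 : ℤ) = -((2 : ℕ) : ℤ) from rfl, zpow_neg, zpow_natCast]
        intro h
        have h' : u ^ 2 = 1 := inv_eq_one.mp (sub_eq_zero.mp h)
        have h3 : (u - 1) ^ 2 = 0 := by linear_combination h' + (1 - u) * h20
        exact hu1 (sub_eq_zero.mp (pow_eq_zero_iff (by norm_num) |>.mp h3))
      · refine single_comm_mem' hk f1 f2 f3 f4 f5 ?_ t
        push_cast
        exact neg_ne_zero.mpr h20
  · exact simple_of_pairs hk _ perfD4_facts perfD4_cov
  · exact simple_of_pairs hk _ perfF4_facts perfF4_cov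
  · exact simple_of_pairs hk _ perfE6_facts perfE6_cov
  · exact simple_of_pairs hk _ perfE7_facts perfE7_cov
  · exact simple_of_pairs hk _ perfE8_facts perfE8_cov

end

end Cfsg.Agent.Lib.Helper9
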