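import Cfsg.Agent.Lib.Helper9.ChevHAll
import Cfsg.Agent.Lib.Helper9.CertN

set_option autoImplicit false

namespace Cfsg.Agent.Lib.Helper9

open Cfsg.Lie

/-- Every root pairs to `2` with its own coroot, and the reflection in a fundamental root
acts with the sign `-1` on its root element. -/
def sl2B (D : ChevalleyDatum) (Es : List ℕ) : Bool :=
  and (allB D.nroots (fun r => decide (rootExp D r (Nat.add D.rank r) = 2)))
    (allB D.rank (fun j => decide (etaF (getN Es j) (D.simple j) = -1)))

set_option maxRecDepth 1000000 in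
theorem sl2G2_ok : sl2B chevG2 etaLitG2 = true := by decide +kernel

set_option maxRecDepth 1000000 in
theorem sl2B2_ok : sl2B chevB2 etaLitB2 = true := by decide +kernel

set_option maxRecDepth 1000000 in
theorem sl2D4_ok : sl2B chevD4 etaLitD4 = true := by decide +kernel

set_option maxRecDepth 1000000 in
theorem sl2F4_ok : sl2B chevF4 etaLitF4 = true := by decide +kernel

set_option maxRecDepth 1000000 in
theorem sl2E6_ok : sl2B chevE6 etaLitE6 = true := by decide +kernel

set_option maxRecDepth 1000000 in
theorem sl2E7_ok : sl2B chevE7 etaLitE7 = true := by decide +kernel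

set_option maxRecDepth 1000000 in
theorem sl2E8_ok : sl2B chevE8 etaLitE8 = true := by decide +kernel

/-- The verified data on the rank one subgroups. -/
structure SL2OK (D : ChevalleyDatum) : Prop where
  rexp : ∀ r < D.nroots, rootExp D r (Nat.add D.rank r) = 2
  eta : ∀ j < D.rank, etaF (getN (etaOf D) j) (D.simple j) = -1

theorem sl2ok_of {D : ChevalleyDatum} (h : sl2B D (etaOf D) = true) : SL2OK D := by
  unfold sl2B at h
  rw [Bool.and_eq_true] at h
  exact ⟨fun r hr => of_decide_eq_true (allB_spec h.1 hr),
    fun j hj => of_decide_eq_true (allB_spec h.2 hj)⟩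

theorem sl2ok_all (D : ChevalleyDatum)
    (hD : D ∈ [chevG2, chevB2, chevD4, chevF4, chevE6, chevE7, chevE8]) : SL2OK D := by
  simp only [List.mem_cons, List.not_mem_nil, or_false] at hD
  rcases hD with rfl | rfl | rfl | rfl | rfl | rfl | rfl
  · exact sl2ok_of sl2G2_ok
  · exact sl2ok_of sl2B2_ok
  · exact sl2ok_of sl2D4_ok
  · exact sl2ok_of sl2F4_ok
  · exact sl2ok_of sl2E6_ok
  · exact sl2ok_of sl2E7_ok
  · exact sl2ok_of sl2E8_ok

end Cfsg.Agent.Lib.Helper9
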