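import Cfsg.Agent.Lib.Helper9.ThmSimple
import Cfsg.Agent.Lib.Helper9.CertPerf
import Cfsg.Agent.Lib.Helper9.CertComm
import Cfsg.Agent.Lib.Helper9.NegPos

set_option autoImplicit false

namespace Cfsg.Agent.Lib.Helper9

open Cfsg.Lie

set_option maxRecDepth 1000000 in
theorem irrG2_ok : IrrFact chevG2 [0, 0] := by decide +kernel

set_option maxRecDepth 1000000 in
theorem irrB2_ok : IrrFact chevB2 [0, 0] := by decide +kernel

set_option maxRecDepth 1000000 in
theorem irrD4_ok : IrrFact chevD4 [0, 0, 1, 1] := by decide +kernel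

set_option maxRecDepth 1000000 in
theorem irrF4_ok : IrrFact chevF4 [0, 0, 1, 2] := by decide +kernel

set_option maxRecDepth 1000000 in
theorem irrE6_ok : IrrFact chevE6 [0, 3, 0, 2, 3, 4] := by decide +kernel

set_option maxRecDepth 1000000 in
theorem irrE7_ok : IrrFact chevE7 [0, 3, 0, 2, 3, 4, 5] := by decide +kernel

set_option maxRecDepth 1000000 in
theorem irrE8_ok : IrrFact chevE8 [0, 3, 0, 2, 3, 4, 5, 6] := by decide +kernel

theorem irr_all (D : ChevalleyDatum)
    (hD : D ∈ [chevG2, chevB2, chevD4, chevF4, chevE6, chevE7, chevE8]) :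
    ∃ par : List ℕ, IrrFact D par ∧ 0 < D.rank := by
  simp only [List.mem_cons, List.not_mem_nil, or_false] at hD
  rcases hD with rfl | rfl | rfl | rfl | rfl | rfl | rfl
  · exact ⟨_, irrG2_ok, by decide⟩
  · exact ⟨_, irrB2_ok, by decide⟩
  · exact ⟨_, irrD4_ok, by decide⟩
  · exact ⟨_, irrF4_ok, by decide⟩
  · exact ⟨_, irrE6_ok, by decide⟩
  · exact ⟨_, irrE7_ok, by decide⟩
  · exact ⟨_, irrE8_ok, by decide⟩

theorem not_g2_b2 {D : ChevalleyDatum} (hD : D ∈ [chevD4, chevF4, chevE6, chevE7, chevE8]) :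
    ¬ (D = chevG2 ∨ D = chevB2) := by
  simp only [List.mem_cons, List.not_mem_nil, or_false] at hD
  have h1 : D.nroots ≠ chevG2.nroots ∧ D.nroots ≠ chevB2.nroots := by
    rcases hD with rfl | rfl | rfl | rfl | rfl <;> decide
  rintro (rfl | rfl)
  · exact h1.1 rfl
  · exact h1.2 rfl

theorem mem_seven {D : ChevalleyDatum} (hD : D ∈ [chevD4, chevF4, chevE6, chevE7, chevE8]) :
    D ∈ [chevG2, chevB2, chevD4, chevF4, chevE6, chevE7, chevE8] := by
  simp only [List.mem_cons, List.not_mem_nil, or_false] at hD ⊢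
  tauto

section

variable {F : Type*} [Field F]

/-- The Chevalley groups are simple, the types `G₂` and `B₂` over the field with two elements
excepted. -/
theorem simple_all (D : ChevalleyDatum)
    (hD : D ∈ [chevG2, chevB2, chevD4, chevF4, chevE6, chevE7, chevE8])
    (h2 : D = chevG2 ∨ D = chevB2 → ∃ a : F, a ≠ 0 ∧ a ≠ 1) :
    IsSimpleGroup ↥(D.group F) ∧ ¬ IsMulCommutative ↥(D.group F) := by
  obtain ⟨par, hf, h0⟩ := irr_all D hD
  exact chev_simple (hok_all D hD) (nok_all D hD) (nxok_all D hD) (wok_all D hD) (lok_all D hD)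
    (haok_all D hD) (w0ok_all D hD) (commok_all D hD) (posok_all D hD) (orbok_all D hD)
    (bnok_all D hD) (negpos D hD) par hf h0 (perfect_all D hD h2)

end

end Cfsg.Agent.Lib.Helper9
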