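import Cfsg.Agent.Lib.Helper9.ChevTr
import Cfsg.Agent.Lib.Helper9.CertOrb
import Cfsg.Agent.Lib.Helper9.CertN

set_option autoImplicit false

namespace Cfsg.Agent.Lib.Helper9

open Cfsg.Lie

set_option maxRecDepth 1000000 in
theorem trE7_ok_0 : allFrom 0 14 (fun r => trRowB chevE7 permLitE7 etaLitE7 orbJLitE7 orbDLitE7 r) = true := by
  decide +kernel

set_option maxRecDepth 1000000 in
theorem trE7_ok_1 : allFrom 14 14 (fun r => trRowB chevE7 permLitE7 etaLitE7 orbJLitE7 orbDLitE7 r) = true := by
  decide +kernel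

set_option maxRecDepth 1000000 in
theorem trE7_ok_2 : allFrom 28 14 (fun r => trRowB chevE7 permLitE7 etaLitE7 orbJLitE7 orbDLitE7 r) = true := by
  decide +kernel

set_option maxRecDepth 1000000 in
theorem trE7_ok_3 : allFrom 42 14 (fun r => trRowB chevE7 permLitE7 etaLitE7 orbJLitE7 orbDLitE7 r) = true := by
  decide +kernel

set_option maxRecDepth 1000000 in
theorem trE7_ok_4 : allFrom 56 14 (fun r => trRowB chevE7 permLitE7 etaLitE7 orbJLitE7 orbDLitE7 r) = true := by
  decide +kernel

set_option maxRecDepth 1000000 in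
theorem trE7_ok_5 : allFrom 70 14 (fun r => trRowB chevE7 permLitE7 etaLitE7 orbJLitE7 orbDLitE7 r) = true := by
  decide +kernel

set_option maxRecDepth 1000000 in
theorem trE7_ok_6 : allFrom 84 14 (fun r => trRowB chevE7 permLitE7 etaLitE7 orbJLitE7 orbDLitE7 r) = true := by
  decide +kernel

set_option maxRecDepth 1000000 in
theorem trE7_ok_7 : allFrom 98 14 (fun r => trRowB chevE7 permLitE7 etaLitE7 orbJLitE7 orbDLitE7 r) = true := by
  decide +kernel

set_option maxRecDepth 1000000 in
theorem trE7_ok_8 : allFrom 112 14 (fun r => trRowB chevE7 permLitE7 etaLitE7 orbJLitE7 orbDLitE7 r) = true := by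
  decide +kernel

end Cfsg.Agent.Lib.Helper9
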