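import Cfsg.Agent.Lib.Helper9.ChevTr
import Cfsg.Agent.Lib.Helper9.CertOrb
import Cfsg.Agent.Lib.Helper9.CertN

set_option autoImplicit false

namespace Cfsg.Agent.Lib.Helper9

open Cfsg.Lie

set_option maxRecDepth 1000000 in
theorem trE8_ok_0 : allFrom 0 8 (fun r => trRowB chevE8 permLitE8 etaLitE8 orbJLitE8 orbDLitE8 r) = true := by
  decide +kernel

set_option maxRecDepth 1000000 in
theorem trE8_ok_1 : allFrom 8 8 (fun r => trRowB chevE8 permLitE8 etaLitE8 orbJLitE8 orbDLitE8 r) = true := by
  decide +kernel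

set_option maxRecDepth 1000000 in
theorem trE8_ok_2 : allFrom 16 8 (fun r => trRowB chevE8 permLitE8 etaLitE8 orbJLitE8 orbDLitE8 r) = true := by
  decide +kernel

set_option maxRecDepth 1000000 in
theorem trE8_ok_3 : allFrom 24 8 (fun r => trRowB chevE8 permLitE8 etaLitE8 orbJLitE8 orbDLitE8 r) = true := by
  decide +kernel

set_option maxRecDepth 1000000 in
theorem trE8_ok_4 : allFrom 32 8 (fun r => trRowB chevE8 permLitE8 etaLitE8 orbJLitE8 orbDLitE8 r) = true := by
  decide +kernel

set_option maxRecDepth 1000000 in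
theorem trE8_ok_5 : allFrom 40 8 (fun r => trRowB chevE8 permLitE8 etaLitE8 orbJLitE8 orbDLitE8 r) = true := by
  decide +kernel

set_option maxRecDepth 1000000 in
theorem trE8_ok_6 : allFrom 48 8 (fun r => trRowB chevE8 permLitE8 etaLitE8 orbJLitE8 orbDLitE8 r) = true := by
  decide +kernel

set_option maxRecDepth 1000000 in
theorem trE8_ok_7 : allFrom 56 8 (fun r => trRowB chevE8 permLitE8 etaLitE8 orbJLitE8 orbDLitE8 r) = true := by
  decide +kernel

set_option maxRecDepth 1000000 in
theorem trE8_ok_8 : allFrom 64 8 (fun r => trRowB chevE8 permLitE8 etaLitE8 orbJLitE8 orbDLitE8 r) = true := by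
  decide +kernel

set_option maxRecDepth 1000000 in
theorem trE8_ok_9 : allFrom 72 8 (fun r => trRowB chevE8 permLitE8 etaLitE8 orbJLitE8 orbDLitE8 r) = true := by
  decide +kernel

end Cfsg.Agent.Lib.Helper9
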