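import Cfsg.Agent.Lib.Helper9.ChevTr
import Cfsg.Agent.Lib.Helper9.CertOrb
import Cfsg.Agent.Lib.Helper9.CertN

set_option autoImplicit false

namespace Cfsg.Agent.Lib.Helper9

open Cfsg.Lie

set_option maxRecDepth 1000000 in
theorem trE8_ok_10 : allFrom 80 8 (fun r => trRowB chevE8 permLitE8 etaLitE8 orbJLitE8 orbDLitE8 r) = true := by
  decide +kernel

set_option maxRecDepth 1000000 in
theorem trE8_ok_11 : allFrom 88 8 (fun r => trRowB chevE8 permLitE8 etaLitE8 orbJLitE8 orbDLitE8 r) = true := by
  decide +kernel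

set_option maxRecDepth 1000000 in
theorem trE8_ok_12 : allFrom 96 8 (fun r => trRowB chevE8 permLitE8 etaLitE8 orbJLitE8 orbDLitE8 r) = true := by
  decide +kernel

set_option maxRecDepth 1000000 in
theorem trE8_ok_13 : allFrom 104 8 (fun r => trRowB chevE8 permLitE8 etaLitE8 orbJLitE8 orbDLitE8 r) = true := by
  decide +kernel

set_option maxRecDepth 1000000 in
theorem trE8_ok_14 : allFrom 112 8 (fun r => trRowB chevE8 permLitE8 etaLitE8 orbJLitE8 orbDLitE8 r) = true := by
  decide +kernel

set_option maxRecDepth 1000000 in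
theorem trE8_ok_15 : allFrom 120 8 (fun r => trRowB chevE8 permLitE8 etaLitE8 orbJLitE8 orbDLitE8 r) = true := by
  decide +kernel

set_option maxRecDepth 1000000 in
theorem trE8_ok_16 : allFrom 128 8 (fun r => trRowB chevE8 permLitE8 etaLitE8 orbJLitE8 orbDLitE8 r) = true := by
  decide +kernel

set_option maxRecDepth 1000000 in
theorem trE8_ok_17 : allFrom 136 8 (fun r => trRowB chevE8 permLitE8 etaLitE8 orbJLitE8 orbDLitE8 r) = true := by
  decide +kernel

set_option maxRecDepth 1000000 in
theorem trE8_ok_18 : allFrom 144 8 (fun r => trRowB chevE8 permLitE8 etaLitE8 orbJLitE8 orbDLitE8 r) = true := by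
  decide +kernel

set_option maxRecDepth 1000000 in
theorem trE8_ok_19 : allFrom 152 8 (fun r => trRowB chevE8 permLitE8 etaLitE8 orbJLitE8 orbDLitE8 r) = true := by
  decide +kernel

end Cfsg.Agent.Lib.Helper9
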