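import Cfsg.Agent.Lib.Helper9.ChevTr
import Cfsg.Agent.Lib.Helper9.CertOrb
import Cfsg.Agent.Lib.Helper9.CertN

set_option autoImplicit false

namespace Cfsg.Agent.Lib.Helper9

open Cfsg.Lie

set_option maxRecDepth 1000000 in
theorem trE8_ok_20 : allFrom 160 8 (fun r => trRowB chevE8 permLitE8 etaLitE8 orbJLitE8 orbDLitE8 r) = true := by
  decide +kernel

set_option maxRecDepth 1000000 in
theorem trE8_ok_21 : allFrom 168 8 (fun r => trRowB chevE8 permLitE8 etaLitE8 orbJLitE8 orbDLitE8 r) = true := by
  decide +kernel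

set_option maxRecDepth 1000000 in
theorem trE8_ok_22 : allFrom 176 8 (fun r => trRowB chevE8 permLitE8 etaLitE8 orbJLitE8 orbDLitE8 r) = true := by
  decide +kernel

set_option maxRecDepth 1000000 in
theorem trE8_ok_23 : allFrom 184 8 (fun r => trRowB chevE8 permLitE8 etaLitE8 orbJLitE8 orbDLitE8 r) = true := by
  decide +kernel

set_option maxRecDepth 1000000 in
theorem trE8_ok_24 : allFrom 192 8 (fun r => trRowB chevE8 permLitE8 etaLitE8 orbJLitE8 orbDLitE8 r) = true := by
  decide +kernel

set_option maxRecDepth 1000000 in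
theorem trE8_ok_25 : allFrom 200 8 (fun r => trRowB chevE8 permLitE8 etaLitE8 orbJLitE8 orbDLitE8 r) = true := by
  decide +kernel

set_option maxRecDepth 1000000 in
theorem trE8_ok_26 : allFrom 208 8 (fun r => trRowB chevE8 permLitE8 etaLitE8 orbJLitE8 orbDLitE8 r) = true := by
  decide +kernel

set_option maxRecDepth 1000000 in
theorem trE8_ok_27 : allFrom 216 8 (fun r => trRowB chevE8 permLitE8 etaLitE8 orbJLitE8 orbDLitE8 r) = true := by
  decide +kernel

set_option maxRecDepth 1000000 in
theorem trE8_ok_28 : allFrom 224 8 (fun r => trRowB chevE8 permLitE8 etaLitE8 orbJLitE8 orbDLitE8 r) = true := by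
  decide +kernel

set_option maxRecDepth 1000000 in
theorem trE8_ok_29 : allFrom 232 8 (fun r => trRowB chevE8 permLitE8 etaLitE8 orbJLitE8 orbDLitE8 r) = true := by
  decide +kernel

end Cfsg.Agent.Lib.Helper9
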