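import Cfsg.Agent.Lib.Helper9.CertTrS
import Cfsg.Agent.Lib.Helper9.CertTrE7
import Cfsg.Agent.Lib.Helper9.CertTrE8a
import Cfsg.Agent.Lib.Helper9.CertTrE8b
import Cfsg.Agent.Lib.Helper9.CertTrE8c

set_option autoImplicit false

namespace Cfsg.Agent.Lib.Helper9

open Cfsg.Lie

theorem trG2_ok (r : ℕ) (hr : r < 12) : (fun r => trRowB chevG2 permLitG2 etaLitG2 orbJLitG2 orbDLitG2 r) r = true := by
  exact allFrom_spec trG2_ok_0 (by omega) (by omega)

theorem trB2_ok (r : ℕ) (hr : r < 8) : (fun r => trRowB chevB2 permLitB2 etaLitB2 orbJLitB2 orbDLitB2 r) r = true := by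
  exact allFrom_spec trB2_ok_0 (by omega) (by omega)

theorem trD4_ok (r : ℕ) (hr : r < 24) : (fun r => trRowB chevD4 permLitD4 etaLitD4 orbJLitD4 orbDLitD4 r) r = true := by
  exact allFrom_spec trD4_ok_0 (by omega) (by omega)

theorem trF4_ok (r : ℕ) (hr : r < 48) : (fun r => trRowB chevF4 permLitF4 etaLitF4 orbJLitF4 orbDLitF4 r) r = true := by
  by_cases h0 : r < 24
  · exact allFrom_spec trF4_ok_0 (by omega) (by omega)
  exact allFrom_spec trF4_ok_1 (by omega) (by omega)

theorem trE6_ok (r : ℕ) (hr : r < 72) : (fun r => trRowB chevE6 permLitE6 etaLitE6 orbJLitE6 orbDLitE6 r) r = true := by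
  by_cases h0 : r < 18
  · exact allFrom_spec trE6_ok_0 (by omega) (by omega)
  by_cases h1 : r < 36
  · exact allFrom_spec trE6_ok_1 (by omega) (by omega)
  by_cases h2 : r < 54
  · exact allFrom_spec trE6_ok_2 (by omega) (by omega)
  exact allFrom_spec trE6_ok_3 (by omega) (by omega)

theorem trE7_ok (r : ℕ) (hr : r < 126) : (fun r => trRowB chevE7 permLitE7 etaLitE7 orbJLitE7 orbDLitE7 r) r = true := by
  by_cases h0 : r < 14
  · exact allFrom_spec trE7_ok_0 (by omega) (by omega)
  by_cases h1 : r < 28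
  · exact allFrom_spec trE7_ok_1 (by omega) (by omega)
  by_cases h2 : r < 42
  · exact allFrom_spec trE7_ok_2 (by omega) (by omega)
  by_cases h3 : r < 56
  · exact allFrom_spec trE7_ok_3 (by omega) (by omega)
  by_cases h4 : r < 70
  · exact allFrom_spec trE7_ok_4 (by omega) (by omega)
  by_cases h5 : r < 84
  · exact allFrom_spec trE7_ok_5 (by omega) (by omega)
  by_cases h6 : r < 98
  · exact allFrom_spec trE7_ok_6 (by omega) (by omega)
  by_cases h7 : r < 112
  · exact allFrom_spec trE7_ok_7 (by omega) (by omega)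
  exact allFrom_spec trE7_ok_8 (by omega) (by omega)

theorem trE8_ok (r : ℕ) (hr : r < 240) : (fun r => trRowB chevE8 permLitE8 etaLitE8 orbJLitE8 orbDLitE8 r) r = true := by
  by_cases h0 : r < 8
  · exact allFrom_spec trE8_ok_0 (by omega) (by omega)
  by_cases h1 : r < 16
  · exact allFrom_spec trE8_ok_1 (by omega) (by omega)
  by_cases h2 : r < 24
  · exact allFrom_spec trE8_ok_2 (by omega) (by omega)
  by_cases h3 : r < 32
  · exact allFrom_spec trE8_ok_3 (by omega) (by omega)
  by_cases h4 : r < 40
  · exact allFrom_spec trE8_ok_4 (by omega) (by omega)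
  by_cases h5 : r < 48
  · exact allFrom_spec trE8_ok_5 (by omega) (by omega)
  by_cases h6 : r < 56
  · exact allFrom_spec trE8_ok_6 (by omega) (by omega)
  by_cases h7 : r < 64
  · exact allFrom_spec trE8_ok_7 (by omega) (by omega)
  by_cases h8 : r < 72
  · exact allFrom_spec trE8_ok_8 (by omega) (by omega)
  by_cases h9 : r < 80
  · exact allFrom_spec trE8_ok_9 (by omega) (by omega)
  by_cases h10 : r < 88
  · exact allFrom_spec trE8_ok_10 (by omega) (by omega)
  by_cases h11 : r < 96
  · exact allFrom_spec trE8_ok_11 (by omega) (by omega)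
  by_cases h12 : r < 104
  · exact allFrom_spec trE8_ok_12 (by omega) (by omega)
  by_cases h13 : r < 112
  · exact allFrom_spec trE8_ok_13 (by omega) (by omega)
  by_cases h14 : r < 120
  · exact allFrom_spec trE8_ok_14 (by omega) (by omega)
  by_cases h15 : r < 128
  · exact allFrom_spec trE8_ok_15 (by omega) (by omega)
  by_cases h16 : r < 136
  · exact allFrom_spec trE8_ok_16 (by omega) (by omega)
  by_cases h17 : r < 144
  · exact allFrom_spec trE8_ok_17 (by omega) (by omega)
  by_cases h18 : r < 152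
  · exact allFrom_spec trE8_ok_18 (by omega) (by omega)
  by_cases h19 : r < 160
  · exact allFrom_spec trE8_ok_19 (by omega) (by omega)
  by_cases h20 : r < 168
  · exact allFrom_spec trE8_ok_20 (by omega) (by omega)
  by_cases h21 : r < 176
  · exact allFrom_spec trE8_ok_21 (by omega) (by omega)
  by_cases h22 : r < 184
  · exact allFrom_spec trE8_ok_22 (by omega) (by omega)
  by_cases h23 : r < 192
  · exact allFrom_spec trE8_ok_23 (by omega) (by omega)
  by_cases h24 : r < 200
  · exact allFrom_spec trE8_ok_24 (by omega) (by omega)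
  by_cases h25 : r < 208
  · exact allFrom_spec trE8_ok_25 (by omega) (by omega)
  by_cases h26 : r < 216
  · exact allFrom_spec trE8_ok_26 (by omega) (by omega)
  by_cases h27 : r < 224
  · exact allFrom_spec trE8_ok_27 (by omega) (by omega)
  by_cases h28 : r < 232
  · exact allFrom_spec trE8_ok_28 (by omega) (by omega)
  exact allFrom_spec trE8_ok_29 (by omega) (by omega)

/-- The verified behaviour of the commutator constants under the fundamental reflections. -/
structure TROK (D : ChevalleyDatum) : Prop where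
  tr : ∀ r < D.nroots, trRowB D (permOf D) (etaOf D) (orbJOf D) (orbDOf D) r = true

theorem trok_all (D : ChevalleyDatum)
    (hD : D ∈ [chevG2, chevB2, chevD4, chevF4, chevE6, chevE7, chevE8]) : TROK D := by
  simp only [List.mem_cons, List.not_mem_nil, or_false] at hD
  rcases hD with rfl | rfl | rfl | rfl | rfl | rfl | rfl
  · exact ⟨fun r hr => trG2_ok r hr⟩
  · exact ⟨fun r hr => trB2_ok r hr⟩
  · exact ⟨fun r hr => trD4_ok r hr⟩
  · exact ⟨fun r hr => trF4_ok r hr⟩
  · exact ⟨fun r hr => trE6_ok r hr⟩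
  · exact ⟨fun r hr => trE7_ok r hr⟩
  · exact ⟨fun r hr => trE8_ok r hr⟩

end Cfsg.Agent.Lib.Helper9
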