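import Cfsg.Agent.Lib.Helper9.ChevTr
import Cfsg.Agent.Lib.Helper9.CertOrb
import Cfsg.Agent.Lib.Helper9.CertN

set_option autoImplicit false

namespace Cfsg.Agent.Lib.Helper9

open Cfsg.Lie

set_option maxRecDepth 1000000 in
theorem trG2_ok_0 : allFrom 0 12 (fun r => trRowB chevG2 permLitG2 etaLitG2 orbJLitG2 orbDLitG2 r) = true := by
  decide +kernel

set_option maxRecDepth 1000000 in
theorem trB2_ok_0 : allFrom 0 8 (fun r => trRowB chevB2 permLitB2 etaLitB2 orbJLitB2 orbDLitB2 r) = true := by
  decide +kernel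

set_option maxRecDepth 1000000 in
theorem trD4_ok_0 : allFrom 0 24 (fun r => trRowB chevD4 permLitD4 etaLitD4 orbJLitD4 orbDLitD4 r) = true := by
  decide +kernel

set_option maxRecDepth 1000000 in
theorem trF4_ok_0 : allFrom 0 24 (fun r => trRowB chevF4 permLitF4 etaLitF4 orbJLitF4 orbDLitF4 r) = true := by
  decide +kernel

set_option maxRecDepth 1000000 in
theorem trF4_ok_1 : allFrom 24 24 (fun r => trRowB chevF4 permLitF4 etaLitF4 orbJLitF4 orbDLitF4 r) = true := by
  decide +kernel

set_option maxRecDepth 1000000 in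
theorem trE6_ok_0 : allFrom 0 18 (fun r => trRowB chevE6 permLitE6 etaLitE6 orbJLitE6 orbDLitE6 r) = true := by
  decide +kernel

set_option maxRecDepth 1000000 in
theorem trE6_ok_1 : allFrom 18 18 (fun r => trRowB chevE6 permLitE6 etaLitE6 orbJLitE6 orbDLitE6 r) = true := by
  decide +kernel

set_option maxRecDepth 1000000 in
theorem trE6_ok_2 : allFrom 36 18 (fun r => trRowB chevE6 permLitE6 etaLitE6 orbJLitE6 orbDLitE6 r) = true := by
  decide +kernel

set_option maxRecDepth 1000000 in
theorem trE6_ok_3 : allFrom 54 18 (fun r => trRowB chevE6 permLitE6 etaLitE6 orbJLitE6 orbDLitE6 r) = true := by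
  decide +kernel

end Cfsg.Agent.Lib.Helper9
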