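import Cfsg.Agent.Lib.Helper9.ChevFast

set_option autoImplicit false

namespace Cfsg.Agent.Lib.Helper9

open Cfsg.Lie

section

variable (D : ChevalleyDatum) {F : Type*} [Field F]

/-- The numeric part of the code of a packed entry, the signs removed. -/
def num2 (n : ℕ) : ℕ := rmF 7 40 (Nat.div n 512)

/-- The bit mask of the rows of a packed vector with an odd coefficient. -/
def mask2 (v : List ℕ) : ℕ :=
  List.rec 0 (fun n _ ih => cond (Nat.beq (Nat.mod (num2 n) 2) 0) ih
    (Nat.xor ih (Nat.pow 2 (Nat.mod n 512)))) v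

theorem mask2_nil : mask2 [] = 0 := rfl

theorem mask2_cons (n : ℕ) (v : List ℕ) :
    mask2 (n :: v) = cond (Nat.beq (Nat.mod (num2 n) 2) 0) (mask2 v)
      (Nat.xor (mask2 v) (Nat.pow 2 (Nat.mod n 512))) := rfl

/-- All the codes of a packed vector are integers. -/
def okAll2 (v : List ℕ) : Bool :=
  List.rec true (fun n _ ih => and (or (Nat.beq (num2 n) 0) (smoothB (num2 n))) ih) v

theorem okAll2_cons (n : ℕ) (v : List ℕ) :
    okAll2 (n :: v) = and (or (Nat.beq (num2 n) 0) (smoothB (num2 n))) (okAll2 v) :=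
  rfl

theorem evalMono_num2 {ρ : ℕ → F} (hρ : StdVal ρ) (h2 : (2 : F) = 0) (n : ℕ)
    (h : or (Nat.beq (num2 n) 0) (smoothB (num2 n)) = true) :
    evalMono ρ (n / 512) = if num2 n % 2 = 0 then 0 else 1 := by
  have h7 : evalMono ρ 7 = 1 := by
    rw [evalMono_seven hρ]
    have : (-1 : F) = 1 - 2 := by ring
    rw [this, h2, sub_zero]
  have e1 : evalMono ρ (num2 n) = evalMono ρ (n / 512) := evalMono_rmF ρ 7 h7 40 _
  rw [← e1]
  rw [Bool.or_eq_true] at h
  rcases h with h | h
  · have h0 : num2 n = 0 := Nat.eq_of_beq_eq_true h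
    rw [h0, evalMono_zero]
    simp
  rw [evalMono_smoothB hρ h]
  have e2 : ((num2 n : ℕ) : F) = ((num2 n % 2 : ℕ) : F) := by
    conv_lhs => rw [← Nat.div_add_mod (num2 n) 2]
    push_cast
    rw [h2, zero_mul, zero_add]
  rw [e2]
  rcases Nat.mod_two_eq_zero_or_one (num2 n) with h3 | h3 <;> simp [h3]

theorem pval_mask2 {ρ : ℕ → F} (hρ : StdVal ρ) (h2 : (2 : F) = 0) (v : List ℕ)
    (h : okAll2 v = true) (i : D.Idx) :
    pval D ρ v i = if (mask2 v).testBit (idxCode D i) then 1 else 0 := by
  induction v with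
  | nil =>
    rw [mask2_nil]
    simp [pval, evalVec]
  | cons n v ih =>
    rw [okAll2_cons, Bool.and_eq_true] at h
    have ih' := ih h.2
    have e1 : pval D ρ (n :: v) i = evalVec D ρ [unpack n] i + pval D ρ v i := by
      rw [pval, List.map_cons, evalVec_cons]
      rfl
    rw [e1, evalVec_single_apply, ih', mask2_cons]
    have e2 : (unpack n).1 = n % 512 := rfl
    have e3 : (unpack n).2.1 = 1 := rfl
    have e4 : (unpack n).2.2 = n / 512 := rfl
    rw [e2, e3, e4, evalMono_num2 hρ h2 n h.1]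
    have e5 : Nat.mod (num2 n) 2 = num2 n % 2 := rfl
    have e6 : Nat.mod n 512 = n % 512 := rfl
    have e7 : ∀ a b : ℕ, Nat.xor a b = a ^^^ b := fun _ _ => rfl
    have e8 : ∀ k : ℕ, Nat.pow 2 k = 2 ^ k := fun _ => rfl
    rw [e5, e6, e7, e8]
    rcases Nat.mod_two_eq_zero_or_one (num2 n) with h3 | h3
    · have : Nat.beq (num2 n % 2) 0 = true := by rw [h3]; rfl
      rw [this, cond_true, h3]
      simp
    · have : Nat.beq (num2 n % 2) 0 = false := by rw [h3]; rfl
      rw [this, cond_false, h3, Nat.testBit_xor, Nat.testBit_two_pow]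
      by_cases hr : n % 512 = idxCode D i
      · simp only [hr, if_true, decide_true, Bool.xor_true]
        cases (mask2 v).testBit (idxCode D i)
        · simp
        · simp only [Bool.not_true, if_true]
          norm_num
          exact h2
      · simp [hr]

/-- The packed vector of the rows below `N` in a bit mask. -/
def redL (m N : ℕ) : List ℕ :=
  Nat.rec [] (fun k ih => cond (Nat.testBit m k) (Nat.add k 512 :: ih) ih) N

theorem redL_succ (m k : ℕ) :
    redL m (k + 1) = cond (Nat.testBit m k) (Nat.add k 512 :: redL m k) (redL m k) := rfl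

theorem pval_redL (ρ : ℕ → F) (m : ℕ) (i : D.Idx) :
    ∀ N ≤ 512, pval D ρ (redL m N) i =
      if idxCode D i < N ∧ m.testBit (idxCode D i) = true then 1 else 0 := by
  intro N
  induction N with
  | zero =>
    intro _
    simp [redL, pval, evalVec]
  | succ k ih =>
    intro hk
    have ih' := ih (by omega)
    rw [redL_succ]
    cases hb : Nat.testBit m k with
    | false =>
      rw [cond_false, ih']
      by_cases h1 : idxCode D i = k
      · have h3 : ¬ (idxCode D i < k) := by omega
        simp [h1, hb]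
      · have h3 : idxCode D i < k ↔ idxCode D i < k + 1 := by omega
        simp [h3]
    | true =>
      rw [cond_true]
      have e1 : pval D ρ (Nat.add k 512 :: redL m k) i =
          evalVec D ρ [unpack (Nat.add k 512)] i + pval D ρ (redL m k) i := by
        rw [pval, List.map_cons, evalVec_cons]
        rfl
      have e2 : unpack (Nat.add k 512) = (k, 1, 1) := by
        show unpack (k + 512) = _
        rw [unpack]
        have h2 : (k + 512) % 512 = k := by omega
        have h3 : (k + 512) / 512 = 1 := by omega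
        rw [h2, h3]
      rw [e1, e2, evalVec_single_apply, ih', evalMono_one]
      by_cases h1 : idxCode D i = k
      · have h3 : ¬ (idxCode D i < k) := by omega
        simp [h1, hb]
      · have h3 : idxCode D i < k ↔ idxCode D i < k + 1 := by omega
        have h4 : ¬ k = idxCode D i := fun e => h1 e.symm
        simp [h3, h4]

/-- Reduce a packed vector modulo two. -/
def red2 (N : ℕ) (v : List ℕ) : List ℕ := redL (mask2 v) N

theorem pval_red2 {ρ : ℕ → F} (hρ : StdVal ρ) (h2 : (2 : F) = 0)
    (hN : D.rank + D.nroots ≤ 512) (v : List ℕ) (h : okAll2 v = true) :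
    pval D ρ (red2 (D.rank + D.nroots) v) = pval D ρ v := by
  funext i
  rw [red2, pval_redL D ρ _ i _ hN, pval_mask2 D hρ h2 v h]
  simp [idxCode_lt D i]

/-- Apply a list of packed tables, reducing modulo two at each step. -/
def papplys2 (N : ℕ) (ops : List (ℕ → List ℕ)) (v : List ℕ) : List ℕ :=
  List.rec v (fun f _ ih => red2 N (papply N f ih)) ops

theorem papplys2_cons (N : ℕ) (f : ℕ → List ℕ) (ops : List (ℕ → List ℕ)) (v : List ℕ) :
    papplys2 N (f :: ops) v = red2 N (papply N f (papplys2 N ops v)) := rfl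

/-- All the intermediate vectors have integer codes. -/
def okApplys2 (N : ℕ) (ops : List (ℕ → List ℕ)) (v : List ℕ) : Bool :=
  List.rec true (fun f ops' ih => and ih (okAll2 (papply N f (papplys2 N ops' v)))) ops

theorem okApplys2_cons (N : ℕ) (f : ℕ → List ℕ) (ops : List (ℕ → List ℕ)) (v : List ℕ) :
    okApplys2 N (f :: ops) v =
      and (okApplys2 N ops v) (okAll2 (papply N f (papplys2 N ops v))) := rfl

theorem pval_papplys2 {ρ : ℕ → F} (hρ : StdVal ρ) (h2 : (2 : F) = 0)
    (hN : D.rank + D.nroots ≤ 512) (ops : List (ℕ → List ℕ)) (v : List ℕ)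
    (h : okApplys2 (D.rank + D.nroots) ops v = true) :
    pval D ρ (papplys2 (D.rank + D.nroots) ops v) = (ptabsMat D ρ ops).mulVec (pval D ρ v) := by
  induction ops with
  | nil =>
    show pval D ρ v = _
    simp [ptabsMat_nil]
  | cons f ops ih =>
    rw [okApplys2_cons, Bool.and_eq_true] at h
    rw [papplys2_cons, pval_red2 D hρ h2 hN _ h.2, pval_papply, ih h.1, ptabsMat_cons,
      Matrix.mulVec_mulVec]

/-- Column test modulo two for the equality of two products of packed tables. -/
def pcolEq2 (N : ℕ) (ops₁ ops₂ : List (ℕ → List ℕ)) (c : ℕ) : Bool :=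
  and (and (okApplys2 N ops₁ [Nat.add c 512]) (okApplys2 N ops₂ [Nat.add c 512]))
    (eqL (papplys2 N ops₁ [Nat.add c 512]) (papplys2 N ops₂ [Nat.add c 512]))

theorem ptabsMat_eq_of_pcolEq2 (hN : D.rank + D.nroots ≤ 512) {ρ : ℕ → F} (hρ : StdVal ρ)
    (h2 : (2 : F) = 0) (ops₁ ops₂ : List (ℕ → List ℕ))
    (h : ∀ c < D.rank + D.nroots, pcolEq2 (D.rank + D.nroots) ops₁ ops₂ c = true) :
    ptabsMat D ρ ops₁ = ptabsMat D ρ ops₂ := by
  ext row col
  have h1 := h _ (idxCode_lt D col)
  rw [pcolEq2] at h1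
  simp only [Bool.and_eq_true] at h1
  obtain ⟨⟨h3, h4⟩, h5⟩ := h1
  have e1 := pval_papplys2 D hρ h2 hN ops₁ _ h3
  have e2 := pval_papplys2 D hρ h2 hN ops₂ _ h4
  rw [eqL_sound h5, e2, pval_basis D hN, Matrix.mulVec_single_one, Matrix.mulVec_single_one] at e1
  exact (congrFun e1 row).symm

/-- The packed tables of a word with integer arguments given by codes. -/
def wordOps (lits : List ℕ) (w : List (ℕ × ℕ)) : List (ℕ → List ℕ) :=
  w.map (fun p => xF D lits p.1 p.2)

theorem ptabsMat_wordOps {ρ : ℕ → F} (hρ : StdVal ρ) (lits : List ℕ)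
    (hok : ∀ k < D.nroots, xOKb D lits k = true) (w : List (ℕ × ℕ))
    (hw : ∀ p ∈ w, p.1 < D.nroots) :
    ptabsMat D ρ (wordOps D lits w) = D.wordMat F (w.map (fun p => (p.1, evalMono ρ p.2))) := by
  induction w with
  | nil => simp [wordOps, ptabsMat_nil, ChevalleyDatum.wordMat]
  | cons p w ih =>
    have h1 : wordOps D lits (p :: w) = xF D lits p.1 p.2 :: wordOps D lits w := rfl
    rw [h1, ptabsMat_cons, ih (fun q hq => hw q (by simp [hq])),
      ptabMat_xF D hρ lits p.1 (hw p (by simp)) (hok p.1 (hw p (by simp)))]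
    simp [ChevalleyDatum.wordMat]

/-- Two words with integer arguments have the same matrix in characteristic two when the
columns agree modulo two. -/
theorem wordMat_eq_of_pcolEq2 (hN : D.rank + D.nroots ≤ 512) {ρ : ℕ → F} (hρ : StdVal ρ)
    (h2 : (2 : F) = 0) (lits : List ℕ) (hok : ∀ k < D.nroots, xOKb D lits k = true)
    (w₁ w₂ : List (ℕ × ℕ)) (hw₁ : ∀ p ∈ w₁, p.1 < D.nroots) (hw₂ : ∀ p ∈ w₂, p.1 < D.nroots)
    (h : ∀ c < D.rank + D.nroots,
      pcolEq2 (D.rank + D.nroots) (wordOps D lits w₁) (wordOps D lits w₂) c = true) :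
    D.wordMat F (w₁.map (fun p => (p.1, evalMono ρ p.2))) =
      D.wordMat F (w₂.map (fun p => (p.1, evalMono ρ p.2))) := by
  rw [← ptabsMat_wordOps D hρ lits hok w₁ hw₁, ← ptabsMat_wordOps D hρ lits hok w₂ hw₂]
  exact ptabsMat_eq_of_pcolEq2 D hN hρ h2 _ _ h

end

end Cfsg.Agent.Lib.Helper9
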