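import Cfsg.Agent.Lib.Helper9.ChevNX

set_option autoImplicit false

namespace Cfsg.Agent.Lib.Helper9

open Cfsg.Lie

section refl

variable (D : ChevalleyDatum) {F : Type*} [Field F]

theorem cartanExp_cartan {i c : ℕ} (hc : c < D.rank) : cartanExp D i c = 0 := by
  have hb : Nat.blt c D.rank = true := by simp [Nat.blt_eq, hc]
  simp only [cartanExp, hb]
  rfl

/-- The exponents of `h_{w_i(p_j)}(t)`. -/
def reflExp (i j : ℕ) (c : ℕ) : ℤ :=
  Int.sub (cartanExp D j c) (Int.mul (D.cartan j (D.simple i)) (cartanExp D i c))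

theorem reflExp_eq (i j c : ℕ) :
    reflExp D i j c = cartanExp D j c - D.cartan j (D.simple i) * cartanExp D i c := rfl

/-- Test for `n_{p_i} h_{p_j}(t) = h_{w_i(p_j)}(t) n_{p_i}`. -/
def nhB (lits : List ℕ) (P i j : ℕ) : Bool :=
  and
    (Bool.rec (motive := fun _ => Bool)
      (hdiagB D lits (D.reflectRoot i (D.simple j)) (reflExp D i j))
      (izero (D.cartan j (D.simple i)))
      (Nat.beq (D.reflectRoot i (D.simple j)) (D.simple j)))
    (allB D.nroots (fun s => izero (Int.sub (cartanExp D j (Nat.add D.rank s))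
      (reflExp D i j (Nat.add D.rank (digitAt 256 P s))))))

/-- `h_{w_i(p_j)}(t)` is diagonal. -/
theorem hMat_refl (hN : D.rank + D.nroots ≤ 512) (lits : List ℕ) (P i j : ℕ)
    (hxok : ∀ r < D.nroots, xOKb D lits r = true)
    (hneg : ∀ r < D.nroots, D.neg r < D.nroots)
    (hsj : D.simple j < D.nroots) (hws : D.reflectRoot i (D.simple j) < D.nroots)
    (hdj : hdiagB D lits (D.simple j) (cartanExp D j) = true)
    (h : nhB D lits P i j = true) (t : F) (ht : t ≠ 0) :
    D.hMat F (D.reflectRoot i (D.simple j)) t =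
      Matrix.diagonal (fun col : D.Idx => t ^ reflExp D i j (idxCode D col)) := by
  simp only [nhB, Bool.and_eq_true] at h
  have h1 := h.1
  rw [brec_cond] at h1
  cases hb : Nat.beq (D.reflectRoot i (D.simple j)) (D.simple j) with
  | true =>
    rw [hb, cond_true] at h1
    have h2 : D.cartan j (D.simple i) = 0 := izero_true h1
    have h3 : D.reflectRoot i (D.simple j) = D.simple j := Nat.eq_of_beq_eq_true hb
    rw [h3, hMat_eq_diag D hN lits _ hsj (hneg _ hsj) (hxok _ hsj) (hxok _ (hneg _ hsj)) _ hdj t ht]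
    congr 1
    funext col
    rw [reflExp_eq, h2, zero_mul, sub_zero]
  | false =>
    rw [hb, cond_false] at h1
    exact hMat_eq_diag D hN lits _ hws (hneg _ hws) (hxok _ hws) (hxok _ (hneg _ hws)) _ h1 t ht

/-- `n_{p_i} h_{p_j}(t) = h_{w_i(p_j)}(t) n_{p_i}`. -/
theorem nh_comm (hN : D.rank + D.nroots ≤ 512) (lits : List ℕ) (P E i j : ℕ) (hi : i < D.rank)
    (hxok : ∀ r < D.nroots, xOKb D lits r = true)
    (hneg : ∀ r < D.nroots, D.neg r < D.nroots)
    (hsi : D.simple i < D.nroots) (hsj : D.simple j < D.nroots)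
    (hci : cartanOKb D i = true) (hn : nOKb D lits E i = true) (hperm : permOKb D P i = true)
    (hdj : hdiagB D lits (D.simple j) (cartanExp D j) = true)
    (h : nhB D lits P i j = true) (t : F) (ht : t ≠ 0) :
    D.nMat F (D.simple i) 1 * D.hMat F (D.simple j) t =
      D.hMat F (D.reflectRoot i (D.simple j)) t * D.nMat F (D.simple i) 1 := by
  have hf := nOKb_facts D lits E i hci hn
  have hws : D.reflectRoot i (D.simple j) < D.nroots := (hf.2.2.2 _ hsj).1
  rw [hMat_refl D hN lits P i j hxok hneg hsj hws hdj h t ht,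
    hMat_eq_diag D hN lits _ hsj (hneg _ hsj) (hxok _ hsj) (hxok _ (hneg _ hsj)) _ hdj t ht]
  obtain ⟨η, _, _, _, _, hM⟩ := nMat_explicit (F := F) D hN lits E i hi hsi (hneg _ hsi)
    (hxok _ hsi) (hxok _ (hneg _ hsi)) hci hn
  rw [hM]
  simp only [nhB, Bool.and_eq_true] at h
  have h2 := h.2
  ext row col
  rw [Matrix.mul_diagonal, Matrix.diagonal_mul, Matrix.of_apply]
  rcases row with j' | s'
  · rcases col with j0 | s
    · have e1 : cartanExp D j (idxCode D (Sum.inl j0 : D.Idx)) = 0 := cartanExp_cartan D j0.2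
      have e2 : reflExp D i j (idxCode D (Sum.inl j' : D.Idx)) = 0 := by
        have e3 : cartanExp D j (idxCode D (Sum.inl j' : D.Idx)) = 0 := cartanExp_cartan D j'.2
        have e4 : cartanExp D i (idxCode D (Sum.inl j' : D.Idx)) = 0 := cartanExp_cartan D j'.2
        rw [reflExp_eq, e3, e4]
        simp
      rw [e1, e2]
      simp
    · simp
  · rcases col with j0 | s
    · simp
    · simp only [Sum.elim_inr]
      by_cases h3 : (s' : ℕ) = D.reflectRoot i s
      · have h4 : digitAt 256 P s = D.reflectRoot i s :=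
          Nat.eq_of_beq_eq_true (allB_spec hperm s.2)
        have h5 := izero_sub (allB_spec h2 s.2)
        rw [h4, ← h3] at h5
        have e1 : idxCode D (Sum.inr s : D.Idx) = Nat.add D.rank s := rfl
        have e2 : idxCode D (Sum.inr s' : D.Idx) = Nat.add D.rank s' := rfl
        rw [e1, e2, h5]
        ring
      · simp [h3]

end refl

end Cfsg.Agent.Lib.Helper9
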