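import Cfsg.Agent.Lib.Helper9.ThmU

set_option autoImplicit false

namespace Cfsg.Agent.Lib.Helper9

open Cfsg.Lie

/-- Drop the first `n` entries of a list (by the recursor). -/
def dropF {α : Type} (l : List α) (n : ℕ) : List α := Nat.rec l (fun _ ih => List.tail ih) n

theorem dropF_eq {α : Type} (l : List α) (n : ℕ) : dropF l n = l.drop n := by
  induction n with
  | zero => rfl
  | succ n ih =>
    show List.tail (dropF l n) = _
    rw [ih, List.tail_drop]

theorem headD_dropF {α : Type} (l : List α) (n : ℕ) (d : α) :
    List.headD (dropF l n) d = l.getD n d := by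
  rw [dropF_eq, List.headD_eq_head?_getD, List.head?_drop]
  simp

/-- Apply a function to a natural number after bringing the number to a canonical form. -/
def forceNat {α : Type} (k : ℕ) (f : ℕ → α) : α := Nat.rec (f 0) (fun m _ => f (Nat.succ m)) k

theorem forceNat_eq {α : Type} (k : ℕ) (f : ℕ → α) : forceNat k f = f k := by
  cases k <;> rfl

/-- The row of the chain table of the root `r`, as a list. -/
def rowF (D : ChevalleyDatum) (r : ℕ) : List (ℕ × Array (ℕ × ℤ)) :=
  Array.toList (List.headD (dropF D.chain.toList r) #[])

theorem rowF_eq (D : ChevalleyDatum) (r : ℕ) : rowF D r = (D.chain.getD r #[]).toList := by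
  unfold rowF
  rw [headD_dropF]
  simp [Array.getD_eq_getD_getElem?]

/-- The entry of a row of the chain table with the key `s` (by the recursor). -/
def entF (row : List (ℕ × Array (ℕ × ℤ))) (s : ℕ) : List (ℕ × ℤ) :=
  List.rec [] (fun e _ ih => Bool.rec (motive := fun _ => List (ℕ × ℤ)) ih e.2.toList
    (Nat.beq e.1 s)) row

theorem entF_cons (e : ℕ × Array (ℕ × ℤ)) (row : List (ℕ × Array (ℕ × ℤ))) (s : ℕ) :
    entF (e :: row) s = cond (Nat.beq e.1 s) e.2.toList (entF row s) :=
  brec_cond _ _ _

theorem beq_false_of_ne {a b : ℕ} (h : a ≠ b) : Nat.beq a b = false := by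
  cases hb : Nat.beq a b with
  | false => rfl
  | true => exact absurd (Nat.eq_of_beq_eq_true hb) h

theorem entF_eq (row : List (ℕ × Array (ℕ × ℤ))) (s : ℕ) :
    entF row s = match row.find? (fun e => e.1 = s) with
      | none => []
      | some e => e.2.toList := by
  induction row with
  | nil => rfl
  | cons e row ih =>
    rw [entF_cons, List.find?_cons]
    by_cases h : e.1 = s
    · have h1 : Nat.beq e.1 s = true := by rw [h]; exact Nat.beq_refl s
      rw [h1]
      simp [h]
    · rw [beq_false_of_ne h]
      simp [h, ih]

theorem entF_nil_of_lt (row : List (ℕ × Array (ℕ × ℤ))) (s : ℕ) (h : ∀ e ∈ row, s < e.1) :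
    entF row s = [] := by
  induction row with
  | nil => rfl
  | cons e row ih =>
    rw [entF_cons, beq_false_of_ne (by have := h e (by simp); omega)]
    exact ih (fun e' he' => h e' (List.mem_cons_of_mem _ he'))

/-- The keys of a row are strictly increasing and at least `lo`. -/
def sortedB (row : List (ℕ × Array (ℕ × ℤ))) : ℕ → Bool :=
  List.rec (motive := fun _ => ℕ → Bool) (fun _ => true)
    (fun e _ ih lo => and (Nat.ble lo e.1) (ih (Nat.succ e.1))) row

theorem sortedB_cons (e : ℕ × Array (ℕ × ℤ)) (row : List (ℕ × Array (ℕ × ℤ))) (lo : ℕ) :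
    sortedB (e :: row) lo = and (Nat.ble lo e.1) (sortedB row (Nat.succ e.1)) := rfl

/-- The entries of a row with increasing keys for the keys `s, s + 1, …, s + n - 1`. -/
def denseF (n : ℕ) : ℕ → List (ℕ × Array (ℕ × ℤ)) → List (List (ℕ × ℤ)) :=
  Nat.rec (motive := fun _ => ℕ → List (ℕ × Array (ℕ × ℤ)) → List (List (ℕ × ℤ)))
    (fun _ _ => [])
    (fun _ ih s row => List.casesOn (motive := fun _ => List (List (ℕ × ℤ))) row
      ([] :: ih (Nat.succ s) [])
      (fun e rest => Bool.rec (motive := fun _ => List (List (ℕ × ℤ)))
        ([] :: ih (Nat.succ s) (e :: rest))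
        (e.2.toList :: ih (Nat.succ s) rest)
        (Nat.beq e.1 s)))
    n

theorem denseF_zero (s : ℕ) (row : List (ℕ × Array (ℕ × ℤ))) : denseF 0 s row = [] := rfl

theorem denseF_succ_nil (n s : ℕ) : denseF (n + 1) s [] = [] :: denseF n (Nat.succ s) [] := rfl

theorem denseF_succ_cons (n s : ℕ) (e : ℕ × Array (ℕ × ℤ)) (rest : List (ℕ × Array (ℕ × ℤ))) :
    denseF (n + 1) s (e :: rest) = cond (Nat.beq e.1 s) (e.2.toList :: denseF n (Nat.succ s) rest)
      ([] :: denseF n (Nat.succ s) (e :: rest)) :=
  brec_cond _ _ _

theorem denseF_spec : ∀ (n s : ℕ) (row : List (ℕ × Array (ℕ × ℤ))), sortedB row s = true →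
    ∀ i < n, (denseF n s row).getD i [] = entF row (s + i) := by
  intro n
  induction n with
  | zero => intro s row _ i hi; omega
  | succ n ih =>
    intro s row hs i hi
    cases row with
    | nil =>
      rw [denseF_succ_nil]
      cases i with
      | zero => rfl
      | succ i =>
        rw [List.getD_cons_succ, ih (Nat.succ s) [] rfl i (by omega)]
        rfl
    | cons e rest =>
      rw [sortedB_cons, Bool.and_eq_true] at hs
      obtain ⟨h1, h2⟩ := hs
      have h1' : s ≤ e.1 := Nat.le_of_ble_eq_true h1
      rw [denseF_succ_cons]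
      by_cases he : e.1 = s
      · have hb : Nat.beq e.1 s = true := by rw [he]; exact Nat.beq_refl s
        rw [hb, cond_true]
        cases i with
        | zero =>
          rw [List.getD_cons_zero, Nat.add_zero, entF_cons, hb, cond_true]
        | succ i =>
          rw [he] at h2
          rw [List.getD_cons_succ, ih (Nat.succ s) rest h2 i (by omega), entF_cons,
            beq_false_of_ne (by omega), cond_false]
          congr 1
          omega
      · rw [beq_false_of_ne he, cond_false]
        have h3 : sortedB (e :: rest) (Nat.succ s) = true := by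
          rw [sortedB_cons, Bool.and_eq_true]
          exact ⟨Nat.ble_eq_true_of_le (by omega), h2⟩
        cases i with
        | zero =>
          rw [List.getD_cons_zero, Nat.add_zero]
          symm
          have key : ∀ (row : List (ℕ × Array (ℕ × ℤ))) (lo : ℕ), sortedB row lo = true →
              ∀ e' ∈ row, lo ≤ e'.1 := by
            intro row
            induction row with
            | nil => intro lo _ e' he'; simp at he'
            | cons a row ih' =>
              intro lo hlo e' he'
              rw [sortedB_cons, Bool.and_eq_true] at hlo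
              have ha : lo ≤ a.1 := Nat.le_of_ble_eq_true hlo.1
              rcases List.mem_cons.mp he' with rfl | he'
              · exact ha
              · have := ih' _ hlo.2 e' he'
                omega
          apply entF_nil_of_lt
          intro e' he'
          have := key _ _ h3 e' he'
          omega
        | succ i =>
          rw [List.getD_cons_succ, ih (Nat.succ s) (e :: rest) h3 i (by omega)]
          congr 1
          omega

/-- The chain entry of the pair `(r, s)`, read off a table computed once for each `r`. -/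
def entC (D : ChevalleyDatum) (r s : ℕ) : List (ℕ × ℤ) :=
  forceNat r (fun r => Bool.rec (motive := fun _ => List (ℕ × ℤ))
    (entF (rowF D r) s)
    (List.headD (dropF (denseF D.nroots 0 (rowF D r)) s) [])
    (and (sortedB (rowF D r) 0) (Nat.blt s D.nroots)))

theorem entC_eq (D : ChevalleyDatum) (r s : ℕ) : entC D r s = D.chainEntry r s := by
  have h0 : entF (rowF D r) s = D.chainEntry r s := by
    unfold ChevalleyDatum.chainEntry
    rw [entF_eq, rowF_eq]
    cases List.find? (fun e => decide (e.1 = s)) (D.chain.getD r #[]).toList <;> rfl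
  unfold entC
  rw [forceNat_eq, brec_cond]
  cases hb : and (sortedB (rowF D r) 0) (Nat.blt s D.nroots) with
  | false => exact h0
  | true =>
    rw [Bool.and_eq_true] at hb
    rw [cond_true, headD_dropF, denseF_spec D.nroots 0 (rowF D r) hb.1 s
      (by simpa [Nat.blt_eq] using hb.2), Nat.zero_add]
    exact h0

/-- The root `i r + s`, read off fast. -/
def chainRootF (D : ChevalleyDatum) (r s i : ℕ) : Option ℕ :=
  ((entC D r s)[i - 1]?).map Prod.fst

theorem chainRootF_eq (D : ChevalleyDatum) (r s i : ℕ) : chainRootF D r s i = D.chainRoot r s i := by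
  unfold chainRootF ChevalleyDatum.chainRoot
  rw [entC_eq]

/-- The integer `M_{r,s,i}`, read off fast. -/
def chainMF (D : ChevalleyDatum) (r s i : ℕ) : ℤ :=
  (((entC D r s)[i - 1]?).map Prod.snd).getD 0

theorem chainMF_eq (D : ChevalleyDatum) (r s i : ℕ) : chainMF D r s i = D.chainM r s i := by
  unfold chainMF ChevalleyDatum.chainM
  rw [entC_eq]

/-- The terms of the commutator formula, read off fast. -/
def commTermsF (D : ChevalleyDatum) (r s : ℕ) : List (ℕ × ℤ × ℕ × ℕ) :=
  let rs := chainRootF D r s 1
  let cands : List (Option ℕ × ℤ × ℕ × ℕ) :=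
    [ (chainRootF D r s 1, chainMF D r s 1, 1, 1),
      (chainRootF D r s 2, chainMF D r s 2, 2, 1),
      (chainRootF D s r 2, chainMF D s r 2, 1, 2),
      (chainRootF D r s 3, chainMF D r s 3, 3, 1),
      (chainRootF D s r 3, - chainMF D s r 3, 1, 3),
      ((chainRootF D r s 3).bind fun k => chainRootF D k s 1,
        (rs.map fun k => chainMF D k r 2 / 3).getD 0, 3, 2),
      ((chainRootF D s r 3).bind fun k => chainRootF D k r 1,
        (rs.map fun k => -2 * chainMF D k s 2 / 3).getD 0, 2, 3) ]
  cands.filterMap fun c => c.1.map fun k => (k, c.2)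

theorem commTermsF_eq (D : ChevalleyDatum) (r s : ℕ) : commTermsF D r s = D.commTerms r s := by
  unfold commTermsF ChevalleyDatum.commTerms
  simp only [chainRootF_eq, chainMF_eq]

theorem commTerms_nil (D : ChevalleyDatum) (r s : ℕ) (h1 : D.chainEntry r s = [])
    (h2 : D.chainEntry s r = []) : D.commTerms r s = [] := by
  unfold ChevalleyDatum.commTerms ChevalleyDatum.chainRoot
  simp [h1, h2]

/-- A list is empty (by the recursor). -/
def nilB {α : Type} (l : List α) : Bool := List.casesOn (motive := fun _ => Bool) l true (fun _ _ => false)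

theorem nilB_spec {α : Type} {l : List α} (h : nilB l = true) : l = [] := by
  cases l with
  | nil => rfl
  | cons a l => exact absurd h (by simp [nilB])

/-- The terms of the commutator formula of the pair `(r, s)` are those of the pair `(r', s')`
moved by a fundamental reflection with the permutation `P` and the signs `E`. -/
def trPairB (D : ChevalleyDatum) (P E r s r' s' : ℕ) : Bool :=
  or (and (and (nilB (entC D r s)) (nilB (entC D s r)))
      (and (nilB (entC D r' s')) (nilB (entC D s' r'))))
    (and ((commTermsF D r' s').all fun c => Nat.blt c.1 D.nroots)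
      (decide (commTermsF D r s = (commTermsF D r' s').map (fun c =>
        (digitAt 256 P c.1, etaF E c.1 * etaF E r' ^ c.2.2.1 * etaF E s' ^ c.2.2.2 * c.2.1,
          c.2.2.1, c.2.2.2)))))

theorem trPairB_spec {D : ChevalleyDatum} {P E r s r' s' : ℕ} (h : trPairB D P E r s r' s' = true) :
    (∀ c ∈ D.commTerms r' s', c.1 < D.nroots) ∧
    D.commTerms r s = (D.commTerms r' s').map (fun c =>
        (digitAt 256 P c.1, etaF E c.1 * etaF E r' ^ c.2.2.1 * etaF E s' ^ c.2.2.2 * c.2.1,
          c.2.2.1, c.2.2.2)) := by
  unfold trPairB at h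
  rw [Bool.or_eq_true] at h
  rcases h with h | h
  · simp only [Bool.and_eq_true] at h
    obtain ⟨⟨h1, h2⟩, h3, h4⟩ := h
    have e1 := nilB_spec h1
    have e2 := nilB_spec h2
    have e3 := nilB_spec h3
    have e4 := nilB_spec h4
    rw [entC_eq] at e1 e2 e3 e4
    rw [commTerms_nil D r s e1 e2, commTerms_nil D r' s' e3 e4]
    simp
  · rw [Bool.and_eq_true, decide_eq_true_eq, commTermsF_eq, commTermsF_eq] at h
    refine ⟨?_, h.2⟩
    intro c hc
    have := List.all_eq_true.mp h.1 c hc
    simpa [Nat.blt_eq] using this

/-- The check `trPairB` for the pair `(r, s)` and the fundamental reflection attached to `r`. -/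
def trB (D : ChevalleyDatum) (Ps Es : List ℕ) (J Dp r s : ℕ) : Bool :=
  if digitAt 64 Dp r = 0 then true else
    trPairB D (getN Ps (digitAt 16 J r)) (getN Es (digitAt 16 J r)) r s
      (digitAt 256 (getN Ps (digitAt 16 J r)) r) (digitAt 256 (getN Ps (digitAt 16 J r)) s)

/-- The check `trB` for one root `r` and all the roots `s ≠ ±r`. -/
def trRowB (D : ChevalleyDatum) (Ps Es : List ℕ) (J Dp r : ℕ) : Bool :=
  allB D.nroots (fun s => or (Nat.beq s r) (or (Nat.beq s (D.neg r)) (trB D Ps Es J Dp r s)))

end Cfsg.Agent.Lib.Helper9
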