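import Cfsg.Agent.Lib.Helper9.ChevMap

set_option autoImplicit false

namespace Cfsg.Agent.Lib.Helper9

open Cfsg.Lie

/-- The Chevalley groups of a datum over isomorphic fields are isomorphic. -/
theorem group_equiv_of_ringEquiv (D : ChevalleyDatum) {F K : Type*} [Field F] [Field K]
    (e : F ≃+* K) : Nonempty (↥(D.group F) ≃* ↥(D.group K)) := by
  classical
  let φ : GL D.Idx F →* GL D.Idx K := Matrix.GeneralLinearGroup.map (e : F →+* K)
  let φ' : GL D.Idx K →* GL D.Idx F := Matrix.GeneralLinearGroup.map (e.symm : K →+* F)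
  have hφ : ∀ g : GL D.Idx F, ((φ g : GL D.Idx K) : Matrix D.Idx D.Idx K) =
      (g : Matrix D.Idx D.Idx F).map (e : F →+* K) := fun g => rfl
  have hφ' : ∀ g : GL D.Idx K, ((φ' g : GL D.Idx F) : Matrix D.Idx D.Idx F) =
      (g : Matrix D.Idx D.Idx K).map (e.symm : K →+* F) := fun g => rfl
  have hinv : ∀ g : GL D.Idx K, φ (φ' g) = g := by
    intro g
    apply Units.ext
    rw [hφ, hφ']
    ext i j
    simp
  have hinj : Function.Injective φ := by
    intro g g' h
    apply Units.ext
    have h1 : ((φ g : GL D.Idx K) : Matrix D.Idx D.Idx K) = (φ g' : GL D.Idx K) := by rw [h]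
    rw [hφ, hφ] at h1
    ext i j
    have h2 := congrFun (congrFun h1 i) j
    simp only [Matrix.map_apply] at h2
    exact e.injective h2
  have hmap : (D.group F).map φ = D.group K := by
    unfold ChevalleyDatum.group
    rw [MonoidHom.map_closure]
    congr 1
    ext g
    constructor
    · rintro ⟨g0, ⟨r, t, hg0⟩, rfl⟩
      exact ⟨r, e t, by rw [hφ, hg0]; exact xMat_map D (e : F →+* K) r t⟩
    · rintro ⟨r, t, hg⟩
      refine ⟨φ' g, ⟨r, e.symm t, ?_⟩, hinv g⟩
      rw [hφ', hg]
      exact xMat_map D (e.symm : K →+* F) r t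
  exact ⟨((D.group F).equivMapOfInjective φ hinj).trans (MulEquiv.subgroupCongr hmap)⟩

end Cfsg.Agent.Lib.Helper9
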