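import Cfsg.Agent.Lib.Helper9.RankOne2

set_option autoImplicit false

namespace Cfsg.Agent.Lib.Helper9

open MulAction

theorem invol_inv {G : Type*} [Group G] {x : G} (h : x * x = 1) : x⁻¹ = x :=
  inv_eq_of_mul_eq_one_right h

theorem invol_mul_cancel {G : Type*} [Group G] {x : G} (h : x * x = 1) (z : G) :
    x * (x * z) = z := by
  rw [← mul_assoc, h, one_mul]

theorem invol_conj_cancel {G : Type*} [Group G] {x : G} (h : x * x = 1) (z : G) :
    x * (x * z * x) * x = z := by
  calc x * (x * z * x) * x = (x * x) * z * (x * x) := by group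
    _ = z := by rw [h]; group

theorem invol_conj_sq {G : Type*} [Group G] {x : G} (h : x * x = 1) (g : G) :
    g * x * g⁻¹ * (g * x * g⁻¹) = 1 := by
  calc g * x * g⁻¹ * (g * x * g⁻¹) = g * (x * x) * g⁻¹ := by group
    _ = 1 := by rw [h]; group

theorem invol_smul_cancel {G Ω : Type*} [Group G] [MulAction G Ω] {x : G} (h : x * x = 1)
    (b : Ω) : x • x • b = b := by
  rw [smul_smul, h, one_smul]

/-- Two involutions whose product has odd order are conjugate under an involution. -/
theorem invol_conj_of_odd {G : Type*} [Group G] {s w : G} (hs : s * s = 1) (hw : w * w = 1)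
    (hodd : Odd (orderOf (s * w))) : ∃ u : G, u * u = 1 ∧ u * s * u = w := by
  obtain ⟨k, hk⟩ := hodd
  set r := s * w with hr
  have hsi : s⁻¹ = s := inv_eq_of_mul_eq_one_right hs
  have hwi : w⁻¹ = w := inv_eq_of_mul_eq_one_right hw
  have hrinv : r⁻¹ = w * s := by rw [hr, mul_inv_rev, hsi, hwi]
  have hsemi : SemiconjBy s r (r⁻¹) := by
    show s * r = r⁻¹ * s
    rw [hrinv, hr, ← mul_assoc, hs, one_mul, mul_assoc, hs, mul_one]
  have hsemik : s * r ^ k = (r⁻¹) ^ k * s := hsemi.pow_right k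
  have hpow : r ^ (2 * k) * r = 1 := by
    rw [← pow_succ, ← hk]; exact pow_orderOf_eq_one r
  have hpow' : r ^ (2 * k) = r⁻¹ := eq_inv_of_mul_eq_one_left hpow
  refine ⟨r ^ k * s, ?_, ?_⟩
  · calc r ^ k * s * (r ^ k * s) = r ^ k * (s * r ^ k) * s := by group
      _ = r ^ k * ((r⁻¹) ^ k * s) * s := by rw [hsemik]
      _ = 1 := by rw [inv_pow]; simp [hs]
  · calc r ^ k * s * s * (r ^ k * s) = r ^ k * (s * s) * r ^ k * s := by group
      _ = r ^ (2 * k) * s := by rw [hs, mul_one, ← pow_add, two_mul]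
      _ = w := by rw [hpow', hrinv, mul_assoc, hs, mul_one]

variable {G Ω : Type*} [Group G] [MulAction G Ω] {a : Ω} {t : G} {Q : Subgroup G}

theorem ro_Q_inj (hS : Cfsg.IsRankOneSetup G Ω a t Q) {q q' : G} (hq : q ∈ Q) (hq' : q' ∈ Q)
    {b : Ω} (hb : b ≠ a) (h : q • b = q' • b) : q = q' := by
  have : q'⁻¹ * q = 1 := by
    apply ro_free hS (mul_mem (inv_mem hq') hq) hb
    rw [mul_smul, h, inv_smul_smul]
  exact (inv_mul_eq_one.mp this).symm

/-- A conjugate `t s t` of an involution of the point stabiliser moves `a`. -/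
theorem ro_tst_not_mem [Finite G] (hS : Cfsg.IsRankOneSetup G Ω a t Q) {s : G}
    (hsa : s ∈ stabilizer G a) (hs1 : s ≠ 1) (hs2 : s * s = 1) :
    (t * s * t) • a ≠ a := by
  intro h1
  simp only [mul_smul] at h1
  have h2 : s • (t • a) = t • a := by
    have := congrArg (fun b => t • b) h1
    rwa [invol_smul_cancel hS.mul_self] at this
  exact ro_ta_ne hS (ro_invol_fix hS hsa hs1 hs2 h2)

end Cfsg.Agent.Lib.Helper9
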