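import Cfsg.Agent.Lib.Helper9.PermTabB2
import Cfsg.Agent.Lib.Helper9.ChevRefl

set_option autoImplicit false

namespace Cfsg.Agent.Lib.Helper9

open Cfsg.Lie

set_option maxRecDepth 1000000 in
theorem nhB2_1_ok_0 : allFrom 0 1 ((fun j => nhB chevB2 xLitB2 (getN permLitB2 1) 1 j)) = true := by decide +kernel

set_option maxRecDepth 1000000 in
theorem nhB2_1_ok_1 : allFrom 1 1 ((fun j => nhB chevB2 xLitB2 (getN permLitB2 1) 1 j)) = true := by decide +kernel


end Cfsg.Agent.Lib.Helper9
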