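import Cfsg.Agent.Lib.Helper9.PermTabD4
import Cfsg.Agent.Lib.Helper9.ChevRefl

set_option autoImplicit false

namespace Cfsg.Agent.Lib.Helper9

open Cfsg.Lie

set_option maxRecDepth 1000000 in
theorem nhD4_1_ok_0 : allFrom 0 1 ((fun j => nhB chevD4 xLitD4 (getN permLitD4 1) 1 j)) = true := by decide +kernel

set_option maxRecDepth 1000000 in
theorem nhD4_1_ok_1 : allFrom 1 1 ((fun j => nhB chevD4 xLitD4 (getN permLitD4 1) 1 j)) = true := by decide +kernel

set_option maxRecDepth 1000000 in
theorem nhD4_1_ok_2 : allFrom 2 1 ((fun j => nhB chevD4 xLitD4 (getN permLitD4 1) 1 j)) = true := by decide +kernel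

set_option maxRecDepth 1000000 in
theorem nhD4_1_ok_3 : allFrom 3 1 ((fun j => nhB chevD4 xLitD4 (getN permLitD4 1) 1 j)) = true := by decide +kernel


end Cfsg.Agent.Lib.Helper9
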