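import Cfsg.Prelude.Def_LieRecognition

set_option autoImplicit false

namespace Cfsg.Agent.Lib.Helper9

open MulAction

variable {G Ω : Type*} [Group G] [MulAction G Ω] {a : Ω} {t : G} {Q : Subgroup G}

theorem ro_ta_ne (hS : Cfsg.IsRankOneSetup G Ω a t Q) : t • a ≠ a := fun h =>
  hS.not_mem (MulAction.mem_stabilizer_iff.mpr h)

theorem ro_t_inv (hS : Cfsg.IsRankOneSetup G Ω a t Q) : t⁻¹ = t :=
  inv_eq_of_mul_eq_one_right hS.mul_self

theorem ro_tta (hS : Cfsg.IsRankOneSetup G Ω a t Q) : t • t • a = a := by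
  rw [smul_smul, hS.mul_self, one_smul]

theorem ro_tt_mul (hS : Cfsg.IsRankOneSetup G Ω a t Q) (z : G) : t * (t * z) = z := by
  rw [← mul_assoc, hS.mul_self, one_mul]

/-- The point stabiliser is transitive on the other points. -/
theorem ro_exists_stab (hS : Cfsg.IsRankOneSetup G Ω a t Q) {b : Ω} (hb : b ≠ a) :
    ∃ g ∈ stabilizer G a, g • (t • a) = b := by
  obtain ⟨g, h1, h2⟩ := (MulAction.is_two_pretransitive_iff.mp hS.two_transitive)
    (ro_ta_ne hS).symm hb.symm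
  exact ⟨g, MulAction.mem_stabilizer_iff.mpr h1, h2⟩

/-- A non-identity element of `Q` fixes no point other than `a`. -/
theorem ro_free (hS : Cfsg.IsRankOneSetup G Ω a t Q) {x : G} (hx : x ∈ Q) {b : Ω} (hb : b ≠ a)
    (hxb : x • b = b) : x = 1 := by
  obtain ⟨g, hg, hgb⟩ := ro_exists_stab hS hb
  have h1 : g⁻¹ * x * g ∈ Q := by
    have := hS.conj_mem g⁻¹ (inv_mem hg) x hx
    simpa using this
  have h2 : g⁻¹ * x * g ∈ stabilizer G (t • a) := by
    rw [MulAction.mem_stabilizer_iff, mul_smul, mul_smul, hgb, hxb, ← hgb, smul_smul, inv_mul_cancel,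
      one_smul]
  have h3 : g⁻¹ * x * g ∈ Q ⊓ stabilizer G (t • a) := Subgroup.mem_inf.mpr ⟨h1, h2⟩
  rw [hS.inf_eq_bot, Subgroup.mem_bot] at h3
  have : x = g * (g⁻¹ * x * g) * g⁻¹ := by group
  rw [this, h3]; group

theorem ro_exists_ne_one (hS : Cfsg.IsRankOneSetup G Ω a t Q) : ∃ x ∈ Q, x ≠ 1 := by
  by_contra h
  have h' : ∀ x ∈ Q, x = 1 := fun x hx => by
    by_contra hx1; exact h ⟨x, hx, hx1⟩
  have hbot : Q = ⊥ := (Subgroup.eq_bot_iff_forall Q).mpr h'
  have hev := hS.even_card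
  rw [hbot, Subgroup.card_bot] at hev
  exact absurd hev (by decide)

theorem ro_D_le_normalizer (hS : Cfsg.IsRankOneSetup G Ω a t Q) :
    stabilizer G a ≤ Subgroup.normalizer (Q : Set G) := by
  intro d hd
  rw [Subgroup.mem_normalizer_iff]
  intro x
  constructor
  · intro hx; exact hS.conj_mem d hd x hx
  · intro hx
    have := hS.conj_mem d⁻¹ (inv_mem hd) _ hx
    simpa [mul_assoc] using this

/-- Every element of the point stabiliser is `q * d`. -/
theorem ro_stab_decomp (hS : Cfsg.IsRankOneSetup G Ω a t Q) {g : G} (hg : g ∈ stabilizer G a) :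
    ∃ q ∈ Q, ∃ d ∈ stabilizer G a ⊓ stabilizer G (t • a), g = q * d := by
  have hg' : g ∈ ((Q ⊔ (stabilizer G a ⊓ stabilizer G (t • a)) : Subgroup G) : Set G) := by
    rw [hS.sup_eq]; exact hg
  rw [Subgroup.coe_mul_of_right_le_normalizer_left _ _
    (le_trans inf_le_left (ro_D_le_normalizer hS))] at hg'
  obtain ⟨q, hq, d, hd, rfl⟩ := hg'
  exact ⟨q, hq, d, hd, rfl⟩

/-- `Q` is transitive on the points other than `a`. -/
theorem ro_exists_Q (hS : Cfsg.IsRankOneSetup G Ω a t Q) {b : Ω} (hb : b ≠ a) :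
    ∃ x ∈ Q, x • (t • a) = b := by
  obtain ⟨g, hg, hgb⟩ := ro_exists_stab hS hb
  obtain ⟨q, hq, d, hd, rfl⟩ := ro_stab_decomp hS hg
  refine ⟨q, hq, ?_⟩
  rw [mul_smul, MulAction.mem_stabilizer_iff.mp (Subgroup.mem_inf.mp hd).2] at hgb
  exact hgb

theorem ro_Q_smul_ne (hS : Cfsg.IsRankOneSetup G Ω a t Q) {x : G} (hx : x ∈ Q) {b : Ω} (hb : b ≠ a) :
    x • b ≠ a := by
  intro h
  have hxa : x • a = a := MulAction.mem_stabilizer_iff.mp (hS.le hx)
  have : x • b = x • a := by rw [h, hxa]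
  exact hb (MulAction.injective x this)

/-- `Q` is regular on the points other than `a`. -/
theorem ro_existsUnique_Q (hS : Cfsg.IsRankOneSetup G Ω a t Q) {b c : Ω} (hb : b ≠ a) (hc : c ≠ a) :
    ∃! x : Q, (x : G) • b = c := by
  obtain ⟨x, hx, hxb⟩ := ro_exists_Q hS hb
  obtain ⟨y, hy, hyc⟩ := ro_exists_Q hS hc
  refine ⟨⟨y * x⁻¹, mul_mem hy (inv_mem hx)⟩, ?_, ?_⟩
  · show (y * x⁻¹) • b = c
    rw [← hxb, smul_smul, inv_mul_cancel_right, hyc]
  · rintro ⟨z, hz⟩ hzb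
    have hzb' : z • b = c := hzb
    have : (y * x⁻¹)⁻¹ * z = 1 := by
      apply ro_free hS (mul_mem (inv_mem (mul_mem hy (inv_mem hx))) hz) hb
      rw [mul_smul, hzb', ← hyc, ← hxb]
      simp [smul_smul]
    ext
    show z = y * x⁻¹
    exact (inv_mul_eq_one.mp this).symm

/-- `t` normalises the two-point stabiliser. -/
theorem ro_t_conj_D (hS : Cfsg.IsRankOneSetup G Ω a t Q) {d : G}
    (hd : d ∈ stabilizer G a ⊓ stabilizer G (t • a)) :
    t * d * t ∈ stabilizer G a ⊓ stabilizer G (t • a) := by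
  have h1 := MulAction.mem_stabilizer_iff.mp (Subgroup.mem_inf.mp hd).1
  have h2 := MulAction.mem_stabilizer_iff.mp (Subgroup.mem_inf.mp hd).2
  refine Subgroup.mem_inf.mpr ⟨?_, ?_⟩
  · rw [MulAction.mem_stabilizer_iff, mul_smul, mul_smul, h2, ro_tta hS]
  · rw [MulAction.mem_stabilizer_iff, mul_smul, mul_smul, ro_tta hS, h1]

/-- Uniqueness in the canonical form `g * h * t * f`. -/
theorem ro_canon_unique (hS : Cfsg.IsRankOneSetup G Ω a t Q) {g h f g' h' f' : G}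
    (hg : g ∈ Q) (hh : h ∈ stabilizer G a ⊓ stabilizer G (t • a)) (hf : f ∈ Q)
    (hg' : g' ∈ Q) (hh' : h' ∈ stabilizer G a ⊓ stabilizer G (t • a)) (hf' : f' ∈ Q)
    (e : g * h * t * f = g' * h' * t * f') : g = g' ∧ h = h' ∧ f = f' := by
  have key : ∀ {g h f : G}, g ∈ Q → h ∈ stabilizer G a ⊓ stabilizer G (t • a) → f ∈ Q →
      (g * h * t * f)⁻¹ • a = f⁻¹ • (t • a) := by
    intro g h f hg hh hf
    have h1 : g⁻¹ • a = a := MulAction.mem_stabilizer_iff.mp (inv_mem (hS.le hg))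
    have h2 : h⁻¹ • a = a := MulAction.mem_stabilizer_iff.mp (inv_mem (Subgroup.mem_inf.mp hh).1)
    simp only [mul_inv_rev, mul_smul, h1, h2, ro_t_inv hS]
  have e1 : f⁻¹ • (t • a) = f'⁻¹ • (t • a) := by
    rw [← key hg hh hf, ← key hg' hh' hf', e]
  have hff : f * f'⁻¹ = 1 := by
    apply ro_free hS (mul_mem hf (inv_mem hf')) (ro_ta_ne hS)
    rw [mul_smul, ← e1, smul_smul, mul_inv_cancel, one_smul]
  have hf_eq : f = f' := by
    have := mul_inv_eq_one.mp hff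
    exact this
  subst hf_eq
  have e2 : g * h = g' * h' := by
    have := congrArg (fun z => z * f⁻¹ * t⁻¹) e
    simpa [mul_assoc] using this
  have h3 : g'⁻¹ * g = h' * h⁻¹ := by
    have : g'⁻¹ * (g * h) * h⁻¹ = g'⁻¹ * (g' * h') * h⁻¹ := by rw [e2]
    simpa [mul_assoc] using this
  have h4 : g'⁻¹ * g ∈ Q ⊓ stabilizer G (t • a) :=
    Subgroup.mem_inf.mpr ⟨mul_mem (inv_mem hg') hg, by
      rw [h3]; exact mul_mem (Subgroup.mem_inf.mp hh').2 (inv_mem (Subgroup.mem_inf.mp hh).2)⟩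
  rw [hS.inf_eq_bot, Subgroup.mem_bot] at h4
  have hg_eq : g = g' := (inv_mul_eq_one.mp h4).symm
  refine ⟨hg_eq, ?_, rfl⟩
  rw [h4] at h3
  exact (mul_inv_eq_one.mp h3.symm).symm

end Cfsg.Agent.Lib.Helper9
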