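import Cfsg.Agent.Lib.Helper9.RankOne
import Cfsg.Agent.S1119
import Cfsg.Agent.S1121

set_option autoImplicit false

namespace Cfsg.Agent.Lib.Helper9

open MulAction

variable {G Ω : Type*} [Group G] [MulAction G Ω] {a : Ω} {t : G} {Q : Subgroup G}

/-- The set-up does not depend on the choice of the involution moving `a`. -/
theorem ro_change_t (hS : Cfsg.IsRankOneSetup G Ω a t Q) {u : G} (hu2 : u * u = 1)
    (hua : u • a ≠ a) : Cfsg.IsRankOneSetup G Ω a u Q := by
  obtain ⟨⟨q, hq⟩, hqb, -⟩ := ro_existsUnique_Q hS (ro_ta_ne hS) hua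
  have hqb' : q • (t • a) = u • a := hqb
  have hqa : q • a = a := MulAction.mem_stabilizer_iff.mp (hS.le hq)
  have hqinv : q⁻¹ • (u • a) = t • a := by rw [← hqb', inv_smul_smul]
  have hqinva : q⁻¹ • a = a := MulAction.mem_stabilizer_iff.mp (inv_mem (hS.le hq))
  refine
    { two_transitive := hS.two_transitive
      mul_self := hu2
      ne_one := fun h => hua (by rw [h, one_smul])
      not_mem := fun h => hua (MulAction.mem_stabilizer_iff.mp h)
      le := hS.le
      conj_mem := hS.conj_mem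
      inf_eq_bot := ?_
      sup_eq := ?_
      even_card := hS.even_card
      odd_card := ?_ }
  · rw [eq_bot_iff]
    intro x hx
    obtain ⟨hx1, hx2⟩ := Subgroup.mem_inf.mp hx
    rw [Subgroup.mem_bot]
    exact ro_free hS hx1 hua (MulAction.mem_stabilizer_iff.mp hx2)
  · apply le_antisymm (sup_le hS.le inf_le_left)
    intro g hg
    have hga : g • a = a := MulAction.mem_stabilizer_iff.mp hg
    have hne : g • (u • a) ≠ a := by
      intro h
      apply hua
      have : g • (u • a) = g • a := by rw [h, hga]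
      exact MulAction.injective g this
    obtain ⟨⟨q', hq'⟩, hq'b, -⟩ := ro_existsUnique_Q hS hua hne
    have hq'b' : q' • (u • a) = g • (u • a) := hq'b
    have hmem : q'⁻¹ * g ∈ stabilizer G a ⊓ stabilizer G (u • a) := by
      refine Subgroup.mem_inf.mpr ⟨mul_mem (inv_mem (hS.le hq')) hg, ?_⟩
      rw [MulAction.mem_stabilizer_iff, mul_smul, ← hq'b', inv_smul_smul]
    have : g = q' * (q'⁻¹ * g) := by group
    rw [this]
    exact Subgroup.mul_mem_sup hq' hmem
  · have e : ↥(stabilizer G a ⊓ stabilizer G (t • a)) ≃ ↥(stabilizer G a ⊓ stabilizer G (u • a)) :=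
      { toFun := fun d => ⟨q * d * q⁻¹, by
          obtain ⟨h1, h2⟩ := Subgroup.mem_inf.mp d.2
          refine Subgroup.mem_inf.mpr ⟨?_, ?_⟩
          · rw [MulAction.mem_stabilizer_iff, mul_smul, mul_smul, hqinva,
              MulAction.mem_stabilizer_iff.mp h1, hqa]
          · rw [MulAction.mem_stabilizer_iff, mul_smul, mul_smul, hqinv,
              MulAction.mem_stabilizer_iff.mp h2, hqb']⟩
        invFun := fun d => ⟨q⁻¹ * d * q, by
          obtain ⟨h1, h2⟩ := Subgroup.mem_inf.mp d.2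
          refine Subgroup.mem_inf.mpr ⟨?_, ?_⟩
          · rw [MulAction.mem_stabilizer_iff, mul_smul, mul_smul, hqa,
              MulAction.mem_stabilizer_iff.mp h1, hqinva]
          · rw [MulAction.mem_stabilizer_iff, mul_smul, mul_smul, hqb',
              MulAction.mem_stabilizer_iff.mp h2, hqinv]⟩
        left_inv := fun d => by apply Subtype.ext; simp [mul_assoc]
        right_inv := fun d => by apply Subtype.ext; simp [mul_assoc] }
    rw [← Nat.card_congr e]
    exact hS.odd_card

theorem mem_conjQ {Q : Subgroup G} {g x : G} :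
    x ∈ Q.map (MulAut.conj g).toMonoidHom ↔ g⁻¹ * x * g ∈ Q := by
  constructor
  · rintro ⟨y, hy, rfl⟩
    simpa [mul_assoc] using hy
  · intro h
    exact ⟨g⁻¹ * x * g, h, by simp [mul_assoc]⟩

/-- The conjugate set-up at the point `g • a`. -/
theorem ro_conj (hS : Cfsg.IsRankOneSetup G Ω a t Q) (g : G) :
    Cfsg.IsRankOneSetup G Ω (g • a) (g * t * g⁻¹) (Q.map (MulAut.conj g).toMonoidHom) := by
  have hpt : (g * t * g⁻¹) • (g • a) = g • (t • a) := by
    rw [smul_smul, inv_mul_cancel_right, mul_smul]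
  have hstab : ∀ {h : G} {c : Ω}, h ∈ stabilizer G (g • c) ↔ g⁻¹ * h * g ∈ stabilizer G c := by
    intro h c
    rw [MulAction.mem_stabilizer_iff, MulAction.mem_stabilizer_iff, mul_smul, mul_smul]
    constructor
    · intro h1; rw [h1, inv_smul_smul]
    · intro h1
      have := congrArg (fun b => g • b) h1
      simpa using this
  refine
    { two_transitive := hS.two_transitive
      mul_self := by
        have : g * t * g⁻¹ * (g * t * g⁻¹) = g * (t * t) * g⁻¹ := by group
        rw [this, hS.mul_self]; group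
      ne_one := fun h => hS.ne_one (by
        have : t = g⁻¹ * (g * t * g⁻¹) * g := by group
        rw [this, h]; group)
      not_mem := fun h => ro_ta_ne hS (by
        have h1 := MulAction.mem_stabilizer_iff.mp h
        rw [hpt] at h1
        exact MulAction.injective g h1)
      le := ?_
      conj_mem := ?_
      inf_eq_bot := ?_
      sup_eq := ?_
      even_card := ?_
      odd_card := ?_ }
  · intro x hx
    rw [hstab]
    exact hS.le (mem_conjQ.mp hx)
  · intro h hh x hx
    rw [mem_conjQ]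
    have h1 := hS.conj_mem _ (hstab.mp hh) _ (mem_conjQ.mp hx)
    have : g⁻¹ * (h * x * h⁻¹) * g = g⁻¹ * h * g * (g⁻¹ * x * g) * (g⁻¹ * h * g)⁻¹ := by group
    rw [this]; exact h1
  · rw [eq_bot_iff]
    intro x hx
    obtain ⟨hx1, hx2⟩ := Subgroup.mem_inf.mp hx
    rw [hpt, hstab] at hx2
    have h3 : g⁻¹ * x * g ∈ Q ⊓ stabilizer G (t • a) := Subgroup.mem_inf.mpr ⟨mem_conjQ.mp hx1, hx2⟩
    rw [hS.inf_eq_bot, Subgroup.mem_bot] at h3
    rw [Subgroup.mem_bot]
    have : x = g * (g⁻¹ * x * g) * g⁻¹ := by group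
    rw [this, h3]; group
  · apply le_antisymm
    · apply sup_le _ inf_le_left
      intro x hx
      rw [hstab]
      exact hS.le (mem_conjQ.mp hx)
    · intro h hh
      obtain ⟨q, hq, d, hd, e⟩ := ro_stab_decomp hS (hstab.mp hh)
      have : h = (g * q * g⁻¹) * (g * d * g⁻¹) := by
        have : h = g * (g⁻¹ * h * g) * g⁻¹ := by group
        rw [this, e]; group
      rw [this]
      apply Subgroup.mul_mem_sup
      · rw [mem_conjQ]; simpa [mul_assoc] using hq
      · obtain ⟨hd1, hd2⟩ := Subgroup.mem_inf.mp hd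
        refine Subgroup.mem_inf.mpr ⟨?_, ?_⟩
        · rw [hstab]; simpa [mul_assoc] using hd1
        · rw [hpt, hstab]; simpa [mul_assoc] using hd2
  · rw [Nat.card_congr (Q.equivMapOfInjective (MulAut.conj g).toMonoidHom
      (MulAut.conj g).injective).symm.toEquiv]
    exact hS.even_card
  · have hto : ∀ x : G, x ∈ stabilizer G a ⊓ stabilizer G (t • a) →
        g * x * g⁻¹ ∈ stabilizer G (g • a) ⊓ stabilizer G ((g * t * g⁻¹) • (g • a)) := by
      intro x hx
      obtain ⟨h1, h2⟩ := Subgroup.mem_inf.mp hx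
      refine Subgroup.mem_inf.mpr ⟨?_, ?_⟩
      · rw [hstab]; simpa [mul_assoc] using h1
      · rw [hpt, hstab]; simpa [mul_assoc] using h2
    have hfrom : ∀ x : G, x ∈ stabilizer G (g • a) ⊓ stabilizer G ((g * t * g⁻¹) • (g • a)) →
        g⁻¹ * x * g ∈ stabilizer G a ⊓ stabilizer G (t • a) := by
      intro x hx
      obtain ⟨h1, h2⟩ := Subgroup.mem_inf.mp hx
      rw [hpt] at h2
      exact Subgroup.mem_inf.mpr ⟨hstab.mp h1, hstab.mp h2⟩
    have e : ↥(stabilizer G a ⊓ stabilizer G (t • a)) ≃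
        ↥(stabilizer G (g • a) ⊓ stabilizer G ((g * t * g⁻¹) • (g • a))) :=
      { toFun := fun d => ⟨g * d * g⁻¹, hto d d.2⟩
        invFun := fun d => ⟨g⁻¹ * d * g, hfrom d d.2⟩
        left_inv := fun d => by apply Subtype.ext; simp [mul_assoc]
        right_inv := fun d => by apply Subtype.ext; simp [mul_assoc] }
    rw [← Nat.card_congr e]
    exact hS.odd_card

/-- There is an involution in `Q`. -/
theorem ro_exists_invol [Finite G] (hS : Cfsg.IsRankOneSetup G Ω a t Q) :
    ∃ s : G, s ∈ Q ∧ s ≠ 1 ∧ s * s = 1 := by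
  have h2 : 2 ∣ Nat.card Q := hS.even_card.two_dvd
  have : Fact (Nat.Prime 2) := ⟨Nat.prime_two⟩
  obtain ⟨x, hx⟩ := exists_prime_orderOf_dvd_card' 2 h2
  refine ⟨(x : G), x.2, ?_, ?_⟩
  · intro h
    have : x = 1 := Subtype.ext h
    rw [this, orderOf_one] at hx
    exact absurd hx (by decide)
  · have := pow_orderOf_eq_one x
    rw [hx, pow_two] at this
    exact congrArg Subtype.val this

/-- An involution of the point stabiliser fixes no other point. -/
theorem ro_invol_fix [Finite G] (hS : Cfsg.IsRankOneSetup G Ω a t Q) {s : G}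
    (hs : s ∈ stabilizer G a) (hs1 : s ≠ 1) (hs2 : s * s = 1) {c : Ω} (hc : s • c = c) : c = a := by
  by_contra hne
  exact hs1 (ro_free hS (Cfsg.Agent.S1121.invol_mem_Q hS hs hs2) hne hc)

/-- Every involution fixes exactly one point. -/
theorem ro_invol_exists_fix [Finite G] (hS : Cfsg.IsRankOneSetup G Ω a t Q) {u : G}
    (hu1 : u ≠ 1) (hu2 : u * u = 1) : ∃ c : Ω, u • c = c ∧ ∀ c' : Ω, u • c' = c' → c' = c := by
  obtain ⟨s, hsQ, hs1, hs2⟩ := ro_exists_invol hS
  obtain ⟨g, hg⟩ := (Cfsg.Agent.S1121.result hS).2 s u hs1 hs2 hu1 hu2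
  have hsa : s • a = a := MulAction.mem_stabilizer_iff.mp (hS.le hsQ)
  refine ⟨g • a, ?_, ?_⟩
  · rw [← hg, smul_smul, inv_mul_cancel_right, mul_smul, hsa]
  · intro c' hc'
    have h1 : s • (g⁻¹ • c') = g⁻¹ • c' := by
      have : s = g⁻¹ * u * g := by rw [← hg]; group
      rw [this, smul_smul, mul_assoc, mul_inv_cancel, mul_one, mul_smul, hc']
    have h2 := ro_invol_fix hS (hS.le hsQ) hs1 hs2 h1
    have := congrArg (fun b => g • b) h2
    simpa using this

/-- An element commuting with an involution fixes its fixed point. -/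
theorem ro_comm_invol_fix [Finite G] (hS : Cfsg.IsRankOneSetup G Ω a t Q) {u g : G}
    (hu1 : u ≠ 1) (hu2 : u * u = 1) (hc : g * u = u * g) {c : Ω} (huc : u • c = c) :
    g • c = c := by
  obtain ⟨c₀, -, huniq⟩ := ro_invol_exists_fix hS hu1 hu2
  have h1 : u • (g • c) = g • c := by rw [smul_smul, ← hc, mul_smul, huc]
  rw [huniq _ h1, huniq _ huc]

/-- Elements of `Q` commuting with a set fixing `a` act transitively on its other fixed points. -/
theorem ro_exists_centralizing (hS : Cfsg.IsRankOneSetup G Ω a t Q) {X : Set G}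
    (hXa : ∀ x ∈ X, x • a = a) {p p' : Ω} (hp : p ≠ a) (hp' : p' ≠ a)
    (hXp : ∀ x ∈ X, x • p = p) (hXp' : ∀ x ∈ X, x • p' = p') :
    ∃ q ∈ Q, q ∈ Subgroup.centralizer X ∧ q • p = p' := by
  obtain ⟨⟨q, hq⟩, hqp, huniq⟩ := ro_existsUnique_Q hS hp hp'
  have hqp' : q • p = p' := hqp
  refine ⟨q, hq, ?_, hqp'⟩
  rw [Subgroup.mem_centralizer_iff]
  intro x hx
  have hxQ : x * q * x⁻¹ ∈ Q := hS.conj_mem x (MulAction.mem_stabilizer_iff.mpr (hXa x hx)) q hq
  have hxinv : x⁻¹ • p = p := by
    have := congrArg (fun b => x⁻¹ • b) (hXp x hx)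
    simpa using this.symm
  have h1 : (x * q * x⁻¹) • p = p' := by
    rw [mul_smul, mul_smul, hxinv, hqp', hXp' x hx]
  have h2 := huniq ⟨x * q * x⁻¹, hxQ⟩ h1
  have h3 : x * q * x⁻¹ = q := congrArg Subtype.val h2
  have := congrArg (fun w => w * x) h3
  simpa using this

end Cfsg.Agent.Lib.Helper9
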