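import Cfsg.Agent.Lib.Helper9.ThmOrder
import Cfsg.Agent.Lib.Helper9.ChevTransfer

set_option autoImplicit false

namespace Cfsg.Agent.Lib.Helper9

open Cfsg.Lie Equiv

/-- Six row vectors permuted by the group of type `B₂` over the field with two elements. -/
def b2Wtab : List (List (ZMod 2)) :=
  [[0,1,0,0,0,1,1,0,0,0], [0,1,0,0,0,1,1,0,0,1], [0,1,1,0,0,0,0,0,0,1], [0,1,1,0,0,0,1,0,0,1],
   [0,1,1,0,0,1,0,0,0,1], [0,1,1,0,0,1,1,0,0,0]]

def b2W (i : Fin 6) : chevB2.Idx → ZMod 2 := fun c =>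
  (b2Wtab.getD i.val []).getD (match c with
    | Sum.inl a => a.val
    | Sum.inr r => 2 + r.val) 0

/-- The permutations of the six vectors induced by the root elements `x_r(1)`. -/
def b2pi : ℕ → Perm (Fin 6)
  | 0 => swap 0 1
  | 1 => swap 0 1 * swap 2 3 * swap 4 5
  | 2 => swap 0 1 * swap 2 4 * swap 3 5
  | 3 => swap 2 3
  | 4 => swap 2 4
  | 5 => swap 0 5 * swap 1 4 * swap 2 3
  | 6 => swap 0 5 * swap 1 3 * swap 2 4
  | 7 => swap 0 5
  | _ => 1

theorem b2W_inj : Function.Injective b2W := by decide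

theorem b2_act_one : ∀ r : Fin chevB2.nroots, ∀ i : Fin 6,
    Matrix.vecMul (b2W (b2pi r.val i)) (chevB2.xMat (ZMod 2) r 1) = b2W i := by decide

theorem b2_act_zero : ∀ r : Fin chevB2.nroots, ∀ i : Fin 6,
    Matrix.vecMul (b2W i) (chevB2.xMat (ZMod 2) r 0) = b2W i := by decide

/-- The matrices permuting the six vectors. -/
def b2Stab : Subgroup (GL chevB2.Idx (ZMod 2)) where
  carrier := {g | ∃ π : Perm (Fin 6), ∀ i,
    Matrix.vecMul (b2W (π i)) (g : Matrix chevB2.Idx chevB2.Idx (ZMod 2)) = b2W i}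
  one_mem' := ⟨1, fun i => by simp⟩
  mul_mem' := by
    rintro g h ⟨π, hπ⟩ ⟨π', hπ'⟩
    refine ⟨π * π', fun i => ?_⟩
    rw [Units.val_mul, ← Matrix.vecMul_vecMul, Perm.mul_apply, hπ, hπ']
  inv_mem' := by
    rintro g ⟨π, hπ⟩
    refine ⟨π⁻¹, fun i => ?_⟩
    have h := hπ (π⁻¹ i)
    rw [perm_apply_inv] at h
    rw [← h, Matrix.vecMul_vecMul, ← Units.val_mul, mul_inv_cancel, Units.val_one,
      Matrix.vecMul_one]

theorem b2_unique (g : GL chevB2.Idx (ZMod 2)) (π π' : Perm (Fin 6))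
    (h : ∀ i, Matrix.vecMul (b2W (π i)) (g : Matrix chevB2.Idx chevB2.Idx (ZMod 2)) = b2W i)
    (h' : ∀ i, Matrix.vecMul (b2W (π' i)) (g : Matrix chevB2.Idx chevB2.Idx (ZMod 2)) = b2W i) :
    π = π' := by
  ext i
  congr 1
  apply b2W_inj
  have e := (h i).trans (h' i).symm
  have e2 := congrArg (fun v => Matrix.vecMul v ((g⁻¹ : GL chevB2.Idx (ZMod 2)) :
    Matrix chevB2.Idx chevB2.Idx (ZMod 2))) e
  simp only [Matrix.vecMul_vecMul, ← Units.val_mul, mul_inv_cancel, Units.val_one,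
    Matrix.vecMul_one] at e2
  exact e2

/-- The action on the six vectors as a homomorphism. -/
noncomputable def b2Hom : ↥b2Stab →* Perm (Fin 6) where
  toFun g := Classical.choose g.2
  map_one' := by
    apply b2_unique 1 _ _ (Classical.choose_spec (1 : ↥b2Stab).2)
    intro i
    simp
  map_mul' := by
    intro g h
    apply b2_unique (g.1 * h.1) _ _ (Classical.choose_spec (g * h).2)
    intro i
    rw [Units.val_mul, ← Matrix.vecMul_vecMul, Perm.mul_apply, Classical.choose_spec g.2,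
      Classical.choose_spec h.2]

theorem b2Hom_eq (g : ↥b2Stab) (π : Perm (Fin 6))
    (h : ∀ i, Matrix.vecMul (b2W (π i)) ((g : GL chevB2.Idx (ZMod 2)) :
      Matrix chevB2.Idx chevB2.Idx (ZMod 2)) = b2W i) : b2Hom g = π :=
  b2_unique g.1 _ _ (Classical.choose_spec g.2) h

theorem zmod2_cases : ∀ t : ZMod 2, t = 0 ∨ t = 1 := by decide

theorem b2_group_le_stab : chevB2.group (ZMod 2) ≤ b2Stab := by
  unfold ChevalleyDatum.group
  rw [Subgroup.closure_le]
  rintro g ⟨r, t, hg⟩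
  rcases zmod2_cases t with rfl | rfl
  · exact ⟨1, fun i => by rw [hg]; exact b2_act_zero r i⟩
  · exact ⟨b2pi r.val, fun i => by rw [hg]; exact b2_act_one r i⟩

/-- The action of the group on the six vectors. -/
noncomputable def b2Act : ↥(chevB2.group (ZMod 2)) →* Perm (Fin 6) :=
  b2Hom.comp (Subgroup.inclusion b2_group_le_stab)

theorem b2pi_mem_range (r : ℕ) (hr : r < chevB2.nroots) : b2pi r ∈ b2Act.range := by
  have A := allok_all chevB2 mem_all_B2
  have hx : ((xU A.hk r (1 : ZMod 2) : GL chevB2.Idx (ZMod 2)) :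
      Matrix chevB2.Idx chevB2.Idx (ZMod 2)) = chevB2.xMat (ZMod 2) ⟨r, hr⟩ 1 := by
    rw [xU_val, x_eq_xMat chevB2 r hr]
  have hmem : xU A.hk r (1 : ZMod 2) ∈ chevB2.group (ZMod 2) :=
    Subgroup.subset_closure ⟨⟨r, hr⟩, 1, hx⟩
  refine ⟨⟨_, hmem⟩, ?_⟩
  apply b2Hom_eq
  intro i
  show Matrix.vecMul (b2W (b2pi r i)) ((xU A.hk r (1 : ZMod 2) : GL chevB2.Idx (ZMod 2)) :
      Matrix chevB2.Idx chevB2.Idx (ZMod 2)) = b2W i
  rw [hx]
  exact b2_act_one ⟨r, hr⟩ i

theorem b2Act_surjective : Function.Surjective b2Act := by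
  rw [← MonoidHom.range_eq_top]
  have h8 : chevB2.nroots = 8 := rfl
  have h0 := b2pi_mem_range 0 (by rw [h8]; norm_num)
  have h1 := b2pi_mem_range 1 (by rw [h8]; norm_num)
  have h2 := b2pi_mem_range 2 (by rw [h8]; norm_num)
  have h3 := b2pi_mem_range 3 (by rw [h8]; norm_num)
  have h4 := b2pi_mem_range 4 (by rw [h8]; norm_num)
  have h7 := b2pi_mem_range 7 (by rw [h8]; norm_num)
  have e0 : swap (0 : Fin 6) 1 = b2pi 0 := by decide
  have e1 : swap (1 : Fin 6) 2 = b2pi 3 * b2pi 2 * b2pi 7 * b2pi 2 * b2pi 3 := by decide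
  have e2 : swap (2 : Fin 6) 3 = b2pi 3 := by decide
  have e3 : swap (3 : Fin 6) 4 = b2pi 3 * b2pi 4 * b2pi 3 := by decide
  have e4 : swap (4 : Fin 6) 5 = b2pi 0 * b2pi 1 * b2pi 3 := by decide
  apply top_unique
  have hm : (⊤ : Submonoid (Perm (Fin 6))) ≤ b2Act.range.toSubmonoid := by
    rw [← Perm.mclosure_swap_castSucc_succ 5, Submonoid.closure_le]
    rintro _ ⟨i, rfl⟩
    show swap i.castSucc i.succ ∈ b2Act.range
    fin_cases i
    · show swap (0 : Fin 6) 1 ∈ b2Act.range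
      rw [e0]; exact h0
    · show swap (1 : Fin 6) 2 ∈ b2Act.range
      rw [e1]; exact mul_mem (mul_mem (mul_mem (mul_mem h3 h2) h7) h2) h3
    · show swap (2 : Fin 6) 3 ∈ b2Act.range
      rw [e2]; exact h3
    · show swap (3 : Fin 6) 4 ∈ b2Act.range
      rw [e3]; exact mul_mem (mul_mem h3 h4) h3
    · show swap (4 : Fin 6) 5 ∈ b2Act.range
      rw [e4]; exact mul_mem (mul_mem h0 h1) h3
  intro x _
  exact hm (Submonoid.mem_top x)

theorem b2_card_two : Nat.card ↥(chevB2.group (ZMod 2)) = 720 := by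
  have h := order_B2 (F := ZMod 2)
  rw [ZMod.card] at h
  norm_num at h
  exact h

/-- The Chevalley group of type `B₂` over the field with two elements is the symmetric group
on six letters. -/
theorem b2_two_equiv_perm : Nonempty (↥(chevB2.group (ZMod 2)) ≃* Perm (Fin 6)) := by
  have hfin : Finite ↥(chevB2.group (ZMod 2)) := inferInstance
  have hcard : Nat.card ↥(chevB2.group (ZMod 2)) ≤ Nat.card (Perm (Fin 6)) := by
    rw [b2_card_two, Nat.card_eq_fintype_card, Fintype.card_perm, Fintype.card_fin]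
    decide
  exact ⟨MulEquiv.ofBijective b2Act (b2Act_surjective.bijective_of_nat_card_le hcard)⟩

theorem b2_equiv_perm_of_card {F : Type*} [Field F] [Fintype F] (hF : Fintype.card F = 2) :
    Nonempty (↥(chevB2.group F) ≃* Perm (Fin 6)) := by
  obtain ⟨e1⟩ := group_equiv_of_ringEquiv chevB2 (ZMod.ringEquivOfPrime F Nat.prime_two hF).symm
  obtain ⟨e2⟩ := b2_two_equiv_perm
  exact ⟨e1.trans e2⟩

end Cfsg.Agent.Lib.Helper9
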