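import Cfsg.Agent.Lib.Helper9.ThmWeylPerm
import Cfsg.Agent.Lib.Helper15.ChevChar

set_option autoImplicit false

namespace Cfsg.Agent.Lib.Helper9

open Cfsg.Lie Cfsg.Agent.Lib.Helper15 Cfsg.Agent.Lib.Helper4

variable {D : ChevalleyDatum} {F : Type*} [Field F]

/-- An element of the Chevalley group that is the diagonal matrix of a character of the root
lattice lies in the diagonal subgroup. -/
theorem charDiag_mem_diag (A : ALLOK D) (hc : ChevChar.ChainOK D) (χ : ℕ → Fˣ)
    (hχ : D.IsRootCharacter χ) (g : GL D.Idx F) (hg : g ∈ D.group F)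
    (hgχ : (g : Matrix D.Idx D.Idx F) = D.charDiag F χ) : g ∈ D.diagonalSubgroup F := by
  classical
  obtain ⟨P, hB, _, _⟩ := bn_pair_exists (F := F) A.hk A.nk A.xk A.wk A.lk A.ak A.w0k A.ck A.pk
    A.ok A.bk
  have hinv : ((g⁻¹ : GL D.Idx F) : Matrix D.Idx D.Idx F) = D.charDiag F (fun s => (χ s)⁻¹) := by
    apply Units.inv_eq_of_mul_eq_one_right
    rw [hgχ]
    unfold ChevalleyDatum.charDiag
    rw [Matrix.diagonal_mul_diagonal, ← Matrix.diagonal_one]
    congr 1
    funext i
    rcases i with i | r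
    · simp
    · simp only [Sum.elim_inr]
      rw [← Units.val_mul, mul_inv_cancel, Units.val_one]
  have hU : D.posUnipotent F ≤ (D.borelSubgroup F).comap (MulAut.conj g).toMonoidHom := by
    unfold ChevalleyDatum.posUnipotent
    rw [Subgroup.closure_le]
    rintro x ⟨r, t, hr, hx⟩
    show g * x * g⁻¹ ∈ D.borelSubgroup F
    have e : g * x * g⁻¹ = xU A.hk r ((χ r : F) * t) := by
      apply Units.ext
      rw [Units.val_mul, Units.val_mul, hgχ, hinv, hx, xU_val]
      exact ChevChar.charDiag_conj D hc χ hχ r hr.1 t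
    rw [e]
    exact xU_pos_mem_borel A.hk hr _
  have hH : D.diagonalSubgroup F ≤ (D.borelSubgroup F).comap (MulAut.conj g).toMonoidHom := by
    intro h' hh
    show g * h' * g⁻¹ ∈ D.borelSubgroup F
    obtain ⟨c, _, hc'⟩ := diag_chi A.hk A.ak h' hh
    have e : g * h' = h' * g := by
      apply Units.ext
      rw [Units.val_mul, Units.val_mul, hgχ, hc']
      unfold ChevalleyDatum.charDiag chiMat
      rw [Matrix.diagonal_mul_diagonal, Matrix.diagonal_mul_diagonal]
      congr 1
      funext i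
      exact mul_comm _ _
    rw [e, mul_inv_cancel_right]
    exact diag_le_borel hh
  have hBle : D.borelSubgroup F ≤ (D.borelSubgroup F).comap (MulAut.conj g).toMonoidHom :=
    sup_le hU hH
  have hBmem : ∀ x : ↥(D.group F), x ∈ P.B ↔ (x : GL D.Idx F) ∈ D.borelSubgroup F := by
    rw [hB]
    intro x
    exact Iff.rfl
  have h1 : (⟨g, hg⟩ : ↥(D.group F)) ∈ P.B := by
    apply BN.mem_of_conj_mem P P.B P.B le_rfl le_rfl
    intro x hx
    rw [hBmem]
    exact hBle ((hBmem x).mp hx)
  have h2 : g ∈ D.borelSubgroup F := (hBmem _).mp h1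
  obtain ⟨u, hu, h, hh, e⟩ := borel_decomp A.hk A.wk A.ak g h2
  obtain ⟨c, _, hc'⟩ := diag_chi A.hk A.ak h⁻¹ (inv_mem hh)
  have hu1 : u = 1 := by
    apply Units.ext
    rw [Units.val_one]
    apply eq_one_of_UT_of_diag (posU_UT A.hk A.lk u hu).1
    intro i j hij
    have e2 : u = g * h⁻¹ := by rw [e]; group
    rw [e2, Units.val_mul, hgχ, hc']
    unfold ChevalleyDatum.charDiag chiMat
    rw [Matrix.diagonal_mul_diagonal, Matrix.diagonal_apply_ne _ hij]
  rw [e, hu1, one_mul]
  exact hh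

end Cfsg.Agent.Lib.Helper9
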