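import Cfsg.Agent.Lib.Helper9.CertTr
import Cfsg.Agent.Lib.Helper9.ThmWeylPerm

set_option autoImplicit false

namespace Cfsg.Agent.Lib.Helper9

open Cfsg.Lie

variable {D : ChevalleyDatum} {F : Type*} [Field F]

/-- Chevalley's commutator formula for all pairs of roots `s ≠ ±r`, with the constants of
`commWord`. -/
theorem comm_formula (A : ALLOK D) (T : TROK D) :
    ∀ (d r : ℕ), r < D.nroots → digitAt 64 (orbDOf D) r = d → ∀ s < D.nroots, s ≠ r →
      s ≠ D.neg r → ∀ t u : F,
        xU A.hk s u * xU A.hk r t =
          xU A.hk r t * xU A.hk s u * wordU A.hk (D.commWord F r s t u) := by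
  intro d
  induction d using Nat.strong_induction_on with
  | _ d ih =>
    intro r hr hd s hs hsr hsn t u
    obtain ⟨hj, h⟩ := orbB_spec (A.ok.orb r hr)
    have htr0 := allB_spec (T.tr r hr) hs
    simp only [Bool.or_eq_true] at htr0
    have htr : trB D (permOf D) (etaOf D) (orbJOf D) (orbDOf D) r s = true := by
      rcases htr0 with h1 | h1 | h1
      · exact absurd (Nat.eq_of_beq_eq_true h1) hsr
      · exact absurd (Nat.eq_of_beq_eq_true h1) hsn
      · exact h1
    unfold trB at htr
    generalize digitAt 16 (orbJOf D) r = j at hj h htr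
    rcases h with ⟨_, h0⟩ | ⟨hlt, hback, hneg⟩
    · subst h0
      apply Units.ext
      simp only [Units.val_mul, xU_val, wordU_val]
      exact comm_simple A.hk A.ck hj hs hsn t u
    · have hd0 : digitAt 64 (orbDOf D) r ≠ 0 := by omega
      rw [if_neg hd0] at htr
      obtain ⟨hrange', heq⟩ := trPairB_spec htr
      have hp : ∀ s < D.nroots, digitAt 256 (getN (permOf D) j) s = D.reflectRoot j s :=
        fun s hs => refl_eq_perm A.xk hj hs
      have hr' : D.reflectRoot j r < D.nroots := refl_lt A.hk A.nk hj hr
      have hs' : D.reflectRoot j s < D.nroots := refl_lt A.hk A.nk hj hs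
      rw [hp r hr] at hlt hback hneg hrange' heq
      rw [hp s hs] at hrange' heq
      rw [hp _ hr'] at hback
      rw [hp _ (A.hk.neg _ hr').2] at hneg
      have hne1 : D.reflectRoot j s ≠ D.reflectRoot j r := by
        intro e
        apply hsr
        rw [← refl_refl A.xk A.hk A.nk A.uk hj hs, e, hback]
      have hne2 : D.reflectRoot j s ≠ D.neg (D.reflectRoot j r) := by
        intro e
        apply hsn
        rw [← refl_refl A.xk A.hk A.nk A.uk hj hs, e, hneg]
      have e := ih _ (by rw [← hd]; exact hlt) (D.reflectRoot j r) hr' rfl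
        (D.reflectRoot j s) hs' hne1 hne2
        (((etaF (getN (etaOf D) j) (D.reflectRoot j r) : ℤ) : F) * t)
        (((etaF (getN (etaOf D) j) (D.reflectRoot j s) : ℤ) : F) * u)
      have e1 := congrArg (fun g => nU A.hk F j * g * (nU A.hk F j)⁻¹) e
      beta_reduce at e1
      have e2 : ∀ a b : GL D.Idx F, nU A.hk F j * (a * b) * (nU A.hk F j)⁻¹ =
          (nU A.hk F j * a * (nU A.hk F j)⁻¹) * (nU A.hk F j * b * (nU A.hk F j)⁻¹) := by
        intro a b
        group
      have hL : ∀ p ∈ D.commWord F (D.reflectRoot j r) (D.reflectRoot j s)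
          (((etaF (getN (etaOf D) j) (D.reflectRoot j r) : ℤ) : F) * t)
          (((etaF (getN (etaOf D) j) (D.reflectRoot j s) : ℤ) : F) * u), p.1 < D.nroots := by
        intro p hp'
        simp only [ChevalleyDatum.commWord, List.mem_map] at hp'
        obtain ⟨c, hc, rfl⟩ := hp'
        exact hrange' c hc
      rw [e2, e2, e2, nU_conj A.hk A.nk A.xk hj hr', nU_conj A.hk A.nk A.xk hj hs', hback,
        refl_refl A.xk A.hk A.nk A.uk hj hs, eta_sq, eta_sq,
        nU_conj_wordU A.hk A.nk A.xk hj _ hL] at e1
      rw [e1]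
      congr 2
      unfold ChevalleyDatum.commWord
      rw [heq, List.map_map, List.map_map]
      apply List.map_congr_left
      intro c hc
      simp only [Function.comp_apply]
      rw [hp c.1 (hrange' c hc)]
      congr 1
      have h1 := eta_sq (F := F) (getN (etaOf D) j) (D.reflectRoot j r) 1
      have h2 := eta_sq (F := F) (getN (etaOf D) j) (D.reflectRoot j s) 1
      push_cast
      ring

end Cfsg.Agent.Lib.Helper9
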