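import Cfsg.Agent.Lib.Helper9.ThmBruhat

set_option autoImplicit false

namespace Cfsg.Agent.Lib.Helper9

open Cfsg.Lie

variable {D : ChevalleyDatum} {F : Type*} [Field F]

/-- `H` normalises `U_n⁻`. -/
theorem diag_conj_uneg (hk : HOK D) (wk : WOK D) (ak : HAOK D) (n : GL D.Idx F)
    {h : GL D.Idx F} (hh : h ∈ D.diagonalSubgroup F) {u : GL D.Idx F}
    (hu : u ∈ unegSub D F n) : h * u * h⁻¹ ∈ unegSub D F n := by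
  refine conj_closure_mem _ _ _ ?_ u hu
  rintro y ⟨r, t, hr, hmap, hy⟩
  obtain ⟨c, hc, hhc⟩ := diag_chi hk ak h hh
  rw [eq_xU hk hy, chi_conj_xU hk wk h c hc hhc hr.1]
  exact Subgroup.subset_closure ⟨r, _, hr, hmap, xU_val hk _ _⟩

/-- Two elements of `H` conjugate in the Chevalley group are conjugate by an element of `N`. -/
theorem diag_conj_mono (hk : HOK D) (nk : NOK D) (xk : NXOK D) (wk : WOK D) (lk : LOK D)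
    (ak : HAOK D) (w0k : W0OK D) (ck : COMMOK D) (pk : POSOK D) (ok : ORBOK D) (bk : BNOK D)
    (rk : RNOK D) (hnp : ∀ r < D.nroots, D.IsPosRoot r → D.IsNegRoot (D.neg r))
    (h₁ h₂ g : GL D.Idx F) (h1 : h₁ ∈ D.diagonalSubgroup F) (h2 : h₂ ∈ D.diagonalSubgroup F)
    (hg : g ∈ D.group F) (hc : g * h₁ * g⁻¹ = h₂) :
    ∃ n ∈ D.monomialSubgroup F, n * h₁ * n⁻¹ = h₂ := by
  obtain ⟨hex, huniq⟩ := bruhat_normal_form (F := F) hk nk xk wk lk ak w0k ck pk ok bk rk hnp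
  obtain ⟨b, hb, n, hn, u, hu, rfl⟩ := hex g hg
  refine ⟨n, hn, ?_⟩
  obtain ⟨u₁, hu₁, h₀, hh₀, rfl⟩ := borel_decomp hk wk ak b hb
  have hnh : n * h₁ * n⁻¹ ∈ D.diagonalSubgroup F :=
    (Subgroup.mem_normalizer_iff.mp (mono_le_normalizer hk wk ak hn) _).mp h1
  have hbB : u₁ * h₀ ∈ D.borelSubgroup F :=
    mul_mem (Subgroup.mem_sup_left hu₁) (Subgroup.mem_sup_right hh₀)
  have hu' : h₁⁻¹ * u * h₁⁻¹⁻¹ ∈ unegSub D F n := diag_conj_uneg hk wk ak n (inv_mem h1) hu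
  have e : (u₁ * h₀ * (n * h₁ * n⁻¹)) * n * (h₁⁻¹ * u * h₁⁻¹⁻¹) = (h₂ * (u₁ * h₀)) * n * u := by
    have e1 : (u₁ * h₀ * (n * h₁ * n⁻¹)) * n * (h₁⁻¹ * u * h₁⁻¹⁻¹) =
        (u₁ * h₀ * n * u * h₁ * (u₁ * h₀ * n * u)⁻¹) * (u₁ * h₀ * n * u) := by group
    rw [e1, hc]
    group
  have h3 := (huniq _ _ n n _ _ (mul_mem hbB (diag_le_borel hnh))
    (mul_mem (diag_le_borel h2) hbB) hn hn hu' hu e).2 rfl
  have h4 : u₁ * h₀ * (n * h₁ * n⁻¹) = h₂ * (u₁ * h₀) := h3.1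
  have hu₂ : h₂ * u₁ * h₂⁻¹ ∈ D.posUnipotent F :=
    (Subgroup.mem_normalizer_iff.mp (diag_le_normalizer_pos hk wk ak h2) u₁).mp hu₁
  have h5 : (h₂ * u₁ * h₂⁻¹)⁻¹ * u₁ = h₂ * h₀ * (h₀ * (n * h₁ * n⁻¹))⁻¹ := by
    have e2 : (h₂ * u₁ * h₂⁻¹)⁻¹ * u₁ =
        h₂ * u₁⁻¹ * h₂⁻¹ * (u₁ * h₀ * (n * h₁ * n⁻¹)) * (h₀ * (n * h₁ * n⁻¹))⁻¹ := by group
    rw [e2, h4]
    group
  have h6a : (h₂ * u₁ * h₂⁻¹)⁻¹ * u₁ ∈ D.posUnipotent F := mul_mem (inv_mem hu₂) hu₁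
  have h6b : (h₂ * u₁ * h₂⁻¹)⁻¹ * u₁ ∈ D.monomialSubgroup F := by
    rw [h5]
    exact Subgroup.mem_sup_left (mul_mem (mul_mem h2 hh₀) (inv_mem (mul_mem hh₀ hnh)))
  have h6 : (h₂ * u₁ * h₂⁻¹)⁻¹ * u₁ ∈ D.posUnipotent F ⊓ D.monomialSubgroup F := ⟨h6a, h6b⟩
  rw [posU_inf_mono hk nk xk lk ak ok, Subgroup.mem_bot, h5] at h6
  have h7 : h₂ * h₀ = h₀ * (n * h₁ * n⁻¹) := mul_inv_eq_one.mp h6
  rw [diag_comm hk ak h₂ h₀ h2 hh₀] at h7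
  exact (mul_left_cancel h7).symm

end Cfsg.Agent.Lib.Helper9
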