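import Cfsg.Agent.Lib.Helper9.ThmPJ
import Cfsg.Agent.Lib.Helper9.CertW
import Cfsg.Agent.Lib.Helper9.ThmHA

set_option autoImplicit false

namespace Cfsg.Agent.Lib.Helper9

open Cfsg.Lie

section graded

variable {ι : Type*} [Fintype ι] [DecidableEq ι] {R : Type*} [Ring R]

/-- The matrix has non-zero entries only between indices of the same degree. -/
def JD (d : ι → ℤ) (M : Matrix ι ι R) : Prop := ∀ row col, M row col ≠ 0 → d row = d col

/-- Off the identity, the matrix has non-zero entries only where the degree rises strictly from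
the column to the row. -/
def JUT (d : ι → ℤ) (M : Matrix ι ι R) : Prop := ∀ row col, (M - 1) row col ≠ 0 → d col < d row

variable {d : ι → ℤ} {A B : Matrix ι ι R}

theorem jd_one (d : ι → ℤ) : JD d (1 : Matrix ι ι R) := by
  intro row col h
  by_cases e : row = col
  · rw [e]
  · exact absurd (Matrix.one_apply_ne e) h

theorem jd_diagonal (d : ι → ℤ) (v : ι → R) : JD d (Matrix.diagonal v) := by
  intro row col h
  by_cases e : row = col
  · rw [e]
  · exact absurd (Matrix.diagonal_apply_ne v e) h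

theorem JD.mul (hA : JD d A) (hB : JD d B) : JD d (A * B) := by
  intro row col h
  rw [Matrix.mul_apply] at h
  obtain ⟨m, _, hm⟩ := Finset.exists_ne_zero_of_sum_ne_zero h
  exact (hA row m (left_ne_zero_of_mul hm)).trans (hB m col (right_ne_zero_of_mul hm))

theorem jut_one (d : ι → ℤ) : JUT d (1 : Matrix ι ι R) := by
  intro row col h
  rw [sub_self] at h
  exact absurd rfl h

theorem JUT.mul (hA : JUT d A) (hB : JUT d B) : JUT d (A * B) := by
  intro row col h
  have e : A * B - 1 = (A - 1) * (B - 1) + (A - 1) + (B - 1) := by noncomm_ring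
  rw [e, Matrix.add_apply, Matrix.add_apply] at h
  by_cases h1 : (A - 1) row col = 0
  · by_cases h2 : (B - 1) row col = 0
    · rw [h1, h2, add_zero, add_zero, Matrix.mul_apply] at h
      obtain ⟨m, _, hm⟩ := Finset.exists_ne_zero_of_sum_ne_zero h
      exact lt_trans (hB m col (right_ne_zero_of_mul hm)) (hA row m (left_ne_zero_of_mul hm))
    · exact hB row col h2
  · exact hA row col h1

theorem eq_one_of_JUT_of_JD (hU : JUT d A) (hD : JD d A) : A = 1 := by
  rw [← sub_eq_zero]
  ext row col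
  by_contra h
  have h1 := hU row col h
  by_cases e : row = col
  · rw [e] at h1
    exact lt_irrefl _ h1
  · rw [Matrix.sub_apply, Matrix.one_apply_ne e, sub_zero] at h
    have h2 := hD row col h
    rw [h2] at h1
    exact lt_irrefl _ h1

end graded

variable {D : ChevalleyDatum} {F : Type*} [Field F]

/-- The entries of `x_s` respect the combinations of the Cartan exponents. -/
theorem gradN_entry (hk : HOK D) (wk : WOK D) (m : ℕ) {s : ℕ} (hs : s < D.nroots) :
    ∀ n ≤ D.rank, ∀ c < D.rank + D.nroots, ∀ e ∈ colX D s c,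
      gradN D m n e.1 = gradN D m n c + (e.2.2 : ℤ) * gradN D m n (Nat.add D.rank s) := by
  intro n
  induction n with
  | zero =>
    intro _ c _ e _
    simp [gradN_zero]
  | succ n ih =>
    intro hn c hc e he
    rw [gradN_succ, gradN_succ, gradN_succ, ih (by omega) c hc e he,
      wtB_spec D (litsOf D) s (hk.xok s hs) (wk.wt s hs) (show n < D.rank by omega) c hc e he]
    ring

open Classical in
/-- The degree of a code for the grading by the fundamental roots outside `J`. -/
noncomputable def degJ (D : ChevalleyDatum) (J : Set ℕ) (c : ℕ) : ℤ :=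
  ∑ i ∈ Finset.range D.rank, if i ∈ J then 0 else gradN D (getN (adjOf D) i) D.rank c

theorem degJ_entry (hk : HOK D) (wk : WOK D) (J : Set ℕ) {s : ℕ} (hs : s < D.nroots) :
    ∀ c < D.rank + D.nroots, ∀ e ∈ colX D s c,
      degJ D J e.1 = degJ D J c + (e.2.2 : ℤ) * degJ D J (Nat.add D.rank s) := by
  intro c hc e he
  unfold degJ
  rw [Finset.mul_sum, ← Finset.sum_add_distrib]
  apply Finset.sum_congr rfl
  intro i _
  split_ifs
  · simp
  · exact gradN_entry hk wk _ hs D.rank le_rfl c hc e he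

theorem degJ_sub (jk : PJOK D) {J : Set ℕ} {s : ℕ} (h : D.InRootSub J s) :
    degJ D J (Nat.add D.rank s) = 0 := by
  unfold degJ
  apply Finset.sum_eq_zero
  intro i hi
  split_ifs with hiJ
  · rfl
  · exact (gradB_spec (jk.grad i (Finset.mem_range.mp hi) s h.1)).1
      (h.2 i (Finset.mem_range.mp hi) hiJ)

theorem degJ_pos (jk : PJOK D) {J : Set ℕ} {s : ℕ} (hpos : D.IsPosRoot s)
    (hn : ¬ D.InRootSub J s) : 0 < degJ D J (Nat.add D.rank s) := by
  obtain ⟨i, hi, hiJ, hne⟩ := (not_sub_iff J hpos.1).mp hn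
  unfold degJ
  apply Finset.sum_pos'
  · intro k hk
    split_ifs
    · exact le_rfl
    · exact ((gradB_spec (jk.grad k (Finset.mem_range.mp hk) s hpos.1)).2 hpos).1
  · refine ⟨i, Finset.mem_range.mpr hi, ?_⟩
    rw [if_neg hiJ]
    exact ((gradB_spec (jk.grad i hi s hpos.1)).2 hpos).2 hne

/-- The degree function on the index type. -/
noncomputable def degI (D : ChevalleyDatum) (J : Set ℕ) : D.Idx → ℤ :=
  fun i => degJ D J (idxCode D i)

theorem x_JD (hk : HOK D) (wk : WOK D) (jk : PJOK D) {J : Set ℕ} {s : ℕ}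
    (h : D.InRootSub J s) (t : F) : JD (degI D J) (D.x F s t) := by
  intro row col hne
  by_cases e : row = col
  · rw [e]
  · have h1 : (D.x F s t - 1) row col ≠ 0 := by
      rwa [Matrix.sub_apply, Matrix.one_apply_ne e, sub_zero]
    obtain ⟨en, he, h2, _⟩ := x_sub_one_ne D s h.1 t row col h1
    have h3 := degJ_entry hk wk J h.1 _ (idxCode_lt D col) en he
    rw [degJ_sub jk h, mul_zero, add_zero, h2] at h3
    exact h3

theorem x_JUT (hk : HOK D) (wk : WOK D) (jk : PJOK D) {J : Set ℕ} {s : ℕ}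
    (hpos : D.IsPosRoot s) (hn : ¬ D.InRootSub J s) (t : F) : JUT (degI D J) (D.x F s t) := by
  intro row col h1
  obtain ⟨en, he, h2, h4⟩ := x_sub_one_ne D s hpos.1 t row col h1
  have h3 := degJ_entry hk wk J hpos.1 _ (idxCode_lt D col) en he
  rw [h2] at h3
  have h5 := degJ_pos jk hpos hn
  have h6 : (0 : ℤ) < (en.2.2 : ℤ) := by exact_mod_cast Nat.pos_of_ne_zero h4
  have h7 := mul_pos h6 h5
  show degJ D J (idxCode D col) < degJ D J (idxCode D row)
  omega

/-- The group of the matrices respecting the degrees, with their inverses. -/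
def jdSub (D : ChevalleyDatum) (F : Type*) [Field F] (J : Set ℕ) : Subgroup (GL D.Idx F) where
  carrier := {g | JD (degI D J) (g : Matrix D.Idx D.Idx F) ∧
    JD (degI D J) ((g⁻¹ : GL D.Idx F) : Matrix D.Idx D.Idx F)}
  mul_mem' := by
    intro a b ha hb
    show JD _ _ ∧ JD _ _
    rw [mul_inv_rev, Units.val_mul, Units.val_mul]
    exact ⟨ha.1.mul hb.1, hb.2.mul ha.2⟩
  one_mem' := by
    show JD _ _ ∧ JD _ _
    rw [inv_one, Units.val_one]
    exact ⟨jd_one _, jd_one _⟩
  inv_mem' := by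
    intro a ha
    show JD _ _ ∧ JD _ _
    rw [inv_inv]
    exact ⟨ha.2, ha.1⟩

/-- The group of the matrices unitriangular for the degrees, with their inverses. -/
def jutSub (D : ChevalleyDatum) (F : Type*) [Field F] (J : Set ℕ) : Subgroup (GL D.Idx F) where
  carrier := {g | JUT (degI D J) (g : Matrix D.Idx D.Idx F) ∧
    JUT (degI D J) ((g⁻¹ : GL D.Idx F) : Matrix D.Idx D.Idx F)}
  mul_mem' := by
    intro a b ha hb
    show JUT _ _ ∧ JUT _ _
    rw [mul_inv_rev, Units.val_mul, Units.val_mul]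
    exact ⟨ha.1.mul hb.1, hb.2.mul ha.2⟩
  one_mem' := by
    show JUT _ _ ∧ JUT _ _
    rw [inv_one, Units.val_one]
    exact ⟨jut_one _, jut_one _⟩
  inv_mem' := by
    intro a ha
    show JUT _ _ ∧ JUT _ _
    rw [inv_inv]
    exact ⟨ha.2, ha.1⟩

theorem levi_le_jdSub (hk : HOK D) (wk : WOK D) (ak : HAOK D) (jk : PJOK D) (J : Set ℕ) :
    D.leviSubgroup F J ≤ jdSub D F J := by
  unfold ChevalleyDatum.leviSubgroup
  refine sup_le ?_ ?_
  · intro h hh
    obtain ⟨⟨c, _, hc⟩, ⟨c', _, hc'⟩⟩ := diag_chi_pair hk ak h hh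
    show JD _ _ ∧ JD _ _
    rw [hc, hc']
    exact ⟨jd_diagonal _ _, jd_diagonal _ _⟩
  · rw [Subgroup.closure_le]
    rintro g ⟨r, t, hr, hg⟩
    rw [eq_xU hk hg]
    show JD _ _ ∧ JD _ _
    rw [xU_inv, xU_val, xU_val]
    exact ⟨x_JD hk wk jk hr t, x_JD hk wk jk hr (-t)⟩

theorem uJ_le_jutSub (hk : HOK D) (wk : WOK D) (jk : PJOK D) (J : Set ℕ) :
    D.unipotentRadical F J ≤ jutSub D F J := by
  unfold ChevalleyDatum.unipotentRadical
  rw [Subgroup.closure_le]
  rintro g ⟨r, t, hr, hn, hg⟩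
  rw [eq_xU hk hg]
  show JUT _ _ ∧ JUT _ _
  rw [xU_inv, xU_val, xU_val]
  exact ⟨x_JUT hk wk jk hr hn t, x_JUT hk wk jk hr hn (-t)⟩

/-- `U_J ∩ L_J = 1`. -/
theorem uJ_inf_levi (hk : HOK D) (wk : WOK D) (ak : HAOK D) (jk : PJOK D) (J : Set ℕ) :
    D.unipotentRadical F J ⊓ D.leviSubgroup F J = ⊥ := by
  rw [eq_bot_iff]
  rintro g ⟨hu, hl⟩
  rw [Subgroup.mem_bot]
  apply Units.ext
  rw [Units.val_one]
  exact eq_one_of_JUT_of_JD (uJ_le_jutSub hk wk jk J hu).1 (levi_le_jdSub hk wk ak jk J hl).1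

/-- `U_J L_J = P_J`. -/
theorem uJ_sup_levi (hk : HOK D) (nk : NOK D) (xk : NXOK D) (ok : ORBOK D) (J : Set ℕ) :
    D.unipotentRadical F J ⊔ D.leviSubgroup F J = D.parabolicSubgroup F J := by
  rw [par_eq_leviGen hk nk xk ok J]
  apply le_antisymm
  · refine sup_le ?_ (sup_le le_sup_left ?_)
    · unfold ChevalleyDatum.unipotentRadical
      rw [Subgroup.closure_le]
      rintro g ⟨r, t, hr, _, hg⟩
      rw [eq_xU hk hg]
      exact xU_mem_leviGen hk J (Or.inl hr) t
    · rw [Subgroup.closure_le]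
      rintro g ⟨r, t, hr, hg⟩
      rw [eq_xU hk hg]
      exact xU_mem_leviGen hk J (Or.inr hr) t
  · unfold leviGen
    refine sup_le (le_sup_left.trans le_sup_right) ?_
    rw [Subgroup.closure_le]
    rintro g ⟨r, t, hr, hg⟩
    by_cases hsub : D.InRootSub J r
    · exact (le_sup_right : D.leviSubgroup F J ≤ _)
        ((le_sup_right : Subgroup.closure _ ≤ D.leviSubgroup F J)
          (Subgroup.subset_closure ⟨r, t, hsub, hg⟩))
    · rcases hr with hpos | h
      · exact (le_sup_left : D.unipotentRadical F J ≤ _)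
          (Subgroup.subset_closure ⟨r, t, hpos, hsub, hg⟩)
      · exact absurd h hsub

end Cfsg.Agent.Lib.Helper9
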