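import Cfsg.Agent.Lib.Helper9.CertNH

set_option autoImplicit false

namespace Cfsg.Agent.Lib.Helper9

open Cfsg.Lie

variable {D : ChevalleyDatum} {F : Type*} [Field F]

/-- `n_{p_i} h_{p_j}(t) = h_{w_i(p_j)}(t) n_{p_i}`. -/
theorem nh_cert (hk : HOK D) (nk : NOK D) (xk : NXOK D) (rk : NHOK D) {i j : ℕ}
    (hi : i < D.rank) (hj : j < D.rank) (t : F) (ht : t ≠ 0) :
    D.nMat F (D.simple i) 1 * D.hMat F (D.simple j) t =
      D.hMat F (D.reflectRoot i (D.simple j)) t * D.nMat F (D.simple i) 1 :=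
  nh_comm D hk.hN (litsOf D) (getN (permOf D) i) (getN (etaOf D) i) i j hi hk.xok
    (fun r hr => (hk.neg r hr).2) (simple_lt D hk.simple hi).1 (simple_lt D hk.simple hj).1
    (allB_spec hk.cartan hi) (nk.nok i hi) (xk.perm i hi) (hk.hdiag j hj) (rk.nh i hi j hj) t ht

end Cfsg.Agent.Lib.Helper9
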