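import Cfsg.Agent.Lib.Helper9.ThmTw2
import Cfsg.Agent.Lib.Helper9.ThmB

set_option autoImplicit false

namespace Cfsg.Agent.Lib.Helper9

open Cfsg.Lie

open scoped commutatorElement

variable {D : ChevalleyDatum} {F : Type*} [Field F]

/-- The derived subgroup of the Chevalley group, inside the general linear group. -/
def derG (D : ChevalleyDatum) (F : Type*) [Field F] : Subgroup (GL D.Idx F) :=
  ⁅D.group F, D.group F⁆

theorem derG_le (D : ChevalleyDatum) (F : Type*) [Field F] : derG D F ≤ D.group F :=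
  Subgroup.commutator_le_self _

theorem derG_conj {g x : GL D.Idx F} (hg : g ∈ D.group F) (hx : x ∈ derG D F) :
    g * x * g⁻¹ ∈ derG D F := by
  have h : ⁅g, x⁆ ∈ derG D F := Subgroup.commutator_mem_commutator hg (derG_le D F hx)
  have e : g * x * g⁻¹ = ⁅g, x⁆ * x := by
    rw [commutatorElement_def]
    group
  rw [e]
  exact mul_mem h hx

/-- A root element which is the only term of a commutator formula lies in the derived
subgroup. -/
theorem single_comm_mem (hk : HOK D) {a b r : ℕ} {c : ℤ} (ha : a < D.nroots) (hb : b < D.nroots)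
    (hne : b ≠ D.neg a) (hB : commB D (litsOf D) a b = true)
    (hT : D.commTerms a b = [(r, c, 1, 1)]) (t : F) : xU hk r ((c : F) * t) ∈ derG D F := by
  have h := comm_of_commB D hk.hN (litsOf D) hk.xok ha hb hne hB (-t) (1 : F)
  rw [ChevalleyDatum.commWord, hT] at h
  simp only [List.map_cons, List.map_nil, ChevalleyDatum.wordMat, List.prod_cons, List.prod_nil,
    mul_one, neg_neg, pow_one] at h
  have e : xU hk r ((c : F) * t) = ⁅(xU hk b (1 : F))⁻¹, (xU hk a (-t))⁻¹⁆ := by
    rw [commutatorElement_def, inv_inv, inv_inv, mul_assoc, mul_assoc, eq_inv_mul_iff_mul_eq,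
      eq_inv_mul_iff_mul_eq]
    apply Units.ext
    simp only [Units.val_mul, xU_val]
    rw [h, mul_assoc]
  rw [e]
  exact Subgroup.commutator_mem_commutator (inv_mem (xU_mem_group hk hb _))
    (inv_mem (xU_mem_group hk ha _))

theorem single_comm_mem' (hk : HOK D) {a b r : ℕ} {c : ℤ} (ha : a < D.nroots)
    (hb : b < D.nroots) (hne : b ≠ D.neg a) (hB : commB D (litsOf D) a b = true)
    (hT : D.commTerms a b = [(r, c, 1, 1)]) (hc : (c : F) ≠ 0) (t : F) :
    xU hk r t ∈ derG D F := by
  have h := single_comm_mem hk ha hb hne hB hT ((c : F)⁻¹ * t)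
  rwa [← mul_assoc, mul_inv_cancel₀ hc, one_mul] at h

/-- The commutator of `h_r(u)` with a root element lies in the derived subgroup. -/
theorem diag_comm_mem (hk : HOK D) (wk : WOK D) (ak : HAOK D) {r s : ℕ} (hr : r < D.nroots)
    (hs : s < D.nroots) {u : F} (hu : u ≠ 0) (t : F) :
    xU hk s ((u ^ rootExp D r (Nat.add D.rank s) - 1) * t) ∈ derG D F := by
  set h : GL D.Idx F := nrU hk r u * nrU hk r (-1) with hh
  have hval : (h : Matrix D.Idx D.Idx F) = D.hMat F r u := hMat_eq_nrU hk r u
  have hG : h ∈ D.group F := hMat_mem_group hk hr hval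
  have hchi : (h : Matrix D.Idx D.Idx F) = chiMat D (fun i => u ^ corootC D r i) := by
    rw [hval]
    exact hMat_chi D hk.hN (litsOf D) r hr (hk.neg r hr).2 (hk.xok r hr)
      (hk.xok _ (hk.neg r hr).2) (ak.hall r hr) u hu
  have hconj := chi_conj_xU hk wk h (fun i => u ^ corootC D r i)
    (fun i => zpow_ne_zero _ hu) hchi hs t
  rw [← zpow_rootExpN D r D.rank _ u hu] at hconj
  have e : xU hk s ((u ^ rootExp D r (Nat.add D.rank s) - 1) * t) = ⁅h, xU hk s t⁆ := by
    rw [commutatorElement_def, hconj, xU_inv, xU_mul]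
    congr 1
    rw [rootExp]
    ring
  rw [e]
  exact Subgroup.commutator_mem_commutator hG (xU_mem_group hk hs t)

theorem diag_comm_mem' (hk : HOK D) (wk : WOK D) (ak : HAOK D) {r s : ℕ} (hr : r < D.nroots)
    (hs : s < D.nroots) {u : F} (hu : u ≠ 0)
    (hne : u ^ rootExp D r (Nat.add D.rank s) - 1 ≠ 0) (t : F) : xU hk s t ∈ derG D F := by
  have h := diag_comm_mem hk wk ak hr hs hu ((u ^ rootExp D r (Nat.add D.rank s) - 1)⁻¹ * t)
  rwa [← mul_assoc, mul_inv_cancel₀ hne, one_mul] at h

/-- A subgroup stable under conjugation by the `n_p` and containing the root elements of the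
fundamental roots contains all the root elements. -/
theorem xU_mem_of_simple (hk : HOK D) (nk : NOK D) (xk : NXOK D) (ok : ORBOK D)
    (K : Subgroup (GL D.Idx F))
    (hK : ∀ j < D.rank, ∀ g ∈ K, nU hk F j * g * (nU hk F j)⁻¹ ∈ K)
    (hb : ∀ i < D.rank, ∀ t : F, xU hk (D.simple i) t ∈ K) :
    ∀ (d r : ℕ), r < D.nroots → digitAt 64 (orbDOf D) r = d → ∀ t : F, xU hk r t ∈ K := by
  intro d
  induction d using Nat.strong_induction_on with
  | _ d ih =>
    intro r hr hd t
    obtain ⟨hj, h⟩ := orbB_spec (ok.orb r hr)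
    generalize digitAt 16 (orbJOf D) r = j at hj h
    rcases h with ⟨_, h0⟩ | ⟨hlt, hback, _⟩
    · rw [h0]
      exact hb j hj t
    · have hp : ∀ s < D.nroots, digitAt 256 (getN (permOf D) j) s = D.reflectRoot j s :=
        fun s hs => Nat.eq_of_beq_eq_true (allB_spec (xk.perm j hj) hs)
      have hr' : D.reflectRoot j r < D.nroots := refl_lt hk nk hj hr
      rw [hp r hr] at hlt hback
      rw [hp _ hr'] at hback
      have h1 := ih _ (by rw [← hd]; exact hlt) (D.reflectRoot j r) hr' rfl
        (((etaF (getN (etaOf D) j) (D.reflectRoot j r) : ℤ) : F) * t)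
      have h2 := nU_conj (F := F) hk nk xk hj hr'
        (((etaF (getN (etaOf D) j) (D.reflectRoot j r) : ℤ) : F) * t)
      rw [hback] at h2
      have e : ((etaF (getN (etaOf D) j) (D.reflectRoot j r) : ℤ) : F) *
          (((etaF (getN (etaOf D) j) (D.reflectRoot j r) : ℤ) : F) * t) = t := by
        rcases etaF_pm (getN (etaOf D) j) (D.reflectRoot j r) with h | h <;> rw [h] <;> simp
      rw [e] at h2
      rw [← h2]
      exact hK j hj _ h1

/-- The Chevalley group is perfect as soon as the root elements of the fundamental roots lie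
in its derived subgroup. -/
theorem perfect_of_simple (hk : HOK D) (nk : NOK D) (xk : NXOK D) (ok : ORBOK D)
    (h : ∀ i < D.rank, ∀ t : F, xU hk (D.simple i) t ∈ derG D F) :
    commutator ↥(D.group F) = ⊤ := by
  have hall : ∀ r < D.nroots, ∀ t : F, xU hk r t ∈ derG D F := fun r hr t =>
    xU_mem_of_simple hk nk xk ok (derG D F)
      (fun j hj g hg => derG_conj (mono_le_group hk (nU_mem hk hj)) hg) h _ r hr rfl t
  have hle : D.group F ≤ derG D F := by
    unfold ChevalleyDatum.group
    rw [Subgroup.closure_le]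
    rintro g ⟨r, t, hg⟩
    have hg' : (g : Matrix D.Idx D.Idx F) = D.x F r t := by rw [hg, x_eq_xMat D r r.2]
    rw [eq_xU hk hg']
    exact hall r r.2 t
  rw [eq_top_iff]
  intro x _
  have hx : (x : GL D.Idx F) ∈ (commutator ↥(D.group F)).map (D.group F).subtype := by
    rw [Subgroup.map_subtype_commutator]
    exact hle x.2
  obtain ⟨y, hy, hxy⟩ := hx
  have : y = x := Subtype.ext hxy
  rw [← this]
  exact hy

/-- The root elements of the fundamental roots lie in the derived subgroup when each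
fundamental root is the only term of a commutator formula, with coefficient `±1`. -/
theorem simple_of_pairs (hk : HOK D) (L : List (ℕ × ℕ × ℕ))
    (hL : ∀ p ∈ L, p.2.1 < D.nroots ∧ p.2.2 < D.nroots ∧ p.2.2 ≠ D.neg p.2.1 ∧
      commB D (litsOf D) p.2.1 p.2.2 = true ∧
      (D.commTerms p.2.1 p.2.2 = [(D.simple p.1, 1, 1, 1)] ∨
        D.commTerms p.2.1 p.2.2 = [(D.simple p.1, -1, 1, 1)]))
    (hcov : ∀ i < D.rank, ∃ p ∈ L, p.1 = i) :
    ∀ i < D.rank, ∀ t : F, xU hk (D.simple i) t ∈ derG D F := by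
  intro i hi t
  obtain ⟨p, hp, rfl⟩ := hcov i hi
  obtain ⟨h1, h2, h3, h4, h5⟩ := hL p hp
  rcases h5 with h5 | h5
  · exact single_comm_mem' hk h1 h2 h3 h4 h5 (by simp) t
  · exact single_comm_mem' hk h1 h2 h3 h4 h5 (by simp) t

end Cfsg.Agent.Lib.Helper9
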