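import Mathlib

set_option autoImplicit false

namespace Cfsg.Agent.Lib.Helper9

open Matrix

variable {F : Type*} [Field F]

/-- The upper unitriangular element of `SL₂`. -/
def sl2U (t : F) : SpecialLinearGroup (Fin 2) F := ⟨!![1, t; 0, 1], by simp [det_fin_two]⟩

/-- The lower unitriangular element of `SL₂`. -/
def sl2L (t : F) : SpecialLinearGroup (Fin 2) F := ⟨!![1, 0; t, 1], by simp [det_fin_two]⟩

/-- The Weyl element of `SL₂`. -/
def sl2W : SpecialLinearGroup (Fin 2) F := ⟨!![0, 1; -1, 0], by simp [det_fin_two]⟩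

theorem sl2_det (g : SpecialLinearGroup (Fin 2) F) :
    g.1 0 0 * g.1 1 1 - g.1 0 1 * g.1 1 0 = 1 := by
  rw [← det_fin_two]
  exact g.2

theorem sl2_ext {g h : SpecialLinearGroup (Fin 2) F} (h00 : g.1 0 0 = h.1 0 0)
    (h01 : g.1 0 1 = h.1 0 1) (h10 : g.1 1 0 = h.1 1 0) (h11 : g.1 1 1 = h.1 1 1) : g = h := by
  apply Subtype.ext
  ext i j
  fin_cases i <;> fin_cases j
  · exact h00
  · exact h01
  · exact h10
  · exact h11

theorem sl2_mul_val (g h : SpecialLinearGroup (Fin 2) F) (i j : Fin 2) :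
    (g * h).1 i j = g.1 i 0 * h.1 0 j + g.1 i 1 * h.1 1 j := by
  show (g.1 * h.1) i j = _
  rw [mul_apply, Fin.sum_univ_two]

theorem sl2U_val (t : F) : (sl2U t).1 = !![1, t; 0, 1] := rfl
theorem sl2L_val (t : F) : (sl2L t).1 = !![1, 0; t, 1] := rfl
theorem sl2W_val : (sl2W : SpecialLinearGroup (Fin 2) F).1 = !![0, 1; -1, 0] := rfl

theorem sl2W_pow : (sl2W : SpecialLinearGroup (Fin 2) F) * sl2W * sl2W * sl2W = 1 := by
  apply sl2_ext <;> simp [sl2_mul_val, sl2W_val]

theorem sl2L_eq (c : F) : sl2L c = sl2W * sl2U (-c) * sl2W * sl2W * sl2W := by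
  apply sl2_ext <;> simp [sl2_mul_val, sl2W_val, sl2U_val, sl2L_val]

theorem sl2W_eq : (sl2W : SpecialLinearGroup (Fin 2) F) = sl2U 1 * sl2L (-1) * sl2U 1 := by
  apply sl2_ext <;> simp [sl2_mul_val, sl2W_val, sl2U_val, sl2L_val]

theorem sl2_factor (g : SpecialLinearGroup (Fin 2) F) (hc : g.1 1 0 ≠ 0) :
    g = sl2U ((g.1 0 0 - 1) / g.1 1 0) * sl2L (g.1 1 0) * sl2U ((g.1 1 1 - 1) / g.1 1 0) := by
  have hdet := sl2_det g
  apply sl2_ext
  · simp [sl2_mul_val, sl2U_val, sl2L_val]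
    field_simp
    ring
  · simp [sl2_mul_val, sl2U_val, sl2L_val]
    field_simp
    linear_combination (-1 : F) * hdet
  · simp [sl2_mul_val, sl2U_val, sl2L_val]
  · simp [sl2_mul_val, sl2U_val, sl2L_val]
    field_simp
    ring

/-- Induction over the generators of `SL₂`. -/
theorem sl2_induction (P : SpecialLinearGroup (Fin 2) F → Prop)
    (hmul : ∀ g g', P g → P g' → P (g * g')) (hu : ∀ t, P (sl2U t)) (hw : P sl2W) :
    ∀ g, P g := by
  have hPl : ∀ c, P (sl2L c) := fun c => by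
    rw [sl2L_eq]
    exact hmul _ _ (hmul _ _ (hmul _ _ (hmul _ _ hw (hu _)) hw) hw) hw
  have key : ∀ g : SpecialLinearGroup (Fin 2) F, g.1 1 0 ≠ 0 → P g := by
    intro g hc
    rw [sl2_factor g hc]
    exact hmul _ _ (hmul _ _ (hu _) (hPl _)) (hu _)
  intro g
  by_cases hc : g.1 1 0 = 0
  · have hdet := sl2_det g
    have hd : g.1 1 1 ≠ 0 := by
      intro h
      rw [h, hc] at hdet
      simp at hdet
    have h2 : P (g * sl2W) := key _ (by
      rw [sl2_mul_val, sl2W_val]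
      simpa using hd)
    have e : g = g * sl2W * (sl2W * sl2W * sl2W) := by
      have := sl2W_pow (F := F)
      calc g = g * (sl2W * sl2W * sl2W * sl2W) := by rw [this, mul_one]
        _ = g * sl2W * (sl2W * sl2W * sl2W) := by group
    rw [e]
    exact hmul _ _ h2 (hmul _ _ (hmul _ _ hw hw) hw)
  · exact key g hc

section

variable {G : Type*} [Group G] (X Y H : F → G) (N : G)

open Classical in
/-- The map of `SL₂` to a group given by the normal form of the elements. -/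
noncomputable def sl2Map (g : SpecialLinearGroup (Fin 2) F) : G :=
  if g.1 1 0 = 0 then X (g.1 0 1 * g.1 0 0) * H (g.1 0 0)
  else X (g.1 0 0 * (g.1 1 0)⁻¹) * H (-(g.1 1 0)⁻¹) * N * X (g.1 1 1 * (g.1 1 0)⁻¹)

variable {X Y H N}

/-- A group with elements satisfying the relations of the root elements of `SL₂` receives a
homomorphism from `SL₂`. -/
theorem sl2_hom (R1 : ∀ s t, X (s + t) = X s * X t)
    (R2 : ∀ a t, a ≠ 0 → H a * X t * (H a)⁻¹ = X (a ^ 2 * t))
    (R3 : ∀ a b, a ≠ 0 → b ≠ 0 → H (a * b) = H a * H b) (R3' : H 1 = 1)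
    (R4 : N * N = H (-1))
    (R5 : ∀ q, N * X q * N⁻¹ = Y (-q))
    (R6 : ∀ t, t ≠ 0 → H t * N = X t * Y (-t⁻¹) * X t) :
    ∃ φ : SpecialLinearGroup (Fin 2) F →* G, (∀ t, φ (sl2U t) = X t) ∧ ∀ t, φ (sl2L t) = Y t := by
  have X0 : X 0 = 1 := by
    have h : X 0 * X 0 = X 0 * 1 := by rw [mul_one, ← R1, add_zero]
    exact mul_left_cancel h
  have Xneg : ∀ t, X (-t) = (X t)⁻¹ := fun t =>
    eq_inv_of_mul_eq_one_left (by rw [← R1, neg_add_cancel, X0])
  have HX : ∀ a t, a ≠ 0 → H a * X t = X (a ^ 2 * t) * H a := by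
    intro a t ha
    rw [← R2 a t ha]
    group
  have Hm1X : ∀ t, H (-1) * X t = X t * H (-1) := by
    intro t
    rw [HX (-1) t (by simp)]
    congr 2
    ring
  have NH : N * H (-1) = H (-1) * N := by rw [← R4, mul_assoc]
  have Y0 : Y 0 = 1 := by
    have := R5 0
    rw [X0, mul_one, mul_inv_cancel, neg_zero] at this
    exact this.symm
  have Yform : ∀ q, q ≠ 0 → Y (-q) = X (-q⁻¹) * H q⁻¹ * N * X (-q⁻¹) := by
    intro q hq
    have h := R6 q⁻¹ (inv_ne_zero hq)
    rw [inv_inv] at h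
    rw [Xneg, mul_assoc (X q⁻¹)⁻¹, h]
    group
  have Rstar : ∀ q, q ≠ 0 → N * X q * N = X (-q⁻¹) * H (-q⁻¹) * N * X (-q⁻¹) := by
    intro q hq
    have e1 : N * X q * N = (N * X q * N⁻¹) * (N * N) := by group
    rw [e1, R5, R4, Yform q hq]
    have e2 : X (-q⁻¹) * H q⁻¹ * N * X (-q⁻¹) * H (-1) =
        X (-q⁻¹) * H q⁻¹ * N * (H (-1) * X (-q⁻¹)) := by
      rw [Hm1X]
      group
    have e3 : X (-q⁻¹) * H q⁻¹ * N * (H (-1) * X (-q⁻¹)) =
        X (-q⁻¹) * H q⁻¹ * (N * H (-1)) * X (-q⁻¹) := by group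
    have e4 : X (-q⁻¹) * H q⁻¹ * (H (-1) * N) * X (-q⁻¹) =
        X (-q⁻¹) * (H q⁻¹ * H (-1)) * N * X (-q⁻¹) := by group
    rw [e2, e3, NH, e4, ← R3 _ _ (inv_ne_zero hq) (by simp)]
    congr 4
    ring
  have stepU : ∀ (g : SpecialLinearGroup (Fin 2) F) (t : F),
      sl2Map X H N (g * sl2U t) = sl2Map X H N g * X t := by
    intro g t
    have hdet := sl2_det g
    have e00 : (g * sl2U t).1 0 0 = g.1 0 0 := by simp [sl2_mul_val, sl2U_val]
    have e01 : (g * sl2U t).1 0 1 = g.1 0 0 * t + g.1 0 1 := by simp [sl2_mul_val, sl2U_val]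
    have e10 : (g * sl2U t).1 1 0 = g.1 1 0 := by simp [sl2_mul_val, sl2U_val]
    have e11 : (g * sl2U t).1 1 1 = g.1 1 0 * t + g.1 1 1 := by simp [sl2_mul_val, sl2U_val]
    unfold sl2Map
    rw [e10]
    by_cases hc : g.1 1 0 = 0
    · rw [if_pos hc, if_pos hc, e01, e00]
      have ha : g.1 0 0 ≠ 0 := by
        intro h
        rw [h, hc] at hdet
        simp at hdet
      rw [mul_assoc (X _) (H _) (X t), HX _ t ha, ← mul_assoc, ← R1]
      congr 2
      ring
    · rw [if_neg hc, if_neg hc, e00, e11, mul_assoc _ (X _) (X t), ← R1]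
      congr 2
      field_simp
      ring
  have stepW : ∀ (g : SpecialLinearGroup (Fin 2) F),
      sl2Map X H N (g * sl2W) = sl2Map X H N g * N := by
    intro g
    have hdet := sl2_det g
    have e00 : (g * sl2W).1 0 0 = -g.1 0 1 := by simp [sl2_mul_val, sl2W_val]
    have e01 : (g * sl2W).1 0 1 = g.1 0 0 := by simp [sl2_mul_val, sl2W_val]
    have e10 : (g * sl2W).1 1 0 = -g.1 1 1 := by simp [sl2_mul_val, sl2W_val]
    have e11 : (g * sl2W).1 1 1 = g.1 1 0 := by simp [sl2_mul_val, sl2W_val]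
    unfold sl2Map
    rw [e00, e01, e10, e11]
    by_cases hc : g.1 1 0 = 0
    · have had : g.1 0 0 * g.1 1 1 = 1 := by
        rw [hc] at hdet
        simpa using hdet
      have hd : g.1 1 1 ≠ 0 := by
        intro h
        rw [h] at had
        simp at had
      have ha : g.1 0 0 = (g.1 1 1)⁻¹ := eq_inv_of_mul_eq_one_left had
      rw [if_pos hc, if_neg (neg_ne_zero.mpr hd), hc, zero_mul, X0, mul_one, ha]
      congr 3
      · field_simp
      · rw [inv_neg, neg_neg]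
    · by_cases hd : g.1 1 1 = 0
      · have hbc : g.1 0 1 * g.1 1 0 = -1 := by
          rw [hd] at hdet
          linear_combination (-1 : F) * hdet
        have hb : -g.1 0 1 = (g.1 1 0)⁻¹ := by
          field_simp
          linear_combination (-1 : F) * hbc
        rw [if_neg hc, if_pos (by rw [hd, neg_zero]), hd, zero_mul, X0, mul_one, mul_assoc _ N N,
          R4, mul_assoc (X _), ← R3 _ _ (neg_ne_zero.mpr (inv_ne_zero hc)) (by simp), hb]
        congr 2
        ring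
      · rw [if_neg hc, if_neg (neg_ne_zero.mpr hd)]
        have hq : g.1 1 1 * (g.1 1 0)⁻¹ ≠ 0 := mul_ne_zero hd (inv_ne_zero hc)
        have e1 : X (g.1 0 0 * (g.1 1 0)⁻¹) * H (-(g.1 1 0)⁻¹) * N *
            X (g.1 1 1 * (g.1 1 0)⁻¹) * N = X (g.1 0 0 * (g.1 1 0)⁻¹) * H (-(g.1 1 0)⁻¹) *
            (N * X (g.1 1 1 * (g.1 1 0)⁻¹) * N) := by group
        rw [e1, Rstar _ hq]
        have e2 : X (g.1 0 0 * (g.1 1 0)⁻¹) * H (-(g.1 1 0)⁻¹) *
            (X (-(g.1 1 1 * (g.1 1 0)⁻¹)⁻¹) * H (-(g.1 1 1 * (g.1 1 0)⁻¹)⁻¹) * N *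
              X (-(g.1 1 1 * (g.1 1 0)⁻¹)⁻¹)) =
            X (g.1 0 0 * (g.1 1 0)⁻¹) * (H (-(g.1 1 0)⁻¹) * X (-(g.1 1 1 * (g.1 1 0)⁻¹)⁻¹)) *
              H (-(g.1 1 1 * (g.1 1 0)⁻¹)⁻¹) * N * X (-(g.1 1 1 * (g.1 1 0)⁻¹)⁻¹) := by group
        rw [e2, HX _ _ (neg_ne_zero.mpr (inv_ne_zero hc)), ← mul_assoc (X _) (X _), ← R1,
          mul_assoc (X _) (H _) (H _),
          ← R3 _ _ (neg_ne_zero.mpr (inv_ne_zero hc)) (neg_ne_zero.mpr (inv_ne_zero hq))]
        congr 2
        · congr 2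
          · field_simp
            linear_combination (-1 : F) * hdet
          · field_simp
        · field_simp
  have map1 : sl2Map X H N (1 : SpecialLinearGroup (Fin 2) F) = 1 := by
    unfold sl2Map
    simp [X0, R3']
  have mapU : ∀ t, sl2Map X H N (sl2U t) = X t := by
    intro t
    unfold sl2Map
    simp [sl2U_val, R3']
  have mapW : sl2Map X H N (sl2W : SpecialLinearGroup (Fin 2) F) = N := by
    unfold sl2Map
    simp [sl2W_val, X0, R3']
  have hmul : ∀ g' g : SpecialLinearGroup (Fin 2) F,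
      sl2Map X H N (g * g') = sl2Map X H N g * sl2Map X H N g' := by
    apply sl2_induction
    · intro g1 g2 h1 h2 g
      rw [← mul_assoc, h2, h1, h2 g1, mul_assoc]
    · intro t g
      rw [stepU, mapU]
    · intro g
      rw [stepW, mapW]
  refine ⟨MonoidHom.mk' (sl2Map X H N) (fun a b => hmul b a), mapU, ?_⟩
  intro t
  show sl2Map X H N (sl2L t) = Y t
  unfold sl2Map
  by_cases ht : t = 0
  · subst ht
    simp [sl2L_val, X0, R3', Y0]
  · have h := Yform (-t) (neg_ne_zero.mpr ht)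
    rw [neg_neg, inv_neg, neg_neg] at h
    simp [sl2L_val, ht, h]

end

/-- The image of a homomorphism of `SL₂` lies in a subgroup containing the images of the
generators. -/
theorem sl2_range_le {G : Type*} [Group G] (φ : SpecialLinearGroup (Fin 2) F →* G)
    (K : Subgroup G) (hu : ∀ t, φ (sl2U t) ∈ K) (hl : ∀ t, φ (sl2L t) ∈ K) : φ.range ≤ K := by
  rintro x ⟨g, rfl⟩
  revert g
  apply sl2_induction
  · intro g g' h1 h2
    rw [map_mul]
    exact K.mul_mem h1 h2
  · exact hu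
  · rw [sl2W_eq, map_mul, map_mul]
    exact K.mul_mem (K.mul_mem (hu 1) (hl (-1))) (hu 1)

end Cfsg.Agent.Lib.Helper9
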