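import Cfsg.Agent.Lib.Helper9.ThmSL2
import Cfsg.Agent.Lib.Helper9.CertSL2
import Cfsg.Agent.Lib.Helper9.ThmTwPerf
import Cfsg.Agent.Lib.Helper9.ThmMono
import Cfsg.Agent.Lib.Helper9.ThmWeylPerm

set_option autoImplicit false

namespace Cfsg.Agent.Lib.Helper9

open Cfsg.Lie

variable {D : ChevalleyDatum} {F : Type*} [Field F]

/-- `n_r x_r(q) n_r⁻¹ = x_{-r}(-q)` and `n_r x_{-r}(q) n_r⁻¹ = x_r(-q)` for all roots `r`. -/
theorem nrU_conj_pair (A : ALLOK D) (S : SL2OK D) :
    ∀ (d r : ℕ), r < D.nroots → digitAt 64 (orbDOf D) r = d →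
      (∀ q : F, nrU A.hk r 1 * xU A.hk r q * (nrU A.hk r 1)⁻¹ = xU A.hk (D.neg r) (-q)) ∧
      (∀ q : F, nrU A.hk r 1 * xU A.hk (D.neg r) q * (nrU A.hk r 1)⁻¹ = xU A.hk r (-q)) := by
  intro d
  induction d using Nat.strong_induction_on with
  | _ d ih =>
    intro r hr hd
    obtain ⟨hj, h⟩ := orbB_spec (A.ok.orb r hr)
    generalize digitAt 16 (orbJOf D) r = j at hj h
    rcases h with ⟨_, h0⟩ | ⟨hlt, hback, hneg⟩
    · subst h0
      have hp := simple_lt D A.hk.simple hj
      rw [← nU_eq_nrU]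
      constructor
      · intro q
        rw [nU_conj A.hk A.nk A.xk hj hp.1, refl_simple, S.eta j hj]
        congr 1
        push_cast
        ring
      · intro q
        rw [nU_conj A.hk A.nk A.xk hj hp.2, refl_neg_simple A.hk hj, eta_neg A.hk A.nk hj hp.1,
          S.eta j hj]
        congr 1
        push_cast
        ring
    · have hp : ∀ s < D.nroots, digitAt 256 (getN (permOf D) j) s = D.reflectRoot j s :=
        fun s hs => refl_eq_perm A.xk hj hs
      have hr' : D.reflectRoot j r < D.nroots := refl_lt A.hk A.nk hj hr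
      rw [hp r hr] at hlt hback hneg
      rw [hp _ hr'] at hback
      rw [hp _ (A.hk.neg _ hr').2] at hneg
      obtain ⟨ia, ib⟩ := ih _ (by rw [← hd]; exact hlt) (D.reflectRoot j r) hr' rfl
      have c1 : ∀ t : F, nU A.hk F j * xU A.hk (D.reflectRoot j r) t * (nU A.hk F j)⁻¹ =
          xU A.hk r (((etaF (getN (etaOf D) j) (D.reflectRoot j r) : ℤ) : F) * t) := by
        intro t
        rw [nU_conj A.hk A.nk A.xk hj hr', hback]
      have c2 : ∀ t : F, nU A.hk F j * xU A.hk (D.neg (D.reflectRoot j r)) t * (nU A.hk F j)⁻¹ =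
          xU A.hk (D.neg r) (((etaF (getN (etaOf D) j) (D.reflectRoot j r) : ℤ) : F) * t) := by
        intro t
        rw [nU_conj A.hk A.nk A.xk hj (A.hk.neg _ hr').2, hneg, eta_neg A.hk A.nk hj hr']
      have c3 := nrU_conj (F := F) A.hk A.nk A.xk hj hr' hback hneg
      have hinv : nrU A.hk r (-1 : F) = (nrU A.hk r 1)⁻¹ :=
        eq_inv_of_mul_eq_one_left (nrU_neg_one_mul A.hk r)
      rcases etaF_pm (getN (etaOf D) j) (D.reflectRoot j r) with he | he
      · rw [he] at c1 c2 c3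
        simp only [Int.cast_one, one_mul] at c1 c2 c3
        constructor
        · intro q
          rw [← c3, ← c1 q]
          calc nU A.hk F j * nrU A.hk (D.reflectRoot j r) 1 * (nU A.hk F j)⁻¹ *
                (nU A.hk F j * xU A.hk (D.reflectRoot j r) q * (nU A.hk F j)⁻¹) *
                (nU A.hk F j * nrU A.hk (D.reflectRoot j r) 1 * (nU A.hk F j)⁻¹)⁻¹
              = nU A.hk F j * (nrU A.hk (D.reflectRoot j r) 1 * xU A.hk (D.reflectRoot j r) q *
                  (nrU A.hk (D.reflectRoot j r) 1)⁻¹) * (nU A.hk F j)⁻¹ := by group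
            _ = xU A.hk (D.neg r) (-q) := by rw [ia, c2]
        · intro q
          rw [← c3, ← c2 q]
          calc nU A.hk F j * nrU A.hk (D.reflectRoot j r) 1 * (nU A.hk F j)⁻¹ *
                (nU A.hk F j * xU A.hk (D.neg (D.reflectRoot j r)) q * (nU A.hk F j)⁻¹) *
                (nU A.hk F j * nrU A.hk (D.reflectRoot j r) 1 * (nU A.hk F j)⁻¹)⁻¹
              = nU A.hk F j * (nrU A.hk (D.reflectRoot j r) 1 *
                  xU A.hk (D.neg (D.reflectRoot j r)) q *
                  (nrU A.hk (D.reflectRoot j r) 1)⁻¹) * (nU A.hk F j)⁻¹ := by group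
            _ = xU A.hk r (-q) := by rw [ib, c1]
      · rw [he] at c1 c2 c3
        simp only [Int.cast_neg, Int.cast_one, neg_mul, one_mul] at c1 c2 c3
        have hN : nrU A.hk r (1 : F) =
            nU A.hk F j * (nrU A.hk (D.reflectRoot j r) 1)⁻¹ * (nU A.hk F j)⁻¹ := by
          have e : nrU A.hk r (1 : F) = (nrU A.hk r (-1))⁻¹ := by rw [hinv, inv_inv]
          rw [e, ← c3]
          group
        have ia' : ∀ q : F, (nrU A.hk (D.reflectRoot j r) 1)⁻¹ *
            xU A.hk (D.neg (D.reflectRoot j r)) (-q) * nrU A.hk (D.reflectRoot j r) 1 =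
            xU A.hk (D.reflectRoot j r) q := by
          intro q
          rw [← ia q]
          group
        have ib' : ∀ q : F, (nrU A.hk (D.reflectRoot j r) 1)⁻¹ *
            xU A.hk (D.reflectRoot j r) (-q) * nrU A.hk (D.reflectRoot j r) 1 =
            xU A.hk (D.neg (D.reflectRoot j r)) q := by
          intro q
          rw [← ib q]
          group
        constructor
        · intro q
          have hx : xU A.hk r q = nU A.hk F j * xU A.hk (D.reflectRoot j r) (-q) *
              (nU A.hk F j)⁻¹ := by rw [c1, neg_neg]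
          rw [hN, hx]
          calc nU A.hk F j * (nrU A.hk (D.reflectRoot j r) 1)⁻¹ * (nU A.hk F j)⁻¹ *
                (nU A.hk F j * xU A.hk (D.reflectRoot j r) (-q) * (nU A.hk F j)⁻¹) *
                (nU A.hk F j * (nrU A.hk (D.reflectRoot j r) 1)⁻¹ * (nU A.hk F j)⁻¹)⁻¹
              = nU A.hk F j * ((nrU A.hk (D.reflectRoot j r) 1)⁻¹ *
                  xU A.hk (D.reflectRoot j r) (-q) * nrU A.hk (D.reflectRoot j r) 1) *
                  (nU A.hk F j)⁻¹ := by group
            _ = xU A.hk (D.neg r) (-q) := by rw [ib', c2]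
        · intro q
          have hx : xU A.hk (D.neg r) q = nU A.hk F j *
              xU A.hk (D.neg (D.reflectRoot j r)) (-q) * (nU A.hk F j)⁻¹ := by rw [c2, neg_neg]
          rw [hN, hx]
          calc nU A.hk F j * (nrU A.hk (D.reflectRoot j r) 1)⁻¹ * (nU A.hk F j)⁻¹ *
                (nU A.hk F j * xU A.hk (D.neg (D.reflectRoot j r)) (-q) * (nU A.hk F j)⁻¹) *
                (nU A.hk F j * (nrU A.hk (D.reflectRoot j r) 1)⁻¹ * (nU A.hk F j)⁻¹)⁻¹
              = nU A.hk F j * ((nrU A.hk (D.reflectRoot j r) 1)⁻¹ *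
                  xU A.hk (D.neg (D.reflectRoot j r)) (-q) * nrU A.hk (D.reflectRoot j r) 1) *
                  (nU A.hk F j)⁻¹ := by group
            _ = xU A.hk r (-q) := by rw [ia', c1]

/-- The homomorphism of `SL₂` onto the group generated by two opposite root subgroups. -/
theorem sl2_root_hom (A : ALLOK D) (S : SL2OK D) {r : ℕ} (hr : r < D.nroots) :
    ∃ φ : Matrix.SpecialLinearGroup (Fin 2) F →* GL D.Idx F,
      (∀ t, φ (sl2U t) = xU A.hk r t) ∧ (∀ t, φ (sl2L t) = xU A.hk (D.neg r) t) := by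
  obtain ⟨h5, _⟩ := nrU_conj_pair (F := F) A S _ r hr rfl
  have R1 : ∀ s t : F, xU A.hk r (s + t) = xU A.hk r s * xU A.hk r t :=
    fun s t => (xU_mul A.hk r s t).symm
  have R2 : ∀ a t : F, a ≠ 0 → (nrU A.hk r a * nrU A.hk r (-1)) * xU A.hk r t *
      (nrU A.hk r a * nrU A.hk r (-1))⁻¹ = xU A.hk r (a ^ 2 * t) := by
    intro a t ha
    rw [hrU_conj A.hk A.wk A.ak hr hr ha t, S.rexp r hr]
    congr 2
    exact zpow_ofNat a 2
  have R3 : ∀ a b : F, a ≠ 0 → b ≠ 0 → nrU A.hk r (a * b) * nrU A.hk r (-1) =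
      (nrU A.hk r a * nrU A.hk r (-1)) * (nrU A.hk r b * nrU A.hk r (-1)) := by
    intro a b ha hb
    apply Units.ext
    show ((nrU A.hk r (a * b) * nrU A.hk r (-1) : GL D.Idx F) : Matrix D.Idx D.Idx F) =
      ((nrU A.hk r a * nrU A.hk r (-1) : GL D.Idx F) : Matrix D.Idx D.Idx F) *
        ((nrU A.hk r b * nrU A.hk r (-1) : GL D.Idx F) : Matrix D.Idx D.Idx F)
    rw [hMat_eq_nrU, hMat_eq_nrU, hMat_eq_nrU,
      hMat_chi_cert A.hk A.ak hr _ (mul_ne_zero ha hb), hMat_chi_cert A.hk A.ak hr _ ha,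
      hMat_chi_cert A.hk A.ak hr _ hb, chiMat_mul]
    congr 1
    funext i
    rw [mul_zpow]
  have R3' : nrU A.hk r (1 : F) * nrU A.hk r (-1) = 1 :=
    mul_eq_one_comm.mp (nrU_neg_one_mul A.hk r)
  have hinv : nrU A.hk r (-1 : F) = (nrU A.hk r 1)⁻¹ :=
    eq_inv_of_mul_eq_one_left (nrU_neg_one_mul A.hk r)
  have R4 : nrU A.hk r (1 : F) * nrU A.hk r 1 = nrU A.hk r (-1) * nrU A.hk r (-1) := by
    have h := R3 (-1) (-1) (by simp) (by simp)
    rw [neg_mul_neg, one_mul, R3', hinv] at h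
    calc nrU A.hk r (1 : F) * nrU A.hk r 1
        = nrU A.hk r (1 : F) * nrU A.hk r 1 * 1 := by rw [mul_one]
      _ = nrU A.hk r (1 : F) * nrU A.hk r 1 * ((nrU A.hk r 1)⁻¹ * (nrU A.hk r 1)⁻¹ *
            ((nrU A.hk r 1)⁻¹ * (nrU A.hk r 1)⁻¹)) := by rw [← h]
      _ = nrU A.hk r (-1) * nrU A.hk r (-1) := by
          rw [hinv]
          group
  have R6 : ∀ t : F, t ≠ 0 → (nrU A.hk r t * nrU A.hk r (-1)) * nrU A.hk r 1 =
      xU A.hk r t * xU A.hk (D.neg r) (-t⁻¹) * xU A.hk r t := by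
    intro t _
    rw [mul_assoc, nrU_neg_one_mul, mul_one]
    rfl
  exact sl2_hom (X := fun t => xU A.hk r t) (Y := fun t => xU A.hk (D.neg r) t)
    (H := fun a => nrU A.hk r a * nrU A.hk r (-1)) (N := nrU A.hk r 1) R1 R2 R3 R3' R4 h5 R6

/-- The homomorphism of `SL₂` onto the group generated by two opposite root subgroups, in the
form of the statement. -/
theorem sl2_root_hom_full (A : ALLOK D) (S : SL2OK D) {r : ℕ} (hr : r < D.nroots) :
    ∃ φ : Matrix.SpecialLinearGroup (Fin 2) F →* GL D.Idx F,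
      φ.range = D.rootSubgroup F r ⊔ D.rootSubgroup F (D.neg r) ∧
      ∀ (g : Matrix.SpecialLinearGroup (Fin 2) F) (t : F),
        ((g : Matrix (Fin 2) (Fin 2) F) = !![1, t; 0, 1] →
          ((φ g : GL D.Idx F) : Matrix D.Idx D.Idx F) = D.x F r t) ∧
        ((g : Matrix (Fin 2) (Fin 2) F) = !![1, 0; t, 1] →
          ((φ g : GL D.Idx F) : Matrix D.Idx D.Idx F) = D.x F (D.neg r) t) := by
  obtain ⟨φ, hu, hl⟩ := sl2_root_hom (F := F) A S hr
  refine ⟨φ, le_antisymm ?_ ?_, ?_⟩
  · apply sl2_range_le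
    · intro t
      rw [hu]
      exact Subgroup.mem_sup_left (Subgroup.subset_closure ⟨t, xU_val A.hk r t⟩)
    · intro t
      rw [hl]
      exact Subgroup.mem_sup_right (Subgroup.subset_closure ⟨t, xU_val A.hk _ t⟩)
  · apply sup_le
    · unfold ChevalleyDatum.rootSubgroup
      rw [Subgroup.closure_le]
      rintro g ⟨t, hg⟩
      rw [eq_xU A.hk hg, ← hu t]
      exact ⟨_, rfl⟩
    · unfold ChevalleyDatum.rootSubgroup
      rw [Subgroup.closure_le]
      rintro g ⟨t, hg⟩
      rw [eq_xU A.hk hg, ← hl t]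
      exact ⟨_, rfl⟩
  · intro g t
    constructor
    · intro hg
      have e : g = sl2U t := Subtype.ext hg
      rw [e, hu, xU_val]
    · intro hg
      have e : g = sl2L t := Subtype.ext hg
      rw [e, hl, xU_val]

end Cfsg.Agent.Lib.Helper9
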