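import Cfsg.Agent.Lib.Helper9.ThmTw
import Cfsg.Agent.Lib.Helper9.ThmWeylPerm

set_option autoImplicit false

namespace Cfsg.Agent.Lib.Helper9

open Cfsg.Lie

variable {D : ChevalleyDatum} {F : Type*} [Field F]

/-- The subgroup generated by the root subgroups of the negative roots that are not negatives
of fundamental roots. -/
def vhSub (D : ChevalleyDatum) (F : Type*) [Field F] : Subgroup (GL D.Idx F) :=
  Subgroup.closure {g : GL D.Idx F | ∃ (s : ℕ) (t : F),
    (D.IsNegRoot s ∧ ∀ j < D.rank, s ≠ D.neg (D.simple j)) ∧ (g : Matrix D.Idx D.Idx F) = D.x F s t}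

theorem vhSub_le_vn {j : ℕ} (hj : j < D.rank) : vhSub D F ≤ vnSub D F j := by
  apply Subgroup.closure_mono
  rintro g ⟨s, t, ⟨hs, hne⟩, hg⟩
  exact ⟨s, t, ⟨hs, hne j hj⟩, hg⟩

theorem vhSub_le_neg : vhSub D F ≤ D.negUnipotent F := by
  apply Subgroup.closure_mono
  rintro g ⟨s, t, ⟨hs, _⟩, hg⟩
  exact ⟨s, t, hs, hg⟩

theorem xU_mem_vhSub (hk : HOK D) {s : ℕ} (hs : D.IsNegRoot s)
    (hne : ∀ j < D.rank, s ≠ D.neg (D.simple j)) (t : F) : xU hk s t ∈ vhSub D F :=
  Subgroup.subset_closure ⟨s, t, ⟨hs, hne⟩, xU_val hk _ _⟩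

theorem diag_conj_vhSub (hk : HOK D) (wk : WOK D) (ak : HAOK D) {b : GL D.Idx F}
    (hb : b ∈ D.diagonalSubgroup F) {R : GL D.Idx F} (hR : R ∈ vhSub D F) :
    b * R * b⁻¹ ∈ vhSub D F :=
  (Subgroup.mem_normalizer_iff.mp
    (diag_le_normalizer hk wk ak (fun s => D.IsNegRoot s ∧ ∀ j < D.rank, s ≠ D.neg (D.simple j))
      (fun _ hr => hr.1.1) hb) _).mp hR

/-- If a product of elements of the root subgroups of the negatives of distinct fundamental roots
followed by an element of the higher negative root subgroups commutes with an element of `H`, then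
the element of `H` centralises each of the fundamental factors. -/
theorem twist_chi2 (hk : HOK D) (nk : NOK D) (xk : NXOK D) (wk : WOK D) (lk : LOK D) (ak : HAOK D)
    (bk : BNOK D) (rk : RNOK D) (ok : ORBOK D) {b : GL D.Idx F} (hb : b ∈ D.diagonalSubgroup F)
    (c : ℕ → F) (hc : ∀ i, c i ≠ 0) (hbc : (b : Matrix D.Idx D.Idx F) = chiMat D c) :
    ∀ (L : List (ℕ × F)), (∀ p ∈ L, p.1 < D.rank) → (L.map Prod.fst).Nodup →
      ∀ R ∈ vhSub D F, ∀ R' ∈ vhSub D F,
      wordU hk (negL D L) * R = (b * wordU hk (negL D L) * b⁻¹) * R' →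
      ∀ p ∈ L, (1 - chiN D c D.rank (Nat.add D.rank (D.neg (D.simple p.1)))) * p.2 = 0 := by
  intro L
  induction L with
  | nil =>
    intro _ _ _ _ _ _ _ p hp
    simp at hp
  | cons p L ih =>
    intro hL hnd R hR R' hR' h
    have hpL : p.1 < D.rank := hL p (by simp)
    have hL' : ∀ q ∈ L, q.1 < D.rank := fun q hq => hL q (by simp [hq])
    rw [List.map_cons, List.nodup_cons] at hnd
    have hne : ∀ q ∈ L, q.1 ≠ p.1 := by
      intro q hq e
      exact hnd.1 (e ▸ List.mem_map_of_mem hq)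
    set χ := chiN D c D.rank (Nat.add D.rank (D.neg (D.simple p.1))) with hχ
    have e1 : wordU hk (negL D (p :: L)) =
        xU hk (D.neg (D.simple p.1)) p.2 * wordU hk (negL D L) := by
      simp [negL, wordU]
    have e2 : b * (xU hk (D.neg (D.simple p.1)) p.2 * wordU hk (negL D L)) * b⁻¹ =
        xU hk (D.neg (D.simple p.1)) (χ * p.2) * (b * wordU hk (negL D L) * b⁻¹) := by
      rw [← chi_conj_xU hk wk b c hc hbc (simple_lt D hk.simple hpL).2]
      group
    rw [e1, e2] at h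
    have hW : wordU hk (negL D L) ∈ vnSub D F p.1 := negL_mem_vn hk bk rk hpL L hL' hne
    have hW' : b * wordU hk (negL D L) * b⁻¹ ∈ vnSub D F p.1 :=
      (Subgroup.mem_normalizer_iff.mp
        (diag_le_normalizer hk wk ak (fun s => D.IsNegRoot s ∧ s ≠ D.neg (D.simple p.1))
          (fun r hr => hr.1.1) hb) _).mp hW
    have hA' : wordU hk (negL D L) * R * R'⁻¹ * (b * wordU hk (negL D L) * b⁻¹)⁻¹ ∈
        vnSub D F p.1 :=
      mul_mem (mul_mem (mul_mem hW (vhSub_le_vn hpL hR)) (inv_mem (vhSub_le_vn hpL hR')))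
        (inv_mem hW')
    have e3 : 1 * xU hk (D.neg (D.simple p.1)) ((1 - χ) * p.2) *
        (wordU hk (negL D L) * R * R'⁻¹ * (b * wordU hk (negL D L) * b⁻¹)⁻¹) = 1 := by
      have e4 : xU hk (D.neg (D.simple p.1)) ((1 - χ) * p.2) =
          (xU hk (D.neg (D.simple p.1)) (χ * p.2))⁻¹ * xU hk (D.neg (D.simple p.1)) p.2 := by
        rw [xU_inv, xU_mul]
        congr 1
        ring
      rw [e4, one_mul]
      have e5 : (xU hk (D.neg (D.simple p.1)) (χ * p.2))⁻¹ * xU hk (D.neg (D.simple p.1)) p.2 *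
          (wordU hk (negL D L) * R * R'⁻¹ * (b * wordU hk (negL D L) * b⁻¹)⁻¹) =
          (xU hk (D.neg (D.simple p.1)) (χ * p.2))⁻¹ *
            (xU hk (D.neg (D.simple p.1)) p.2 * wordU hk (negL D L) * R) * R'⁻¹ *
              (b * wordU hk (negL D L) * b⁻¹)⁻¹ := by group
      rw [e5, h]
      group
    have hz := peel hk nk xk wk lk ak rk ok hpL (one_mem _) hA' e3
    have hχp : χ * p.2 = p.2 := by linear_combination -hz
    rw [hχp] at h
    have h' : wordU hk (negL D L) * R = (b * wordU hk (negL D L) * b⁻¹) * R' := by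
      have := h
      rw [mul_assoc, mul_assoc] at this
      exact mul_left_cancel this
    intro q hq
    rcases List.mem_cons.mp hq with hq | hq
    · rw [hq]
      exact hz
    · exact ih hL' hnd.2 R hR R' hR' h' q hq

/-- An element acting on the root subgroups as a permutation that reverses the signs of the
positive roots conjugates `U` into `V`. -/
theorem conj_pos_neg_of_actsAs (A : ALLOK D) {n : GL D.Idx F} {π : Equiv.Perm (Fin D.nroots)}
    (h : ActsAs A n π) (hπ : ∀ r : Fin D.nroots, D.IsPosRoot r → D.IsNegRoot (π r)) :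
    ∀ u ∈ D.posUnipotent F, n * u * n⁻¹ ∈ D.negUnipotent F := by
  refine conj_closure_mem _ _ _ ?_
  rintro y ⟨s, t, hs, hy⟩
  rw [eq_xU A.hk hy]
  obtain ⟨c, e⟩ := h ⟨s, hs.1⟩
  rw [e]
  exact Subgroup.subset_closure ⟨_, _, hπ ⟨s, hs.1⟩ hs, xU_val A.hk _ _⟩

/-- `n_r` for the image `r` of a fundamental root under a fundamental reflection acts as the
conjugate reflection. -/
theorem actsAs_nrU_conj (A : ALLOK D) {j i r : ℕ} (hj : j < D.rank) (hi : i < D.rank)
    (h1 : D.reflectRoot j (D.simple i) = r)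
    (h2 : D.reflectRoot j (D.neg (D.simple i)) = D.neg r) :
    ActsAs A (nrU A.hk r (1 : F)) (sig A j * sig A i * sig A j) := by
  have e := nrU_conj (F := F) A.hk A.nk A.xk hj (simple_lt D A.hk.simple hi).1 h1 h2
  rw [← nU_eq_nrU] at e
  have hact : ActsAs A (nU A.hk F j * nU A.hk F i * (nU A.hk F j)⁻¹)
      (sig A j * sig A i * (sig A j)⁻¹) :=
    ((actsAs_nU A hj).mul (actsAs_nU A hi)).mul (actsAs_nU A hj).inv
  rw [sig_inv A hj, e] at hact
  rcases etaF_pm (getN (etaOf D) j) (D.simple i) with h | h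
  · rw [h] at hact
    simpa using hact
  · rw [h] at hact
    have e2 : nrU A.hk r (((-1 : ℤ) : F)) = (nrU A.hk r (1 : F))⁻¹ := by
      have : (((-1 : ℤ) : F)) = -1 := by simp
      rw [this]
      exact eq_inv_of_mul_eq_one_left (nrU_neg_one_mul A.hk r)
    rw [e2] at hact
    have h3 := hact.inv
    rw [inv_inv] at h3
    have e3 : (sig A j * sig A i * sig A j)⁻¹ = sig A j * sig A i * sig A j := by
      rw [mul_inv_rev, mul_inv_rev, sig_inv A hj, sig_inv A hi, mul_assoc]
    rw [e3] at h3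
    exact h3

theorem simpleN_le_mono (hk : HOK D) : simpleN hk F ≤ D.monomialSubgroup F := by
  unfold simpleN
  rw [Subgroup.closure_le]
  rintro g ⟨i, hi, rfl⟩
  exact nU_mem hk hi

/-- The normal core of `B ∩ G¹` in a subgroup `G¹` containing an element of `N` that conjugates
`U` into `V` and, for each fundamental root, an element of `V` whose expression starts with
elements of the root subgroups of the negatives of distinct fundamental roots, the given one
among them with a non-zero argument, followed by elements of the higher root subgroups, is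
trivial. -/
theorem tw_core2 (A : ALLOK D) (G1 : Subgroup (GL D.Idx F)) (g₀ : GL D.Idx F) (hg₀ : g₀ ∈ G1)
    (hg₀N : g₀ ∈ D.monomialSubgroup F)
    (hg₀U : ∀ u ∈ D.posUnipotent F, g₀ * u * g₀⁻¹ ∈ D.negUnipotent F)
    (hgen : ∀ i < D.rank, ∃ (L : List (ℕ × F)) (R : GL D.Idx F), (∀ p ∈ L, p.1 < D.rank) ∧
      (L.map Prod.fst).Nodup ∧ (∃ a : F, a ≠ 0 ∧ (i, a) ∈ L) ∧ R ∈ vhSub D F ∧
      wordU A.hk (negL D L) * R ∈ G1) :
    ((D.borelSubgroup F ⊓ G1).subgroupOf G1).normalCore = ⊥ := by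
  have hk := A.hk
  have nk := A.nk
  have xk := A.xk
  have wk := A.wk
  have lk := A.lk
  have ak := A.ak
  have bk := A.bk
  have rk := A.rk
  have ok := A.ok
  rw [eq_bot_iff]
  intro b hb
  rw [Subgroup.mem_bot]
  have hcore : ∀ g : GL D.Idx F, g ∈ G1 →
      g * (b : GL D.Idx F) * g⁻¹ ∈ D.borelSubgroup F := by
    intro g hg
    have h1 := hb ⟨g, hg⟩
    rw [Subgroup.mem_subgroupOf] at h1
    exact h1.1
  have hbB : (b : GL D.Idx F) ∈ D.borelSubgroup F := by
    have h1 := hcore 1 (one_mem _)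
    rw [one_mul, inv_one, mul_one] at h1
    exact h1
  have h2 := hcore g₀⁻¹ (inv_mem hg₀)
  rw [inv_inv] at h2
  obtain ⟨u, hu, h, hh, e⟩ := borel_decomp hk wk ak _ h2
  have hbVH : (b : GL D.Idx F) ∈ D.negUnipotent F ⊔ D.diagonalSubgroup F := by
    have e2 : (b : GL D.Idx F) = (g₀ * u * g₀⁻¹) * (g₀ * h * g₀⁻¹) := by
      have e3 : (b : GL D.Idx F) = g₀ * (g₀⁻¹ * (b : GL D.Idx F) * g₀) * g₀⁻¹ := by
        group
      rw [e3, e]
      group
    rw [e2]
    apply mul_mem
    · exact Subgroup.mem_sup_left (hg₀U u hu)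
    · apply Subgroup.mem_sup_right
      exact (Subgroup.mem_normalizer_iff.mp (mono_le_normalizer hk wk ak hg₀N) h).mp hh
  have hbH : (b : GL D.Idx F) ∈ D.diagonalSubgroup F := by
    have h3 := (borel_inf_neg (F := F) hk wk lk ak).2
    rw [← h3]
    exact ⟨hbB, hbVH⟩
  obtain ⟨c, hc, hbc⟩ := diag_chi hk ak _ hbH
  have hsimp : ∀ i < D.rank, chiN D c D.rank (Nat.add D.rank (D.neg (D.simple i))) = 1 := by
    intro i hi
    obtain ⟨L, R, hL, hnd, ⟨a, ha, hmem⟩, hR, hg⟩ := hgen i hi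
    have h4 := hcore _ hg
    have hgV : wordU hk (negL D L) * R ∈ D.negUnipotent F :=
      mul_mem (negL_mem_neg (F := F) hk bk L hL) (vhSub_le_neg hR)
    set g := wordU hk (negL D L) * R with hgdef
    have hya : g * ((b : GL D.Idx F) * g * (b : GL D.Idx F)⁻¹)⁻¹ ∈ D.borelSubgroup F := by
      have e5 : g * ((b : GL D.Idx F) * g * (b : GL D.Idx F)⁻¹)⁻¹ =
          (g * (b : GL D.Idx F) * g⁻¹) * (b : GL D.Idx F)⁻¹ := by group
      rw [e5]
      exact mul_mem h4 (inv_mem hbB)
    have hyb : g * ((b : GL D.Idx F) * g * (b : GL D.Idx F)⁻¹)⁻¹ ∈ D.negUnipotent F :=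
      mul_mem hgV (inv_mem ((Subgroup.mem_normalizer_iff.mp
        (diag_le_normalizer_neg hk wk ak hbH) _).mp hgV))
    have hy : g * ((b : GL D.Idx F) * g * (b : GL D.Idx F)⁻¹)⁻¹ ∈
        D.borelSubgroup F ⊓ D.negUnipotent F := ⟨hya, hyb⟩
    rw [(borel_inf_neg hk wk lk ak).1, Subgroup.mem_bot] at hy
    have hy2 : g = (b : GL D.Idx F) * g * (b : GL D.Idx F)⁻¹ := mul_inv_eq_one.mp hy
    have hy3 : wordU hk (negL D L) * R =
        ((b : GL D.Idx F) * wordU hk (negL D L) * (b : GL D.Idx F)⁻¹) *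
          ((b : GL D.Idx F) * R * (b : GL D.Idx F)⁻¹) := by
      conv_lhs => rw [← hgdef, hy2, hgdef]
      group
    have h5 := twist_chi2 hk nk xk wk lk ak bk rk ok hbH c hc hbc L hL hnd R hR _
      (diag_conj_vhSub hk wk ak hbH hR) hy3 (i, a) hmem
    rcases mul_eq_zero.mp h5 with h6 | h6
    · exact (sub_eq_zero.mp h6).symm
    · exact absurd h6 ha
  have hpos : ∀ i < D.rank, chiN D c D.rank (Nat.add D.rank (D.simple i)) = 1 := by
    intro i hi
    have h11 := hsimp i hi
    rw [chiN_neg hk wk c hc (simple_lt D hk.simple hi).1] at h11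
    exact inv_eq_one.mp h11
  have hcomm : ∀ r < D.nroots, chiN D c D.rank (Nat.add D.rank r) = 1 → ∀ t : F,
      Commute (b : GL D.Idx F) (xU hk r t) := by
    intro r hr h1 t
    have h6 := chi_conj_xU hk wk (b : GL D.Idx F) c hc hbc hr t
    rw [h1, one_mul, mul_inv_eq_iff_eq_mul] at h6
    exact h6
  have hall : ∀ r < D.nroots, chiN D c D.rank (Nat.add D.rank r) = 1 := by
    intro r hr
    have hC := xU_comm_of_simple hk nk xk ok (b : GL D.Idx F)
      (fun i hi t => hcomm _ (simple_lt D hk.simple hi).1 (hpos i hi) t)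
      (fun i hi t => hcomm _ (simple_lt D hk.simple hi).2 (hsimp i hi) t) _ r hr rfl (1 : F)
    have h6 := chi_conj_xU hk wk (b : GL D.Idx F) c hc hbc hr (1 : F)
    rw [hC.eq, mul_inv_cancel_right, mul_one] at h6
    have h7 : xU hk r (chiN D c D.rank (Nat.add D.rank r) - 1) = 1 := by
      rw [sub_eq_add_neg, ← xU_mul, ← xU_inv, ← h6, mul_inv_cancel]
    exact sub_eq_zero.mp (xU_eq_one hk hr h7)
  apply Subtype.ext
  apply Units.ext
  rw [hbc, Subgroup.coe_one, Units.val_one, chiMat, ← Matrix.diagonal_one]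
  congr 1
  funext col
  rcases col with j | s
  · exact chiN_cartan D c _ j.2
  · exact hall s s.2

end Cfsg.Agent.Lib.Helper9
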