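import Cfsg.Agent.Lib.Helper9.CertW

set_option autoImplicit false

namespace Cfsg.Agent.Lib.Helper9

open Cfsg.Lie

variable {D : ChevalleyDatum} {F : Type*} [Field F]

/-- `h_{p_i}(c)` is the diagonal matrix of the powers `c ^ cartanExp`. -/
theorem hMat_cert (hk : HOK D) {i : ℕ} (hi : i < D.rank) (c : F) (hc : c ≠ 0) :
    D.hMat F (D.simple i) c =
      Matrix.diagonal (fun col : D.Idx => c ^ cartanExp D i (idxCode D col)) := by
  have h := simple_lt D hk.simple hi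
  exact hMat_eq_diag D hk.hN (litsOf D) _ h.1 h.2 (hk.xok _ h.1) (hk.xok _ h.2) _ (hk.hdiag i hi)
    c hc

/-- `h_{p_i}(c) x_s(t) = x_s(c ^ A t) h_{p_i}(c)`. -/
theorem hx_comm_cert (hk : HOK D) (wk : WOK D) {i s : ℕ} (hi : i < D.rank) (hs : s < D.nroots)
    (c : F) (hc : c ≠ 0) (t : F) :
    D.hMat F (D.simple i) c * D.x F s t =
      D.x F s (c ^ (D.cartan i s) * t) * D.hMat F (D.simple i) c := by
  have h := simple_lt D hk.simple hi
  exact hx_comm D hk.hN (litsOf D) i s hi h.1 h.2 (hk.xok _ h.1) (hk.xok _ h.2)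
    (allB_spec hk.cartan hi) (hk.hdiag i hi) hs (hk.xok s hs) (wk.wt s hs) c hc t

end Cfsg.Agent.Lib.Helper9
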