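import Cfsg.Agent.Lib.Helper9.TwFixB
import Cfsg.Agent.Lib.Helper9.ThmFieldFix
import Cfsg.Agent.Lib.Helper9.ThmSimple

set_option autoImplicit false

namespace Cfsg.Agent.Lib.Helper9

open Cfsg.Lie
open Cfsg.Agent.Lib.Helper4
open Cfsg.Agent.Lib.Helper15.ChevGraphEx

/-! ### The twisting endomorphism on the subgroups `U`, `V`, `H`, `N`, `B` and the
Bruhat decomposition of its fixed points -/

section twmaps

variable {D : ChevalleyDatum} {K : Type*} [Field K]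
  {perm permInv rho rhoInv : List ℕ} {eps : List ℤ}

/-- The graph permutation preserves the signs of the roots. -/
def PosSt (D : ChevalleyDatum) (rho : List ℕ) : Prop :=
  ∀ r < D.nroots, (D.IsPosRoot r → D.IsPosRoot (rho.getD r 0)) ∧
    (D.IsNegRoot r → D.IsNegRoot (rho.getD r 0))

instance (D : ChevalleyDatum) (rho : List ℕ) : Decidable (PosSt D rho) := by
  unfold PosSt
  infer_instance

theorem twS_posU (hk : HOK D) (hok : GraphOK D perm permInv rho rhoInv eps) (φ : K →+* K)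
    (hp : PosSt D rho) : (D.posUnipotent K).map (twS hok φ) ≤ D.posUnipotent K := by
  unfold ChevalleyDatum.posUnipotent
  apply map_closure_le_of
  rintro g ⟨r, t, hr, hg⟩
  rw [eq_xU hk hg, twS_xU hk hok φ hr.1]
  exact Subgroup.subset_closure ⟨_, _, (hp r hr.1).1 hr, xU_val hk _ _⟩

theorem twS_negU (hk : HOK D) (hok : GraphOK D perm permInv rho rhoInv eps) (φ : K →+* K)
    (hp : PosSt D rho) : (D.negUnipotent K).map (twS hok φ) ≤ D.negUnipotent K := by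
  unfold ChevalleyDatum.negUnipotent
  apply map_closure_le_of
  rintro g ⟨r, t, hr, hg⟩
  rw [eq_xU hk hg, twS_xU hk hok φ hr.1]
  exact Subgroup.subset_closure ⟨_, _, (hp r hr.1).2 hr, xU_val hk _ _⟩

/-- The action on the letters of a word. -/
def twP (rho : List ℕ) (eps : List ℤ) (φ : K →+* K) (p : ℕ × K) : ℕ × K :=
  (rho.getD p.1 0, ((eps.getD p.1 1 : ℤ) : K) * φ p.2)

theorem twS_wordU (hk : HOK D) (hok : GraphOK D perm permInv rho rhoInv eps) (φ : K →+* K)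
    (L : List (ℕ × K)) (hL : ∀ p ∈ L, p.1 < D.nroots) :
    twS hok φ (wordU hk L) = wordU hk (L.map (twP rho eps φ)) := by
  induction L with
  | nil => simp [wordU]
  | cons p L ih =>
    rw [wordU_cons, map_mul, twS_xU hk hok φ (hL p (by simp)),
      ih (fun p' hp' => hL p' (List.mem_cons_of_mem _ hp')), List.map_cons, wordU_cons]
    rfl

theorem twS_nU (hk : HOK D) (hok : GraphOK D perm permInv rho rhoInv eps) (φ : K →+* K) {i : ℕ}
    (hi : i < D.rank) : twS hok φ (nU hk K i) = nU hk K (perm.getD i 0) := by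
  obtain ⟨h1, h2, h3, h4, h5, h6⟩ := hok.c6 i hi
  unfold nU
  rw [map_mul, map_mul, twS_xU hk hok φ h1, twS_xU hk hok φ h2, h3, h4, h5, h6]
  simp

theorem twS_hWord (hk : HOK D) (hok : GraphOK D perm permInv rho rhoInv eps) (φ : K →+* K)
    {i : ℕ} (hi : i < D.rank) (t : K) :
    twS hok φ (wordU hk (D.hWord (D.simple i) t)) =
      wordU hk (D.hWord (D.simple (perm.getD i 0)) (φ t)) := by
  obtain ⟨h1, h2, h3, h4, h5, h6⟩ := hok.c6 i hi
  rw [twS_wordU hk hok φ]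
  · congr 1
    simp only [ChevalleyDatum.hWord, ChevalleyDatum.nWord, twP, List.map_cons, List.map_nil,
      List.cons_append, List.nil_append, h3, h4, h5, h6, Int.cast_one, one_mul, map_neg,
      map_inv₀, map_one]
  · intro p hp
    simp only [ChevalleyDatum.hWord, ChevalleyDatum.nWord, List.cons_append, List.nil_append,
      List.mem_cons, List.not_mem_nil, or_false] at hp
    rcases hp with rfl | rfl | rfl | rfl | rfl | rfl <;> assumption

theorem twS_hflat (hk : HOK D) (hok : GraphOK D perm permInv rho rhoInv eps) (φ : K →+* K)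
    (c : ℕ → K) : ∀ I : List ℕ, (∀ i ∈ I, i < D.rank ∧ c i ≠ 0) →
      twS hok φ (wordU hk (I.flatMap fun i => D.hWord (D.simple i) (c i))) ∈
        D.diagonalSubgroup K
  | [], _ => by
    simp only [List.flatMap_nil, wordU, List.map_nil, List.prod_nil, map_one]
    exact one_mem _
  | i :: I, h => by
    rw [List.flatMap_cons, wordU_append, map_mul]
    refine mul_mem ?_ (twS_hflat hk hok φ c I (fun j hj => h j (List.mem_cons_of_mem _ hj)))
    obtain ⟨hi, hc⟩ := h i (by simp)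
    rw [twS_hWord hk hok φ hi]
    have hlt := (simple_lt D hk.simple (hok.c2 i hi).1).1
    exact Subgroup.subset_closure ⟨_, φ (c i), hlt, (map_ne_zero φ).mpr hc, wordU_val hk _⟩

theorem twS_diag (hk : HOK D) (ak : HAOK D) (hok : GraphOK D perm permInv rho rhoInv eps)
    (φ : K →+* K) : (D.diagonalSubgroup K).map (twS hok φ) ≤ D.diagonalSubgroup K := by
  rintro _ ⟨g, hg, rfl⟩
  obtain ⟨c, hc, e⟩ := diag_word hk ak g hg
  have e1 : g = wordU hk ((List.range D.rank).flatMap fun i => D.hWord (D.simple i) (c i)) :=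
    Units.ext (by rw [e, wordU_val])
  rw [e1]
  apply twS_hflat hk hok φ c
  intro i hi
  have := List.mem_range.mp hi
  exact ⟨this, hc i this⟩

theorem twS_mono (A : ALLOK D) (hok : GraphOK D perm permInv rho rhoInv eps) (φ : K →+* K) :
    (D.monomialSubgroup K).map (twS hok φ) ≤ D.monomialSubgroup K := by
  have h1 : D.monomialSubgroup K ≤ D.diagonalSubgroup K ⊔ simpleN A.hk K :=
    mono_le_simple A.hk A.nk A.xk A.ok
  have hHN : D.diagonalSubgroup K ≤ D.monomialSubgroup K := by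
    unfold ChevalleyDatum.monomialSubgroup
    exact le_sup_left
  refine (Subgroup.map_mono h1).trans ?_
  rw [Subgroup.map_sup]
  apply sup_le
  · exact (twS_diag A.hk A.ak hok φ).trans hHN
  · unfold simpleN
    apply map_closure_le_of
    rintro g ⟨i, hi, rfl⟩
    rw [twS_nU A.hk hok φ hi]
    exact nU_mem A.hk (hok.c2 i hi).1

theorem twS_borel (A : ALLOK D) (hok : GraphOK D perm permInv rho rhoInv eps) (φ : K →+* K)
    (hp : PosSt D rho) : (D.borelSubgroup K).map (twS hok φ) ≤ D.borelSubgroup K := by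
  unfold ChevalleyDatum.borelSubgroup
  rw [Subgroup.map_sup]
  exact sup_le_sup (twS_posU A.hk hok φ hp) (twS_diag A.hk A.ak hok φ)

theorem twS_uneg (hk : HOK D) (hok : GraphOK D perm permInv rho rhoInv eps) (φ : K →+* K)
    (hφ : Function.Surjective φ) (hp : PosSt D rho) (n : GL D.Idx K) :
    (unegSub D K n).map (twS hok φ) ≤ unegSub D K (twS hok φ n) := by
  unfold unegSub
  apply map_closure_le_of
  rintro x ⟨r, t, hr, hle, hx⟩
  rw [eq_xU hk hx, twS_xU hk hok φ hr.1]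
  refine Subgroup.subset_closure ⟨rho.getD r 0, _, (hp r hr.1).1 hr, ?_, xU_val hk _ _⟩
  rw [Subgroup.map_le_iff_le_comap]
  unfold ChevalleyDatum.rootSubgroup
  rw [Subgroup.closure_le]
  rintro y ⟨s, hy⟩
  obtain ⟨s', hs'⟩ := hφ (((eps.getD r 1 : ℤ) : K) * s)
  have e : y = twS hok φ (xU hk r s') := by
    rw [eq_xU hk hy, twS_xU hk hok φ hr.1, hs', ← mul_assoc, eps_sq hok.c3 r hr.1, one_mul]
  show twS hok φ n * y * (twS hok φ n)⁻¹ ∈ D.negUnipotent K
  rw [e, ← map_inv, ← map_mul, ← map_mul]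
  apply twS_negU hk hok φ hp
  exact Subgroup.mem_map_of_mem _
    (hle (Subgroup.mem_map_of_mem _ (Subgroup.subset_closure ⟨s', xU_val hk r s'⟩)))

end twmaps

section bruhat

variable {D : ChevalleyDatum} {K : Type*} [Field K]
  {perm permInv rho rhoInv : List ℕ} {eps : List ℤ}

theorem diag_le_mono' (D : ChevalleyDatum) (K : Type*) [Field K] :
    D.diagonalSubgroup K ≤ D.monomialSubgroup K := by
  unfold ChevalleyDatum.monomialSubgroup
  exact le_sup_left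

/-- Double cosets of `B` through elements of `N` coincide only for elements congruent modulo
`H`. -/
theorem dc_unique (A : ALLOK D) {b1 b2 c1 c2 n n' : GL D.Idx K}
    (hb1 : b1 ∈ D.borelSubgroup K) (hb2 : b2 ∈ D.borelSubgroup K)
    (hc1 : c1 ∈ D.borelSubgroup K) (hc2 : c2 ∈ D.borelSubgroup K)
    (hn : n ∈ D.monomialSubgroup K) (hn' : n' ∈ D.monomialSubgroup K)
    (e : b1 * n * b2 = c1 * n' * c2) : n⁻¹ * n' ∈ D.diagonalSubgroup K := by
  obtain ⟨P, hB, hN, -⟩ := bn_pair_exists (F := K) A.hk A.nk A.xk A.wk A.lk A.ak A.w0k A.ck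
    A.pk A.ok A.bk
  have hBmem : ∀ x : ↥(D.group K), x ∈ P.B ↔ (x : GL D.Idx K) ∈ D.borelSubgroup K := by
    rw [hB]
    intro x
    exact Iff.rfl
  have hNmem : ∀ x : ↥(D.group K), x ∈ P.N ↔ (x : GL D.Idx K) ∈ D.monomialSubgroup K := by
    rw [hN]
    intro x
    exact Iff.rfl
  have hnG := mono_le_group A.hk hn
  have hn'G := mono_le_group A.hk hn'
  have hb1G := borel_le_group A.hk hb1
  have hb2G := borel_le_group A.hk hb2
  have hc1G := borel_le_group A.hk hc1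
  have hc2G := borel_le_group A.hk hc2
  have h1 : (⟨b1, hb1G⟩ * ⟨n, hnG⟩ * ⟨b2, hb2G⟩ : ↥(D.group K)) ∈ BN.D P ⟨n, hnG⟩ :=
    (BN.mem_D P).mpr ⟨_, (hBmem _).mpr hb1, _, (hBmem _).mpr hb2, rfl⟩
  have h2 : (⟨b1, hb1G⟩ * ⟨n, hnG⟩ * ⟨b2, hb2G⟩ : ↥(D.group K)) ∈ BN.D P ⟨n', hn'G⟩ := by
    refine (BN.mem_D P).mpr ⟨⟨c1, hc1G⟩, (hBmem _).mpr hc1, ⟨c2, hc2G⟩, (hBmem _).mpr hc2, ?_⟩
    exact Subtype.ext e
  have h3 : BN.D P (⟨n, hnG⟩ : ↥(D.group K)) = BN.D P ⟨n', hn'G⟩ :=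
    (BN.D_eq_of_mem P h1).symm.trans (BN.D_eq_of_mem P h2)
  have h4 := (BN.D_eq_iff P ((hNmem _).mpr hn) ((hNmem _).mpr hn')).mp h3
  have h5 : n⁻¹ * n' ∈ D.borelSubgroup K := (hBmem _).mp h4
  have h6 : n⁻¹ * n' ∈ D.monomialSubgroup K := mul_mem (inv_mem hn) hn'
  rw [← borel_inf_mono A.hk A.nk A.xk A.lk A.wk A.ak A.ok]
  exact ⟨h5, h6⟩

/-- The Bruhat decomposition of the fixed points of the twisting endomorphism. -/
theorem tw_bruhat (A : ALLOK D) (hok : GraphOK D perm permInv rho rhoInv eps) (φ : K →+* K)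
    (hφ : Function.Surjective φ) (hp : PosSt D rho) {g : GL D.Idx K} (hg : g ∈ D.group K)
    (hfix : twS hok φ g = g) :
    ∃ u₁ ∈ D.posUnipotent K, twS hok φ u₁ = u₁ ∧ ∃ m ∈ D.monomialSubgroup K,
      ∃ u₂ ∈ D.posUnipotent K, twS hok φ u₂ = u₂ ∧ g = u₁ * m * u₂ := by
  obtain ⟨hex, huniq⟩ := bruhat_normal_form (F := K) A.hk A.nk A.xk A.wk A.lk A.ak A.w0k A.ck
    A.pk A.ok A.bk A.rk A.hnp
  obtain ⟨b, hb, n, hn, u, hu, rfl⟩ := hex g hg
  have hσb : twS hok φ b ∈ D.borelSubgroup K :=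
    twS_borel A hok φ hp (Subgroup.mem_map_of_mem _ hb)
  have hσn : twS hok φ n ∈ D.monomialSubgroup K :=
    twS_mono A hok φ (Subgroup.mem_map_of_mem _ hn)
  have hσu : twS hok φ u ∈ unegSub D K (twS hok φ n) :=
    twS_uneg A.hk hok φ hφ hp n (Subgroup.mem_map_of_mem _ hu)
  have e0 : b * n * u = twS hok φ b * twS hok φ n * twS hok φ u := by
    rw [← map_mul, ← map_mul]
    exact hfix.symm
  obtain ⟨h0, -⟩ := huniq _ _ _ _ _ _ hb hσb hn hσn hu hσu e0
  have hh'' : n * (n⁻¹ * twS hok φ n) * n⁻¹ ∈ D.diagonalSubgroup K :=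
    (Subgroup.mem_normalizer_iff.mp (mono_le_normalizer A.hk A.wk A.ak hn) _).mp h0
  have eσn : twS hok φ n = (n * (n⁻¹ * twS hok φ n) * n⁻¹) * n := by group
  have hσu' : twS hok φ u ∈ unegSub D K n := by
    rw [eσn] at hσu
    exact uneg_of_diag_mul A hh'' hσu
  have e1 : b * n * u = (twS hok φ b * (n * (n⁻¹ * twS hok φ n) * n⁻¹)) * n * twS hok φ u := by
    rw [e0]
    group
  obtain ⟨-, h2⟩ := huniq _ _ _ _ _ _ hb (mul_mem hσb (diag_le_borel hh'')) hn hn hu hσu' e1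
  obtain ⟨eb, eu⟩ := h2 rfl
  obtain ⟨ub, hub, hb', hhb', rfl⟩ := borel_decomp A.hk A.wk A.ak b hb
  have hσub : twS hok φ ub ∈ D.posUnipotent K :=
    twS_posU A.hk hok φ hp (Subgroup.mem_map_of_mem _ hub)
  have hσhb : twS hok φ hb' ∈ D.diagonalSubgroup K :=
    twS_diag A.hk A.ak hok φ (Subgroup.mem_map_of_mem _ hhb')
  rw [map_mul] at eb
  have e5 : (twS hok φ ub)⁻¹ * ub =
      twS hok φ hb' * (n * (n⁻¹ * twS hok φ n) * n⁻¹) * hb'⁻¹ := by
    rw [inv_mul_eq_iff_eq_mul]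
    calc ub = (ub * hb') * hb'⁻¹ := by group
      _ = (twS hok φ ub * twS hok φ hb' * (n * (n⁻¹ * twS hok φ n) * n⁻¹)) * hb'⁻¹ := by
        rw [← eb]
      _ = _ := by group
  have e6 : (twS hok φ ub)⁻¹ * ub ∈ D.posUnipotent K ⊓ D.diagonalSubgroup K :=
    Subgroup.mem_inf.mpr ⟨mul_mem (inv_mem hσub) hub, by
      rw [e5]
      exact mul_mem (mul_mem hσhb hh'') (inv_mem hhb')⟩
  rw [posU_inf_diag A.hk A.lk A.ak, Subgroup.mem_bot, inv_mul_eq_one] at e6
  exact ⟨ub, hub, e6, hb' * n, mul_mem (diag_le_mono' D K hhb') hn, u, uneg_le_pos n hu,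
    eu.symm, by group⟩

end bruhat

section twbn

variable {D : ChevalleyDatum} {K : Type*} [Field K]
  {perm permInv rho rhoInv : List ℕ} {eps : List ℤ}

/-- A root separating two words of reflections. -/
def SepW (D : ChevalleyDatum) (w w' : List ℕ) : Prop :=
  ∃ α < D.nroots, (D.IsPosRoot (wActP (permOf D) w α) ∧ D.IsNegRoot (wActP (permOf D) w' α)) ∨
    (D.IsNegRoot (wActP (permOf D) w α) ∧ D.IsPosRoot (wActP (permOf D) w' α))

instance (D : ChevalleyDatum) (w w' : List ℕ) : Decidable (SepW D w w') := by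
  unfold SepW
  infer_instance

theorem posU_negU_one (A : ALLOK D) {g : GL D.Idx K} (hU : g ∈ D.posUnipotent K)
    (hV : g ∈ D.negUnipotent K) : g = 1 := by
  have h : g ∈ D.borelSubgroup K ⊓ D.negUnipotent K := ⟨Subgroup.mem_sup_left hU, hV⟩
  rw [(borel_inf_neg A.hk A.wk A.lk A.ak).1, Subgroup.mem_bot] at h
  exact h

theorem nW_sep (A : ALLOK D) {w w' : List ℕ} (hw : ∀ i ∈ w, i < D.rank)
    (hw' : ∀ i ∈ w', i < D.rank) (h : SepW D w w') :
    (nW A.hk K w)⁻¹ * nW A.hk K w' ∉ D.diagonalSubgroup K := by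
  intro hmem
  obtain ⟨α, hα, hcase⟩ := h
  obtain ⟨c, hc, hhc⟩ := diag_chi A.hk A.ak _ hmem
  obtain ⟨h1, η, hη, h2⟩ := nW_conj (F := K) A.hk A.nk A.xk w hw α hα
  obtain ⟨h1', η', hη', h2'⟩ := nW_conj (F := K) A.hk A.nk A.xk w' hw' α hα
  have e3 := chi_conj_xU A.hk A.wk _ c hc hhc hα (1 : K)
  have e4 : nW A.hk K w' * xU A.hk α 1 * (nW A.hk K w')⁻¹ =
      nW A.hk K w * (((nW A.hk K w)⁻¹ * nW A.hk K w') * xU A.hk α 1 *
        ((nW A.hk K w)⁻¹ * nW A.hk K w')⁻¹) * (nW A.hk K w)⁻¹ := by group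
  rw [h2', e3, h2] at e4
  have hη'0 : ((η' : ℤ) : K) * 1 ≠ 0 := by
    rcases hη' with h | h <;> simp [h]
  rcases hcase with ⟨hp, hn⟩ | ⟨hn, hp⟩
  · have hV : xU A.hk (wActP (permOf D) w' α) ((η' : K) * 1) ∈ D.negUnipotent K :=
      Subgroup.subset_closure ⟨_, _, hn, xU_val A.hk _ _⟩
    have hU : xU A.hk (wActP (permOf D) w' α) ((η' : K) * 1) ∈ D.posUnipotent K := by
      rw [e4]
      exact Subgroup.subset_closure ⟨_, _, hp, xU_val A.hk _ _⟩
    exact hη'0 (xU_eq_one A.hk h1' (posU_negU_one A hU hV))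
  · have hU : xU A.hk (wActP (permOf D) w' α) ((η' : K) * 1) ∈ D.posUnipotent K :=
      Subgroup.subset_closure ⟨_, _, hp, xU_val A.hk _ _⟩
    have hV : xU A.hk (wActP (permOf D) w' α) ((η' : K) * 1) ∈ D.negUnipotent K := by
      rw [e4]
      exact Subgroup.subset_closure ⟨_, _, hn, xU_val A.hk _ _⟩
    exact hη'0 (xU_eq_one A.hk h1' (posU_negU_one A hU hV))

theorem nW_sq_mem (A : ALLOK D) {w : List ℕ} (hw : ∀ i ∈ w, i < D.rank)
    (hfix : ∀ r < D.nroots, wActP (permOf D) (w ++ w) r = r) :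
    nW A.hk K w * nW A.hk K w ∈ D.diagonalSubgroup K := by
  obtain ⟨P, hB, -, -⟩ := bn_pair_exists (F := K) A.hk A.nk A.xk A.wk A.lk A.ak A.w0k A.ck
    A.pk A.ok A.bk
  have hww : ∀ i ∈ w ++ w, i < D.rank := by
    intro i hi
    rcases List.mem_append.mp hi with h | h <;> exact hw i h
  have h1 := nW_mem_borel_of_fix P hB A.hk A.nk A.xk A.wk A.ak (w ++ w) hww hfix
  rw [nW_append] at h1
  rw [← borel_inf_mono A.hk A.nk A.xk A.lk A.wk A.ak A.ok]
  exact ⟨h1, mul_mem (nW_mem A.hk w hw) (nW_mem A.hk w hw)⟩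

theorem nW_cons' (hk : HOK D) (i : ℕ) (w : List ℕ) :
    nW hk K (i :: w) = nU hk K i * nW hk K w := by
  simp [nW]

theorem twS_nW (hk : HOK D) (hok : GraphOK D perm permInv rho rhoInv eps) (φ : K →+* K) :
    ∀ w : List ℕ, (∀ i ∈ w, i < D.rank) →
      twS hok φ (nW hk K w) = nW hk K (w.map fun i => perm.getD i 0)
  | [], _ => by simp [nW]
  | i :: w, h => by
    rw [nW_cons', map_mul, twS_nU hk hok φ (h i (by simp)),
      twS_nW hk hok φ w (fun j hj => h j (List.mem_cons_of_mem _ hj)), List.map_cons, nW_cons']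

/-- The double coset axiom iterated along a word. -/
theorem bn_sublist (A : ALLOK D) : ∀ w : List ℕ, (∀ i ∈ w, i < D.rank) →
    ∀ n ∈ D.monomialSubgroup K, ∀ b ∈ D.borelSubgroup K,
    ∃ w' : List ℕ, w'.Sublist w ∧ ∃ b1 ∈ D.borelSubgroup K, ∃ b2 ∈ D.borelSubgroup K,
      nW A.hk K w * b * n = b1 * (nW A.hk K w' * n) * b2
  | [], _, n, _, b, hb => ⟨[], List.Sublist.refl _, b, hb, 1, one_mem _, by simp [nW]⟩
  | i :: w, h, n, hn, b, hb => by
    obtain ⟨w', hs, b1, hb1, b2, hb2, e⟩ :=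
      bn_sublist A w (fun j hj => h j (List.mem_cons_of_mem _ hj)) n hn b hb
    have hi := h i (by simp)
    have hw' : ∀ j ∈ w', j < D.rank := fun j hj => h j (List.mem_cons_of_mem _ (hs.subset hj))
    have hn' : nW A.hk K w' * n ∈ D.monomialSubgroup K := mul_mem (nW_mem A.hk w' hw') hn
    have e0 : nW A.hk K (i :: w) * b * n = nU A.hk K i * b1 * (nW A.hk K w' * n) * b2 := by
      rw [nW_cons']
      calc nU A.hk K i * nW A.hk K w * b * n = nU A.hk K i * (nW A.hk K w * b * n) := by group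
        _ = nU A.hk K i * (b1 * (nW A.hk K w' * n) * b2) := by rw [e]
        _ = _ := by group
    rcases bn_axiom A.hk A.nk A.xk A.wk A.ak A.ck A.pk A.ok A.bk hi hn' b1 hb1 with
      ⟨c1, hc1, c2, hc2, e2⟩ | ⟨c1, hc1, c2, hc2, e2⟩
    · refine ⟨i :: w', hs.cons_cons i, c1, hc1, c2 * b2, mul_mem hc2 hb2, ?_⟩
      rw [e0, e2, nW_cons']
      group
    · refine ⟨w', hs.cons i, c1, hc1, c2 * b2, mul_mem hc2 hb2, ?_⟩
      rw [e0, e2]
      group

/-- The data of a twisted group inside the fixed points of the twisting endomorphism. -/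
structure TwPack (A : ALLOK D) (hok : GraphOK D perm permInv rho rhoInv eps) (φ : K →+* K)
    (G1 : Subgroup (GL D.Idx K)) (ws : List (List ℕ)) : Prop where
  surj : Function.Surjective φ
  pos : PosSt D rho
  le_fix : G1 ≤ twFix hok φ
  fixU : ∀ u ∈ D.posUnipotent K, u ∈ twFix hok φ → u ∈ G1
  wlt : ∀ w ∈ ws, ∀ i ∈ w, i < D.rank
  wmem : ∀ w ∈ ws, nW A.hk K w ∈ G1
  wsq : ∀ w ∈ ws, ∀ r < D.nroots, wActP (permOf D) (w ++ w) r = r
  wsep : ∀ w ∈ ws, ∀ w' ∈ ws, w ≠ w' → SepW D w w'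
  wsub : ∀ w ∈ ws, ∀ w' ∈ w.sublists, w' ≠ [] → w' ≠ w →
    SepW D w' (w'.map fun i => perm.getD i 0)
  wne : ∀ w ∈ ws, ∃ b ∈ G1, b ∈ D.posUnipotent K ∧ b ≠ 1 ∧
    nW A.hk K w * b * (nW A.hk K w)⁻¹ ∈ D.negUnipotent K
  gen : G1 ≤ Subgroup.closure
    (((D.borelSubgroup K ⊓ G1 : Subgroup (GL D.Idx K)) : Set (GL D.Idx K)) ∪
      {g | ∃ w ∈ ws, g = nW A.hk K w})

variable {A : ALLOK D} {hok : GraphOK D perm permInv rho rhoInv eps} {φ : K →+* K}
  {G1 : Subgroup (GL D.Idx K)} {ws : List (List ℕ)}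

theorem TwPack.le_group (T : TwPack A hok φ G1 ws) : G1 ≤ D.group K := by
  refine T.gen.trans ?_
  rw [Subgroup.closure_le]
  rintro g (hg | ⟨w, hw, rfl⟩)
  · exact borel_le_group A.hk hg.1
  · exact mono_le_group A.hk (nW_mem A.hk w (T.wlt w hw))

theorem TwPack.bruhat (T : TwPack A hok φ G1 ws) {g : GL D.Idx K} (hg : g ∈ G1) :
    ∃ u₁ ∈ D.posUnipotent K ⊓ G1, ∃ m ∈ D.monomialSubgroup K ⊓ G1,
      ∃ u₂ ∈ D.posUnipotent K ⊓ G1, g = u₁ * m * u₂ := by
  obtain ⟨u₁, hu₁, f₁, m, hm, u₂, hu₂, f₂, e⟩ :=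
    tw_bruhat A hok φ T.surj T.pos (T.le_group hg) (T.le_fix hg)
  have h1 := T.fixU u₁ hu₁ f₁
  have h2 := T.fixU u₂ hu₂ f₂
  have hmG : m ∈ G1 := by
    have e' : m = u₁⁻¹ * g * u₂⁻¹ := by
      rw [e]
      group
    rw [e']
    exact mul_mem (mul_mem (inv_mem h1) hg) (inv_mem h2)
  exact ⟨u₁, Subgroup.mem_inf.mpr ⟨hu₁, h1⟩, m, Subgroup.mem_inf.mpr ⟨hm, hmG⟩, u₂,
    Subgroup.mem_inf.mpr ⟨hu₂, h2⟩, e⟩

theorem TwPack.dc (T : TwPack A hok φ G1 ws) {g n' b1 b2 : GL D.Idx K} (hg : g ∈ G1)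
    (hn' : n' ∈ D.monomialSubgroup K) (hn'G : n' ∈ G1) (hb1 : b1 ∈ D.borelSubgroup K)
    (hb2 : b2 ∈ D.borelSubgroup K) (e : g = b1 * n' * b2) :
    ∃ c1 ∈ D.borelSubgroup K ⊓ G1, ∃ c2 ∈ D.borelSubgroup K ⊓ G1, g = c1 * n' * c2 := by
  obtain ⟨u₁, hu₁, m, hm, u₂, hu₂, e'⟩ := T.bruhat hg
  have hU : D.posUnipotent K ≤ D.borelSubgroup K := le_sup_left
  have h0 : m⁻¹ * n' ∈ D.diagonalSubgroup K :=
    dc_unique A (hU hu₁.1) (hU hu₂.1) hb1 hb2 hm.1 hn' (by rw [← e', e])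
  have h0G : m⁻¹ * n' ∈ G1 := mul_mem (inv_mem hm.2) hn'G
  have hc2 : (m⁻¹ * n')⁻¹ * u₂ ∈ D.borelSubgroup K ⊓ G1 :=
    Subgroup.mem_inf.mpr ⟨mul_mem (inv_mem (diag_le_borel h0)) (hU hu₂.1),
      mul_mem (inv_mem h0G) hu₂.2⟩
  refine ⟨u₁, Subgroup.mem_inf.mpr ⟨hU hu₁.1, hu₁.2⟩, (m⁻¹ * n')⁻¹ * u₂, hc2, ?_⟩
  rw [e']
  group

theorem TwPack.mul_union (T : TwPack A hok φ G1 ws) {w : List ℕ} (hw : w ∈ ws)
    {n b : GL D.Idx K} (hn : n ∈ D.monomialSubgroup K ⊓ G1) (hb : b ∈ D.borelSubgroup K ⊓ G1) :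
    (∃ c1 ∈ D.borelSubgroup K ⊓ G1, ∃ c2 ∈ D.borelSubgroup K ⊓ G1,
      nW A.hk K w * b * n = c1 * (nW A.hk K w * n) * c2) ∨
    (∃ c1 ∈ D.borelSubgroup K ⊓ G1, ∃ c2 ∈ D.borelSubgroup K ⊓ G1,
      nW A.hk K w * b * n = c1 * n * c2) := by
  have hwl := T.wlt w hw
  have hs := T.wmem w hw
  have hgG : nW A.hk K w * b * n ∈ G1 := mul_mem (mul_mem hs hb.2) hn.2
  obtain ⟨w', hsub, b1, hb1, b2, hb2, e⟩ := bn_sublist A w hwl n hn.1 b hb.1
  have hw'l : ∀ i ∈ w', i < D.rank := fun i hi => hwl i (hsub.subset hi)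
  have hfix : twS hok φ (nW A.hk K w * b * n) = nW A.hk K w * b * n := T.le_fix hgG
  have hnfix : twS hok φ n = n := T.le_fix hn.2
  have e2 : b1 * (nW A.hk K w' * n) * b2 =
      twS hok φ b1 * (nW A.hk K (w'.map fun i => perm.getD i 0) * n) * twS hok φ b2 := by
    calc b1 * (nW A.hk K w' * n) * b2 = nW A.hk K w * b * n := e.symm
      _ = twS hok φ (nW A.hk K w * b * n) := hfix.symm
      _ = twS hok φ (b1 * (nW A.hk K w' * n) * b2) := by rw [e]
      _ = _ := by rw [map_mul, map_mul, map_mul, twS_nW A.hk hok φ w' hw'l, hnfix]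
  have hσb1 := twS_borel A hok φ T.pos (Subgroup.mem_map_of_mem _ hb1)
  have hσb2 := twS_borel A hok φ T.pos (Subgroup.mem_map_of_mem _ hb2)
  have hw''l : ∀ i ∈ w'.map (fun i => perm.getD i 0), i < D.rank := by
    intro i hi
    obtain ⟨j, hj, rfl⟩ := List.mem_map.mp hi
    exact (hok.c2 j (hw'l j hj)).1
  have h3 : (nW A.hk K w' * n)⁻¹ * (nW A.hk K (w'.map fun i => perm.getD i 0) * n) ∈
      D.diagonalSubgroup K :=
    dc_unique A hb1 hb2 hσb1 hσb2 (mul_mem (nW_mem A.hk w' hw'l) hn.1)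
      (mul_mem (nW_mem A.hk _ hw''l) hn.1) e2
  have h4 : (nW A.hk K w')⁻¹ * nW A.hk K (w'.map fun i => perm.getD i 0) ∈
      D.diagonalSubgroup K := by
    have h5 := (Subgroup.mem_normalizer_iff.mp (mono_le_normalizer A.hk A.wk A.ak hn.1) _).mp h3
    have e5 : n * ((nW A.hk K w' * n)⁻¹ * (nW A.hk K (w'.map fun i => perm.getD i 0) * n)) *
        n⁻¹ = (nW A.hk K w')⁻¹ * nW A.hk K (w'.map fun i => perm.getD i 0) := by group
    rwa [e5] at h5
  by_cases h6 : w' = []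
  · right
    have e7 : nW A.hk K w * b * n = b1 * n * b2 := by
      rw [e, h6]
      simp [nW]
    exact T.dc hgG hn.1 hn.2 hb1 hb2 e7
  · by_cases h7 : w' = w
    · left
      rw [h7] at e
      exact T.dc hgG (mul_mem (nW_mem A.hk w hwl) hn.1) (mul_mem hs hn.2) hb1 hb2 e
    · exfalso
      exact nW_sep A hw'l hw''l (T.wsub w hw w' (List.mem_sublists.mpr hsub) h6 h7) h4

/-- Products `b n b'` with `b, b'` in one subgroup and `n` in another. -/
def OmSet {G : Type*} [Group G] (B1 N0 : Subgroup G) (x : G) : Prop :=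
  ∃ b1 ∈ B1, ∃ n₀ ∈ N0, ∃ b2 ∈ B1, x = b1 * n₀ * b2

theorem TwPack.omega (T : TwPack A hok φ G1 ws) {g : GL D.Idx K} (hg : g ∈ G1) :
    OmSet (D.borelSubgroup K ⊓ G1) (Subgroup.closure {g | ∃ w ∈ ws, g = nW A.hk K w} ⊔
      (D.diagonalSubgroup K ⊓ G1)) g := by
  have hN0N : Subgroup.closure {g | ∃ w ∈ ws, g = nW A.hk K w} ⊔ (D.diagonalSubgroup K ⊓ G1) ≤
      D.monomialSubgroup K ⊓ G1 := by
    apply sup_le
    · rw [Subgroup.closure_le]
      rintro g ⟨w, hw, rfl⟩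
      exact Subgroup.mem_inf.mpr ⟨nW_mem A.hk w (T.wlt w hw), T.wmem w hw⟩
    · exact inf_le_inf_right _ (diag_le_mono' D K)
  have key : ∀ g ∈ Subgroup.closure
      (((D.borelSubgroup K ⊓ G1 : Subgroup (GL D.Idx K)) : Set (GL D.Idx K)) ∪
        {g | ∃ w ∈ ws, g = nW A.hk K w}),
      ∀ x, OmSet (D.borelSubgroup K ⊓ G1) (Subgroup.closure {g | ∃ w ∈ ws, g = nW A.hk K w} ⊔
        (D.diagonalSubgroup K ⊓ G1)) x →
        OmSet (D.borelSubgroup K ⊓ G1) (Subgroup.closure {g | ∃ w ∈ ws, g = nW A.hk K w} ⊔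
          (D.diagonalSubgroup K ⊓ G1)) (g * x) ∧
        OmSet (D.borelSubgroup K ⊓ G1) (Subgroup.closure {g | ∃ w ∈ ws, g = nW A.hk K w} ⊔
          (D.diagonalSubgroup K ⊓ G1)) (g⁻¹ * x) := by
    intro g hg
    refine Subgroup.closure_induction (p := fun g _ => ∀ x,
      OmSet (D.borelSubgroup K ⊓ G1) (Subgroup.closure {g | ∃ w ∈ ws, g = nW A.hk K w} ⊔
        (D.diagonalSubgroup K ⊓ G1)) x →
        OmSet (D.borelSubgroup K ⊓ G1) (Subgroup.closure {g | ∃ w ∈ ws, g = nW A.hk K w} ⊔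
          (D.diagonalSubgroup K ⊓ G1)) (g * x) ∧
        OmSet (D.borelSubgroup K ⊓ G1) (Subgroup.closure {g | ∃ w ∈ ws, g = nW A.hk K w} ⊔
          (D.diagonalSubgroup K ⊓ G1)) (g⁻¹ * x)) ?_ ?_ ?_ ?_ hg
    · intro g hg x hx
      obtain ⟨b1, hb1, n₀, hn₀, b2, hb2, rfl⟩ := hx
      rcases hg with hg | ⟨w, hw, rfl⟩
      · exact ⟨⟨g * b1, mul_mem hg hb1, n₀, hn₀, b2, hb2, by group⟩,
          ⟨g⁻¹ * b1, mul_mem (inv_mem hg) hb1, n₀, hn₀, b2, hb2, by group⟩⟩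
      · have hsN0 : nW A.hk K w ∈ Subgroup.closure {g | ∃ w ∈ ws, g = nW A.hk K w} ⊔
            (D.diagonalSubgroup K ⊓ G1) :=
          Subgroup.mem_sup_left (Subgroup.subset_closure ⟨w, hw, rfl⟩)
        have h1 : OmSet (D.borelSubgroup K ⊓ G1)
            (Subgroup.closure {g | ∃ w ∈ ws, g = nW A.hk K w} ⊔ (D.diagonalSubgroup K ⊓ G1))
            (nW A.hk K w * (b1 * n₀ * b2)) := by
          rcases T.mul_union hw (hN0N hn₀) hb1 with ⟨c1, hc1, c2, hc2, e⟩ | ⟨c1, hc1, c2, hc2, e⟩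
          · refine ⟨c1, hc1, nW A.hk K w * n₀, mul_mem hsN0 hn₀, c2 * b2, mul_mem hc2 hb2, ?_⟩
            calc nW A.hk K w * (b1 * n₀ * b2) = (nW A.hk K w * b1 * n₀) * b2 := by group
              _ = (c1 * (nW A.hk K w * n₀) * c2) * b2 := by rw [e]
              _ = _ := by group
          · refine ⟨c1, hc1, n₀, hn₀, c2 * b2, mul_mem hc2 hb2, ?_⟩
            calc nW A.hk K w * (b1 * n₀ * b2) = (nW A.hk K w * b1 * n₀) * b2 := by group
              _ = (c1 * n₀ * c2) * b2 := by rw [e]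
              _ = _ := by group
        refine ⟨h1, ?_⟩
        obtain ⟨d1, hd1, m₀, hm₀, d2, hd2, e⟩ := h1
        have hsqH : nW A.hk K w * nW A.hk K w ∈ D.diagonalSubgroup K :=
          nW_sq_mem A (T.wlt w hw) (T.wsq w hw)
        have hsqG : nW A.hk K w * nW A.hk K w ∈ G1 := mul_mem (T.wmem w hw) (T.wmem w hw)
        have hsqB : (nW A.hk K w * nW A.hk K w)⁻¹ ∈ D.borelSubgroup K ⊓ G1 :=
          inv_mem (Subgroup.mem_inf.mpr ⟨diag_le_borel hsqH, hsqG⟩)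
        refine ⟨(nW A.hk K w * nW A.hk K w)⁻¹ * d1, mul_mem hsqB hd1, m₀, hm₀, d2, hd2, ?_⟩
        calc (nW A.hk K w)⁻¹ * (b1 * n₀ * b2) =
            (nW A.hk K w * nW A.hk K w)⁻¹ * (nW A.hk K w * (b1 * n₀ * b2)) := by group
          _ = (nW A.hk K w * nW A.hk K w)⁻¹ * (d1 * m₀ * d2) := by rw [e]
          _ = _ := by group
    · intro x hx
      rw [inv_one, one_mul]
      exact ⟨hx, hx⟩
    · intro a b _ _ iha ihb x hx
      refine ⟨?_, ?_⟩
      · rw [mul_assoc]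
        exact (iha _ (ihb x hx).1).1
      · rw [mul_inv_rev, mul_assoc]
        exact (ihb _ (iha x hx).2).2
    · intro a _ iha x hx
      refine ⟨(iha x hx).2, ?_⟩
      rw [inv_inv]
      exact (iha x hx).1
  have h1 : OmSet (D.borelSubgroup K ⊓ G1) (Subgroup.closure {g | ∃ w ∈ ws, g = nW A.hk K w} ⊔
      (D.diagonalSubgroup K ⊓ G1)) (1 : GL D.Idx K) :=
    ⟨1, one_mem _, 1, one_mem _, 1, one_mem _, by simp⟩
  have h2 := (key g (T.gen hg) 1 h1).1
  rwa [mul_one] at h2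

/-- The `(B, N)`-pair of a twisted group. -/
theorem tw_bn_pair (T : TwPack A hok φ G1 ws) :
    ∃ P : Cfsg.BNPair ↥G1,
      P.B = (D.borelSubgroup K ⊓ G1).subgroupOf G1 ∧
      P.N = (D.monomialSubgroup K ⊓ G1).subgroupOf G1 ∧
      P.S = {s : ↥G1 | ∃ w ∈ ws, (s : GL D.Idx K) = nW A.hk K w} := by
  have hinf := borel_inf_mono (F := K) A.hk A.nk A.xk A.lk A.wk A.ak A.ok
  have hBm : ∀ x : ↥G1, x ∈ (D.borelSubgroup K ⊓ G1).subgroupOf G1 ↔
      (x : GL D.Idx K) ∈ D.borelSubgroup K := by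
    intro x
    rw [Subgroup.mem_subgroupOf, Subgroup.mem_inf]
    exact ⟨fun h => h.1, fun h => ⟨h, x.2⟩⟩
  have hNm : ∀ x : ↥G1, x ∈ (D.monomialSubgroup K ⊓ G1).subgroupOf G1 ↔
      (x : GL D.Idx K) ∈ D.monomialSubgroup K := by
    intro x
    rw [Subgroup.mem_subgroupOf, Subgroup.mem_inf]
    exact ⟨fun h => h.1, fun h => ⟨h, x.2⟩⟩
  have hU : D.posUnipotent K ≤ D.borelSubgroup K := le_sup_left
  refine ⟨{
    B := (D.borelSubgroup K ⊓ G1).subgroupOf G1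
    N := (D.monomialSubgroup K ⊓ G1).subgroupOf G1
    S := {s : ↥G1 | ∃ w ∈ ws, (s : GL D.Idx K) = nW A.hk K w}
    sup_eq_top := ?_
    conj_mem := ?_
    subset := ?_
    sq_mem := ?_
    inj := ?_
    closure_sup := ?_
    mul_mem_union := ?_
    conj_ne := ?_ }, rfl, rfl, rfl⟩
  · rw [eq_top_iff]
    rintro ⟨g, hg⟩ -
    obtain ⟨u₁, hu₁, m, hm, u₂, hu₂, e⟩ := T.bruhat hg
    have hu₁' := Subgroup.mem_inf.mp hu₁
    have hm' := Subgroup.mem_inf.mp hm
    have hu₂' := Subgroup.mem_inf.mp hu₂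
    have e' : (⟨g, hg⟩ : ↥G1) = ⟨u₁, hu₁'.2⟩ * ⟨m, hm'.2⟩ * ⟨u₂, hu₂'.2⟩ := Subtype.ext e
    rw [e']
    exact mul_mem (mul_mem (Subgroup.mem_sup_left ((hBm _).mpr (hU hu₁'.1)))
      (Subgroup.mem_sup_right ((hNm _).mpr hm'.1))) (Subgroup.mem_sup_left ((hBm _).mpr (hU hu₂'.1)))
  · intro n hn t ht
    have ht' := Subgroup.mem_inf.mp ht
    have hH : (t : GL D.Idx K) ∈ D.diagonalSubgroup K := by
      rw [← hinf]
      exact Subgroup.mem_inf.mpr ⟨(hBm t).mp ht'.1, (hNm t).mp ht'.2⟩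
    rw [hBm]
    show (n : GL D.Idx K) * (t : GL D.Idx K) * (n : GL D.Idx K)⁻¹ ∈ D.borelSubgroup K
    exact diag_le_borel ((Subgroup.mem_normalizer_iff.mp
      (mono_le_normalizer A.hk A.wk A.ak ((hNm n).mp hn)) _).mp hH)
  · rintro s ⟨w, hw, e⟩
    show s ∈ (D.monomialSubgroup K ⊓ G1).subgroupOf G1
    rw [hNm, e]
    exact nW_mem A.hk w (T.wlt w hw)
  · rintro s ⟨w, hw, e⟩
    rw [hBm]
    show (s : GL D.Idx K) * (s : GL D.Idx K) ∈ D.borelSubgroup K
    rw [e]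
    exact diag_le_borel (nW_sq_mem A (T.wlt w hw) (T.wsq w hw))
  · rintro s ⟨w, hw, e⟩ s' ⟨w', hw', e'⟩ hb
    by_cases hww : w = w'
    · subst hww
      exact Subtype.ext (e.trans e'.symm)
    · exfalso
      have hb' : (s : GL D.Idx K)⁻¹ * (s' : GL D.Idx K) ∈ D.borelSubgroup K := (hBm _).mp hb
      rw [e, e'] at hb'
      have hH : (nW A.hk K w)⁻¹ * nW A.hk K w' ∈ D.diagonalSubgroup K := by
        rw [← hinf]
        exact Subgroup.mem_inf.mpr ⟨hb', mul_mem (inv_mem (nW_mem A.hk w (T.wlt w hw)))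
          (nW_mem A.hk w' (T.wlt w' hw'))⟩
      exact nW_sep A (T.wlt w hw) (T.wlt w' hw') (T.wsep w hw w' hw' hww) hH
  · apply le_antisymm
    · apply sup_le
      · rw [Subgroup.closure_le]
        rintro s ⟨w, hw, e⟩
        show s ∈ (D.monomialSubgroup K ⊓ G1).subgroupOf G1
        rw [hNm, e]
        exact nW_mem A.hk w (T.wlt w hw)
      · exact inf_le_right
    · intro x hx
      have hxN : (x : GL D.Idx K) ∈ D.monomialSubgroup K := (hNm x).mp hx
      obtain ⟨b1, hb1, n₀, hn₀, b2, hb2, e⟩ := T.omega x.2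
      have hN0N : Subgroup.closure {g | ∃ w ∈ ws, g = nW A.hk K w} ⊔
          (D.diagonalSubgroup K ⊓ G1) ≤ D.monomialSubgroup K ⊓ G1 := by
        apply sup_le
        · rw [Subgroup.closure_le]
          rintro g ⟨w, hw, rfl⟩
          exact Subgroup.mem_inf.mpr ⟨nW_mem A.hk w (T.wlt w hw), T.wmem w hw⟩
        · exact inf_le_inf_right _ (diag_le_mono' D K)
      have hn₀' := Subgroup.mem_inf.mp (hN0N hn₀)
      have hb1' := Subgroup.mem_inf.mp hb1
      have hb2' := Subgroup.mem_inf.mp hb2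
      have h0 : n₀⁻¹ * (x : GL D.Idx K) ∈ D.diagonalSubgroup K :=
        dc_unique A hb1'.1 hb2'.1 (one_mem _) (one_mem _) hn₀'.1 hxN (by rw [← e]; simp)
      have hle : Subgroup.closure {g : GL D.Idx K | ∃ w ∈ ws, g = nW A.hk K w} ⊔
          (D.diagonalSubgroup K ⊓ G1) ≤
          (Subgroup.closure {s : ↥G1 | ∃ w ∈ ws, (s : GL D.Idx K) = nW A.hk K w} ⊔
            ((D.borelSubgroup K ⊓ G1).subgroupOf G1 ⊓
              (D.monomialSubgroup K ⊓ G1).subgroupOf G1)).map G1.subtype := by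
        apply sup_le
        · rw [Subgroup.closure_le]
          rintro g ⟨w, hw, rfl⟩
          exact ⟨⟨nW A.hk K w, T.wmem w hw⟩,
            Subgroup.mem_sup_left (Subgroup.subset_closure ⟨w, hw, rfl⟩), rfl⟩
        · intro h hh
          have hh' := Subgroup.mem_inf.mp hh
          exact ⟨⟨h, hh'.2⟩, Subgroup.mem_sup_right (Subgroup.mem_inf.mpr
            ⟨(hBm _).mpr (diag_le_borel hh'.1), (hNm _).mpr (diag_le_mono' D K hh'.1)⟩), rfl⟩
      have hx2 : (x : GL D.Idx K) ∈ Subgroup.closure {g : GL D.Idx K | ∃ w ∈ ws,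
          g = nW A.hk K w} ⊔ (D.diagonalSubgroup K ⊓ G1) := by
        have e2 : (x : GL D.Idx K) = n₀ * (n₀⁻¹ * (x : GL D.Idx K)) := by group
        rw [e2]
        exact mul_mem hn₀ (Subgroup.mem_sup_right
          (Subgroup.mem_inf.mpr ⟨h0, mul_mem (inv_mem hn₀'.2) x.2⟩))
      obtain ⟨y, hy, hyx⟩ := hle hx2
      have hyx' : y = x := Subtype.ext hyx
      rw [← hyx']
      exact hy
  · rintro s ⟨w, hw, es⟩ n hn b hb
    have hn' : (n : GL D.Idx K) ∈ D.monomialSubgroup K ⊓ G1 :=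
      Subgroup.mem_inf.mpr ⟨(hNm n).mp hn, n.2⟩
    have hb' : (b : GL D.Idx K) ∈ D.borelSubgroup K ⊓ G1 :=
      Subgroup.mem_inf.mpr ⟨(hBm b).mp hb, b.2⟩
    rcases T.mul_union hw hn' hb' with ⟨c1, hc1, c2, hc2, e⟩ | ⟨c1, hc1, c2, hc2, e⟩
    · left
      have hc1' := Subgroup.mem_inf.mp hc1
      have hc2' := Subgroup.mem_inf.mp hc2
      rw [DoubleCoset.mem_doubleCoset]
      refine ⟨⟨c1, hc1'.2⟩, (hBm _).mpr hc1'.1, ⟨c2, hc2'.2⟩, (hBm _).mpr hc2'.1, Subtype.ext ?_⟩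
      show (s : GL D.Idx K) * (b : GL D.Idx K) * (n : GL D.Idx K) =
        c1 * ((s : GL D.Idx K) * (n : GL D.Idx K)) * c2
      rw [es]
      exact e
    · right
      have hc1' := Subgroup.mem_inf.mp hc1
      have hc2' := Subgroup.mem_inf.mp hc2
      rw [DoubleCoset.mem_doubleCoset]
      refine ⟨⟨c1, hc1'.2⟩, (hBm _).mpr hc1'.1, ⟨c2, hc2'.2⟩, (hBm _).mpr hc2'.1, Subtype.ext ?_⟩
      show (s : GL D.Idx K) * (b : GL D.Idx K) * (n : GL D.Idx K) = c1 * (n : GL D.Idx K) * c2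
      rw [es]
      exact e
  · rintro s ⟨w, hw, es⟩ heq
    obtain ⟨b, hbG, hbU, hb1, hbV⟩ := T.wne w hw
    have hbB : (⟨b, hbG⟩ : ↥G1) ∈ (((D.borelSubgroup K ⊓ G1).subgroupOf G1 : Subgroup ↥G1) :
        Set ↥G1) := (hBm _).mpr (hU hbU)
    have h1 : s * ⟨b, hbG⟩ * s ∈ (((D.borelSubgroup K ⊓ G1).subgroupOf G1 : Subgroup ↥G1) :
        Set ↥G1) := by
      rw [← heq]
      exact ⟨_, hbB, rfl⟩
    have h2 : (s : GL D.Idx K) * b * (s : GL D.Idx K) ∈ D.borelSubgroup K := (hBm _).mp h1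
    rw [es] at h2
    have hsq := nW_sq_mem (K := K) A (T.wlt w hw) (T.wsq w hw)
    have h3 : nW A.hk K w * b * (nW A.hk K w)⁻¹ ∈ D.borelSubgroup K := by
      have e3 : nW A.hk K w * b * (nW A.hk K w)⁻¹ =
          (nW A.hk K w * b * nW A.hk K w) * (nW A.hk K w * nW A.hk K w)⁻¹ := by group
      rw [e3]
      exact mul_mem h2 (inv_mem (diag_le_borel hsq))
    have h4 : nW A.hk K w * b * (nW A.hk K w)⁻¹ ∈ D.borelSubgroup K ⊓ D.negUnipotent K :=
      Subgroup.mem_inf.mpr ⟨h3, hbV⟩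
    rw [(borel_inf_neg A.hk A.wk A.lk A.ak).1, Subgroup.mem_bot] at h4
    apply hb1
    have e5 : b = (nW A.hk K w)⁻¹ * (nW A.hk K w * b * (nW A.hk K w)⁻¹) * nW A.hk K w := by
      group
    rw [e5, h4]
    group

/-- Two words of reflections whose commutator maps some positive root to a negative root. -/
def NcW (D : ChevalleyDatum) (w w' : List ℕ) : Prop :=
  ∃ α < D.nroots, D.IsPosRoot α ∧
    D.IsNegRoot (wActP (permOf D) (w ++ w' ++ w.reverse ++ w'.reverse) α)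

instance (D : ChevalleyDatum) (w w' : List ℕ) : Decidable (NcW D w w') := by
  unfold NcW
  infer_instance

theorem nW_mul_reverse (A : ALLOK D) : ∀ w : List ℕ, (∀ i ∈ w, i < D.rank) →
    nW A.hk K w * nW A.hk K w.reverse ∈ D.diagonalSubgroup K
  | [], _ => by
    simp only [nW, List.reverse_nil, List.map_nil, List.prod_nil, mul_one]
    exact one_mem _
  | i :: w, h => by
    have h1 := nW_mul_reverse A w (fun j hj => h j (List.mem_cons_of_mem _ hj))
    have hi := h i (by simp)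
    rw [List.reverse_cons, nW_append, nW_cons', nW_one]
    have e : nU A.hk K i * nW A.hk K w * (nW A.hk K w.reverse * nU A.hk K i) =
        (nU A.hk K i * (nW A.hk K w * nW A.hk K w.reverse) * (nU A.hk K i)⁻¹) *
          (nU A.hk K i * nU A.hk K i) := by group
    rw [e]
    exact mul_mem ((Subgroup.mem_normalizer_iff.mp
      (mono_le_normalizer A.hk A.wk A.ak (nU_mem A.hk hi)) _).mp h1) (nU_sq_mem A.hk hi)

theorem nW_comm_not_mem (A : ALLOK D) {w w' : List ℕ} (hw : ∀ i ∈ w, i < D.rank)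
    (hw' : ∀ i ∈ w', i < D.rank) (h : NcW D w w') :
    nW A.hk K w * nW A.hk K w' * (nW A.hk K w)⁻¹ * (nW A.hk K w')⁻¹ ∉ D.borelSubgroup K := by
  intro hmem
  obtain ⟨α, hα, hpos, hneg⟩ := h
  have h1 := nW_mul_reverse (K := K) A w hw
  have h2 := nW_mul_reverse (K := K) A w' hw'
  have hall : ∀ i ∈ w ++ w' ++ w.reverse ++ w'.reverse, i < D.rank := by
    intro i hi
    simp only [List.mem_append, List.mem_reverse] at hi
    rcases hi with ((hi | hi) | hi) | hi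
    · exact hw i hi
    · exact hw' i hi
    · exact hw i hi
    · exact hw' i hi
  apply nW_not_mem_borel (F := K) A.hk A.nk A.xk A.wk A.lk A.ak _ hall hpos hneg
  rw [nW_append, nW_append, nW_append]
  have e : nW A.hk K w * nW A.hk K w' * nW A.hk K w.reverse * nW A.hk K w'.reverse =
      (nW A.hk K w * nW A.hk K w' * (nW A.hk K w)⁻¹ * (nW A.hk K w')⁻¹) *
      (nW A.hk K w' * (nW A.hk K w * nW A.hk K w.reverse) * (nW A.hk K w')⁻¹) *
        (nW A.hk K w' * nW A.hk K w'.reverse) := by group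
  rw [e]
  exact mul_mem (mul_mem hmem (diag_le_borel ((Subgroup.mem_normalizer_iff.mp
    (mono_le_normalizer A.hk A.wk A.ak (nW_mem A.hk w' hw')) _).mp h1))) (diag_le_borel h2)

/-- Irreducibility of the `(B, N)`-pair of a twisted group whose reflections form a chain. -/
theorem tw_irreducible (T : TwPack A hok φ G1 ws) (P : Cfsg.BNPair ↥G1)
    (hB : P.B = (D.borelSubgroup K ⊓ G1).subgroupOf G1)
    (hS : P.S = {s : ↥G1 | ∃ w ∈ ws, (s : GL D.Idx K) = nW A.hk K w})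
    (hch : ∀ j, j + 1 < ws.length → NcW D (ws.getD j []) (ws.getD (j + 1) [])) :
    P.Irreducible := by
  intro J hJ hJne hJc
  by_contra hcon
  push Not at hcon
  let p : ℕ → Prop := fun j => ∃ s ∈ J, (s : GL D.Idx K) = nW A.hk K (ws.getD j [])
  have hmemws : ∀ j < ws.length, ws.getD j [] ∈ ws := fun j hj => by
    rw [List.getD_eq_getElem _ _ hj]
    exact List.getElem_mem hj
  have hel : ∀ j (hj : j < ws.length),
      (⟨nW A.hk K (ws.getD j []), T.wmem _ (hmemws j hj)⟩ : ↥G1) ∈ P.S := by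
    intro j hj
    rw [hS]
    exact ⟨_, hmemws j hj, rfl⟩
  have hBm : ∀ x : ↥G1, x ∈ P.B ↔ (x : GL D.Idx K) ∈ D.borelSubgroup K := by
    intro x
    rw [hB, Subgroup.mem_subgroupOf, Subgroup.mem_inf]
    exact ⟨fun h => h.1, fun h => ⟨h, x.2⟩⟩
  have step : ∀ j, j + 1 < ws.length → (p j ↔ p (j + 1)) := by
    intro j hj
    have hj0 : j < ws.length := by omega
    have hnc := hch j hj
    have hw := T.wlt _ (hmemws j hj0)
    have hw' := T.wlt _ (hmemws (j + 1) hj)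
    have hnot := nW_comm_not_mem (K := K) A hw hw' hnc
    by_contra hdiff
    by_cases h1 : p j
    · have h2 : ¬ p (j + 1) := fun h2 => hdiff ⟨fun _ => h2, fun _ => h1⟩
      obtain ⟨s, hsJ, hs⟩ := h1
      have h3 : (⟨nW A.hk K (ws.getD (j + 1) []), T.wmem _ (hmemws (j + 1) hj)⟩ : ↥G1) ∉ J :=
        fun h3 => h2 ⟨_, h3, rfl⟩
      have h4 := hcon s hsJ _ ⟨hel (j + 1) hj, h3⟩
      rw [hBm] at h4
      simp only [Subgroup.coe_mul, InvMemClass.coe_inv, hs] at h4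
      exact hnot h4
    · have h2 : p (j + 1) := by
        by_contra h2
        exact hdiff ⟨fun h => absurd h h1, fun h => absurd h h2⟩
      obtain ⟨s, hsJ, hs⟩ := h2
      have h3 : (⟨nW A.hk K (ws.getD j []), T.wmem _ (hmemws j hj0)⟩ : ↥G1) ∉ J :=
        fun h3 => h1 ⟨_, h3, rfl⟩
      have h4 := hcon s hsJ _ ⟨hel j hj0, h3⟩
      rw [hBm] at h4
      simp only [Subgroup.coe_mul, InvMemClass.coe_inv, hs] at h4
      apply hnot
      have e : nW A.hk K (ws.getD j []) * nW A.hk K (ws.getD (j + 1) []) *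
          (nW A.hk K (ws.getD j []))⁻¹ * (nW A.hk K (ws.getD (j + 1) []))⁻¹ =
          (nW A.hk K (ws.getD (j + 1) []) * nW A.hk K (ws.getD j []) *
            (nW A.hk K (ws.getD (j + 1) []))⁻¹ * (nW A.hk K (ws.getD j []))⁻¹)⁻¹ := by group
      rw [e]
      exact inv_mem h4
  have all : ∀ j, j < ws.length → (p j ↔ p 0) := by
    intro j
    induction j with
    | zero => intro _; exact Iff.rfl
    | succ j ih => intro hj; exact (step j hj).symm.trans (ih (by omega))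
  obtain ⟨s0, hs0⟩ := hJne
  obtain ⟨s1, hs1, hs1'⟩ := hJc
  have hS0 := hJ hs0
  rw [hS] at hS0 hs1
  obtain ⟨w0, hw0, e0⟩ := hS0
  obtain ⟨w1, hw1, e1⟩ := hs1
  obtain ⟨j0, hj0, ej0⟩ := List.getElem_of_mem hw0
  obtain ⟨j1, hj1, ej1⟩ := List.getElem_of_mem hw1
  have hp0 : p j0 := ⟨s0, hs0, by rw [e0, List.getD_eq_getElem _ _ hj0, ej0]⟩
  have hp1 : ¬ p j1 := by
    rintro ⟨s, hsJ, hs⟩
    have hss : s = s1 := Subtype.ext (by rw [hs, e1, List.getD_eq_getElem _ _ hj1, ej1])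
    exact hs1' (hss ▸ hsJ)
  exact hp1 ((all j1 hj1).mpr ((all j0 hj0).mp hp0))

/-- Simplicity of a twisted group from the simplicity criterion for `(B, N)`-pairs. -/
theorem tw_simple (T : TwPack A hok φ G1 ws)
    (hch : ∀ j, j + 1 < ws.length → NcW D (ws.getD j []) (ws.getD (j + 1) []))
    (hne : ws ≠ []) (hperf : commutator ↥G1 = ⊤)
    (hcore : ((D.borelSubgroup K ⊓ G1).subgroupOf G1).normalCore = ⊥) :
    IsSimpleGroup ↥G1 ∧ ¬ IsMulCommutative ↥G1 := by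
  obtain ⟨P, hB, -, hS⟩ := tw_bn_pair T
  have hnt : Nontrivial ↥G1 := by
    obtain ⟨w, hw⟩ := List.exists_mem_of_ne_nil ws hne
    obtain ⟨b, hbG, -, hb1, -⟩ := T.wne w hw
    exact ⟨⟨⟨b, hbG⟩, 1, fun h => hb1 (congrArg Subtype.val h)⟩⟩
  have hsolv : Group.IsSolvable P.B := by
    rw [hB]
    have hsB : Group.IsSolvable ↥(D.borelSubgroup K) := borel_solvable A.hk A.wk A.lk A.ak
    have hf : Function.Injective ((Subgroup.inclusion
        (inf_le_left : D.borelSubgroup K ⊓ G1 ≤ D.borelSubgroup K)).comp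
        (Subgroup.subgroupOfEquivOfLe
          (inf_le_right : D.borelSubgroup K ⊓ G1 ≤ G1)).toMonoidHom) := by
      intro a b hab
      rw [MonoidHom.comp_apply, MonoidHom.comp_apply] at hab
      have h1 := Subgroup.inclusion_injective
        (inf_le_left : D.borelSubgroup K ⊓ G1 ≤ D.borelSubgroup K) hab
      exact MulEquiv.injective _ h1
    exact Group.isSolvable_of_isSolvable_injective hf
  have hcore' : P.B.normalCore = ⊥ := by
    rw [hB]
    exact hcore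
  have hirr := tw_irreducible T P hB hS hch
  refine ⟨Cfsg.Agent.S0319.result P hirr hsolv hperf hcore', fun hc => ?_⟩
  have h1 : commutator ↥G1 = ⊥ := by
    rw [commutator_eq_bot_iff_center_eq_top, Subgroup.eq_top_iff']
    intro z
    rw [Subgroup.mem_center_iff]
    intro g
    exact hc.is_comm.comm g z
  rw [hperf] at h1
  exact top_ne_bot h1

/-- Conjugating a root element of a negative root back to a positive root subgroup. -/
theorem nW_inv_conj_mem (A : ALLOK D) {w : List ℕ} (hw : ∀ i ∈ w, i < D.rank) {γ a : ℕ}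
    (hγ : D.IsPosRoot γ) (ha : wActP (permOf D) w γ = a) (t : K) :
    (nW A.hk K w)⁻¹ * xU A.hk a t * nW A.hk K w ∈ D.posUnipotent K := by
  obtain ⟨_, η, hη, h2⟩ := nW_conj (F := K) A.hk A.nk A.xk w hw γ hγ.1
  have e : xU A.hk a t = nW A.hk K w * xU A.hk γ ((η : K) * t) * (nW A.hk K w)⁻¹ := by
    rw [h2, ha, ← mul_assoc]
    have hη2 : ((η : ℤ) : K) * ((η : ℤ) : K) = 1 := by
      rcases hη with h | h <;> simp [h]
    rw [hη2, one_mul]
  rw [e]
  have e2 : (nW A.hk K w)⁻¹ * (nW A.hk K w * xU A.hk γ ((η : K) * t) * (nW A.hk K w)⁻¹) *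
      nW A.hk K w = xU A.hk γ ((η : K) * t) := by group
  rw [e2]
  exact Subgroup.subset_closure ⟨_, _, hγ, xU_val A.hk _ _⟩

/-- Conjugating a root element to a negative root subgroup. -/
theorem nW_conj_neg_mem (A : ALLOK D) {w : List ℕ} (hw : ∀ i ∈ w, i < D.rank) {γ : ℕ}
    (hγ : γ < D.nroots) (hneg : D.IsNegRoot (wActP (permOf D) w γ)) (t : K) :
    nW A.hk K w * xU A.hk γ t * (nW A.hk K w)⁻¹ ∈ D.negUnipotent K := by
  obtain ⟨_, η, _, h2⟩ := nW_conj (F := K) A.hk A.nk A.xk w hw γ hγ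
  rw [h2]
  exact Subgroup.subset_closure ⟨_, _, hneg, xU_val A.hk _ _⟩

/-- A generator conjugated into `U` by a twisted reflection lies in the group generated by
`B ∩ G¹` and the twisted reflections. -/
theorem mem_gen_of_conj (A : ALLOK D) {G1 : Subgroup (GL D.Idx K)} {ws : List (List ℕ)}
    {w : List ℕ} (hw : w ∈ ws) (hs : nW A.hk K w ∈ G1) {g : GL D.Idx K} (hg : g ∈ G1)
    (hu : (nW A.hk K w)⁻¹ * g * nW A.hk K w ∈ D.posUnipotent K) :
    g ∈ Subgroup.closure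
      (((D.borelSubgroup K ⊓ G1 : Subgroup (GL D.Idx K)) : Set (GL D.Idx K)) ∪
        {g | ∃ w ∈ ws, g = nW A.hk K w}) := by
  have hU : D.posUnipotent K ≤ D.borelSubgroup K := le_sup_left
  have hsc : nW A.hk K w ∈ Subgroup.closure
      (((D.borelSubgroup K ⊓ G1 : Subgroup (GL D.Idx K)) : Set (GL D.Idx K)) ∪
        {g | ∃ w ∈ ws, g = nW A.hk K w}) := Subgroup.subset_closure (Or.inr ⟨w, hw, rfl⟩)
  have huc : (nW A.hk K w)⁻¹ * g * nW A.hk K w ∈ Subgroup.closure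
      (((D.borelSubgroup K ⊓ G1 : Subgroup (GL D.Idx K)) : Set (GL D.Idx K)) ∪
        {g | ∃ w ∈ ws, g = nW A.hk K w}) :=
    Subgroup.subset_closure (Or.inl (Subgroup.mem_inf.mpr
      ⟨hU hu, mul_mem (mul_mem (inv_mem hs) hg) hs⟩))
  have e : nW A.hk K w * ((nW A.hk K w)⁻¹ * g * nW A.hk K w) * (nW A.hk K w)⁻¹ = g := by group
  rw [← e]
  exact mul_mem (mul_mem hsc huc) (inv_mem hsc)

/-- A generator in `U` lies in the group generated by `B ∩ G¹` and the twisted reflections. -/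
theorem mem_gen_of_pos (A : ALLOK D) {G1 : Subgroup (GL D.Idx K)} {ws : List (List ℕ)}
    {g : GL D.Idx K} (hg : g ∈ G1) (hu : g ∈ D.posUnipotent K) :
    g ∈ Subgroup.closure
      (((D.borelSubgroup K ⊓ G1 : Subgroup (GL D.Idx K)) : Set (GL D.Idx K)) ∪
        {g | ∃ w ∈ ws, g = nW A.hk K w}) :=
  Subgroup.subset_closure (Or.inl (Subgroup.mem_inf.mpr
    ⟨(le_sup_left : D.posUnipotent K ≤ D.borelSubgroup K) hu, hg⟩))

theorem frob_surj {K : Type*} [Field K] [Finite K] (φ : K →+* K) : Function.Surjective φ :=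
  Finite.injective_iff_surjective.mp φ.injective

end twbn

end Cfsg.Agent.Lib.Helper9
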