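import Cfsg.Agent.Lib.Helper9.TwBN

set_option autoImplicit false

namespace Cfsg.Agent.Lib.Helper9

open Cfsg.Lie
open Cfsg.Agent.Lib.Helper4
open Cfsg.Agent.Lib.Helper15.ChevGraphEx

/-! ### Counting double cosets -/

section abstract

variable {G : Type*} [Group G]

/-- The double coset of a subgroup through an element. -/
def dcSet (B : Subgroup G) (x : G) : Set G := {g | ∃ b1 ∈ B, ∃ b2 ∈ B, g = b1 * x * b2}

theorem dcSet_one (B : Subgroup G) : dcSet B 1 = (B : Set G) := by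
  ext g
  constructor
  · rintro ⟨b1, hb1, b2, hb2, rfl⟩
    exact mul_mem (mul_mem hb1 (one_mem _)) hb2
  · intro hg
    exact ⟨g, hg, 1, one_mem _, by group⟩

theorem dcSet_mul_right (B : Subgroup G) {x g β : G} (hg : g ∈ dcSet B x) (hβ : β ∈ B) :
    g * β ∈ dcSet B x := by
  obtain ⟨b1, hb1, b2, hb2, rfl⟩ := hg
  exact ⟨b1, hb1, b2 * β, mul_mem hb2 hβ, by group⟩

theorem dcSet_mul_left (B : Subgroup G) {x g β : G} (hg : g ∈ dcSet B x) (hβ : β ∈ B) :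
    β * g ∈ dcSet B x := by
  obtain ⟨b1, hb1, b2, hb2, rfl⟩ := hg
  exact ⟨β * b1, mul_mem hβ hb1, b2, hb2, by group⟩

/-- Two factorisations of an element of `B s w B` into elements of `B s B` and `B w B`
differ by an element of `B`. -/
theorem dc_fiber (B : Subgroup G) {s w : G} (hsq : s * s ∈ B)
    (ha : ∀ b ∈ B, s * b * s ∈ B ∨ ∃ c1 ∈ B, ∃ c2 ∈ B, s * b * s = c1 * s * c2)
    (hb : ∀ b ∈ B, ∃ c1 ∈ B, ∃ c2 ∈ B, s * b * w = c1 * (s * w) * c2)
    (hc : ¬ ∃ c1 ∈ B, ∃ c2 ∈ B, s * w = c1 * w * c2)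
    {x x' y y' : G} (hx : x ∈ dcSet B s) (hx' : x' ∈ dcSet B s) (hy : y ∈ dcSet B w)
    (hy' : y' ∈ dcSet B w) (e : x * y = x' * y') : x'⁻¹ * x ∈ B := by
  obtain ⟨b1, hb1, b2, hb2, rfl⟩ := hx
  obtain ⟨b1', hb1', b2', hb2', rfl⟩ := hx'
  obtain ⟨e1, he1, e2, he2, rfl⟩ := hy
  obtain ⟨e1', he1', e2', he2', rfl⟩ := hy'
  have key : (b1' * s * b2')⁻¹ * (b1 * s * b2) =
      b2'⁻¹ * (s * s)⁻¹ * (s * (b1'⁻¹ * b1) * s) * b2 := by group
  rcases ha (b1'⁻¹ * b1) (mul_mem (inv_mem hb1') hb1) with h | ⟨c1, hc1, c2, hc2, h⟩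
  · rw [key]
    exact mul_mem (mul_mem (mul_mem (inv_mem hb2') (inv_mem hsq)) h) hb2
  · exfalso
    obtain ⟨f1, hf1, f2, hf2, hf⟩ := hb (c2 * b2 * e1) (mul_mem (mul_mem hc2 hb2) he1)
    apply hc
    refine ⟨(b2'⁻¹ * (s * s)⁻¹ * c1 * f1)⁻¹ * e1',
      mul_mem (inv_mem (mul_mem (mul_mem (mul_mem (inv_mem hb2') (inv_mem hsq)) hc1) hf1)) he1',
      e2' * (f2 * e2)⁻¹, mul_mem he2' (inv_mem (mul_mem hf2 he2)), ?_⟩
    have e3 : e1' * w * e2' = (b1' * s * b2')⁻¹ * (b1 * s * b2) * (e1 * w * e2) := by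
      rw [mul_assoc ((b1' * s * b2')⁻¹), e]
      group
    rw [key, h] at e3
    have e4 : e1' * w * e2' =
        (b2'⁻¹ * (s * s)⁻¹ * c1) * (s * (c2 * b2 * e1) * w) * e2 := by
      rw [e3]
      group
    rw [hf] at e4
    calc s * w = (b2'⁻¹ * (s * s)⁻¹ * c1 * f1)⁻¹ *
          ((b2'⁻¹ * (s * s)⁻¹ * c1) * (f1 * (s * w) * f2) * e2) * (f2 * e2)⁻¹ := by group
      _ = _ := by
        rw [← e4]
        group

/-- The index of `B s w B` is the product of the indices of `B s B` and `B w B` when the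
lengths add. -/
theorem dc_card_mul [Finite G] (B : Subgroup G) {s w : G} (hsq : s * s ∈ B)
    (ha : ∀ b ∈ B, s * b * s ∈ B ∨ ∃ c1 ∈ B, ∃ c2 ∈ B, s * b * s = c1 * s * c2)
    (hb : ∀ b ∈ B, ∃ c1 ∈ B, ∃ c2 ∈ B, s * b * w = c1 * (s * w) * c2)
    (hc : ¬ ∃ c1 ∈ B, ∃ c2 ∈ B, s * w = c1 * w * c2) :
    Nat.card (dcSet B s) * Nat.card (dcSet B w) = Nat.card (dcSet B (s * w)) * Nat.card B := by
  classical
  have hex : ∀ z : dcSet B (s * w), ∃ p : G × G, p.1 ∈ dcSet B s ∧ p.2 ∈ dcSet B w ∧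
      p.1 * p.2 = z.1 := by
    rintro ⟨z, c1, hc1, c2, hc2, rfl⟩
    exact ⟨(c1 * s, w * c2), ⟨c1, hc1, 1, one_mem _, by group⟩, ⟨1, one_mem _, c2, hc2, by group⟩,
      by group⟩
  choose sec hsec1 hsec2 hsec3 using hex
  have hprod : ∀ x ∈ dcSet B s, ∀ y ∈ dcSet B w, x * y ∈ dcSet B (s * w) := by
    rintro x ⟨b1, hb1, b2, hb2, rfl⟩ y ⟨e1, he1, e2, he2, rfl⟩
    obtain ⟨f1, hf1, f2, hf2, hf⟩ := hb (b2 * e1) (mul_mem hb2 he1)
    refine ⟨b1 * f1, mul_mem hb1 hf1, f2 * e2, mul_mem hf2 he2, ?_⟩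
    calc b1 * s * b2 * (e1 * w * e2) = b1 * (s * (b2 * e1) * w) * e2 := by group
      _ = _ := by
        rw [hf]
        group
  rw [← Nat.card_prod, ← Nat.card_prod]
  symm
  apply Nat.card_congr
  refine Equiv.ofBijective (fun p : ↥(dcSet B (s * w)) × ↥B =>
    ((⟨(sec p.1).1 * (p.2 : G)⁻¹, dcSet_mul_right B (hsec1 p.1) (inv_mem p.2.2)⟩ : ↥(dcSet B s)),
      (⟨(p.2 : G) * (sec p.1).2, dcSet_mul_left B (hsec2 p.1) p.2.2⟩ : ↥(dcSet B w)))) ⟨?_, ?_⟩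
  · rintro ⟨z, β⟩ ⟨z', β'⟩ e
    have e1 : (sec z).1 * (β : G)⁻¹ = (sec z').1 * (β' : G)⁻¹ :=
      congrArg (fun q : ↥(dcSet B s) × ↥(dcSet B w) => (q.1 : G)) e
    have e2 : (β : G) * (sec z).2 = (β' : G) * (sec z').2 :=
      congrArg (fun q : ↥(dcSet B s) × ↥(dcSet B w) => (q.2 : G)) e
    have hz : z = z' := by
      apply Subtype.ext
      rw [← hsec3 z, ← hsec3 z']
      calc (sec z).1 * (sec z).2 = ((sec z).1 * (β : G)⁻¹) * ((β : G) * (sec z).2) := by group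
        _ = ((sec z').1 * (β' : G)⁻¹) * ((β' : G) * (sec z').2) := by rw [e1, e2]
        _ = _ := by group
    subst hz
    have hβ : (β : G) = β' := by
      have := mul_left_cancel e1
      exact inv_injective this
    exact Prod.ext rfl (Subtype.ext hβ)
  · rintro ⟨x, y⟩
    have hβ : (x : G)⁻¹ * (sec ⟨(x : G) * y, hprod x x.2 y y.2⟩).1 ∈ B :=
      dc_fiber B hsq ha hb hc (hsec1 _) x.2 (hsec2 _) y.2 (hsec3 _)
    refine ⟨(⟨(x : G) * y, hprod x x.2 y y.2⟩, ⟨_, hβ⟩), ?_⟩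
    apply Prod.ext
    · apply Subtype.ext
      show (sec ⟨(x : G) * y, hprod x x.2 y y.2⟩).1 *
        ((x : G)⁻¹ * (sec ⟨(x : G) * y, hprod x x.2 y y.2⟩).1)⁻¹ = x
      group
    · apply Subtype.ext
      show (x : G)⁻¹ * (sec ⟨(x : G) * y, hprod x x.2 y y.2⟩).1 *
        (sec ⟨(x : G) * y, hprod x x.2 y y.2⟩).2 = y
      rw [mul_assoc, hsec3]
      group

/-- The cardinality of a union of pairwise disjoint sets indexed by a list. -/
theorem ncard_list_union {α ι : Type*} [Finite α] (f : ι → Set α) : ∀ L : List ι, L.Nodup →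
    (∀ i ∈ L, ∀ j ∈ L, i ≠ j → Disjoint (f i) (f j)) →
    Set.ncard {x | ∃ i ∈ L, x ∈ f i} = (L.map fun i => (f i).ncard).sum
  | [], _, _ => by simp
  | a :: L, hnd, hdis => by
    have hnd' := List.nodup_cons.mp hnd
    have e : {x | ∃ i ∈ a :: L, x ∈ f i} = f a ∪ {x | ∃ i ∈ L, x ∈ f i} := by
      ext x
      simp
    rw [e, Set.ncard_union_eq, ncard_list_union f L hnd'.2 (fun i hi j hj =>
      hdis i (List.mem_cons_of_mem _ hi) j (List.mem_cons_of_mem _ hj)), List.map_cons,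
      List.sum_cons]
    rw [Set.disjoint_left]
    rintro x hx ⟨i, hi, hxi⟩
    have hne : a ≠ i := fun h => hnd'.1 (h ▸ hi)
    exact Set.disjoint_left.mp
      (hdis a List.mem_cons_self i (List.mem_cons_of_mem _ hi) hne) hx hxi

end abstract

section twcard

variable {D : ChevalleyDatum} {K : Type*} [Field K]
  {perm permInv rho rhoInv : List ℕ} {eps : List ℤ}

/-- The sharp Bruhat decomposition of the fixed points of the twisting endomorphism. -/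
theorem tw_bruhat_uneg (A : ALLOK D) (hok : GraphOK D perm permInv rho rhoInv eps) (φ : K →+* K)
    (hφ : Function.Surjective φ) (hp : PosSt D rho) {g : GL D.Idx K} (hg : g ∈ D.group K)
    (hfix : twS hok φ g = g) :
    ∃ b ∈ D.borelSubgroup K, ∃ n ∈ D.monomialSubgroup K, ∃ u ∈ unegSub D K n,
      twS hok φ u = u ∧ g = b * n * u := by
  obtain ⟨hex, huniq⟩ := bruhat_normal_form (F := K) A.hk A.nk A.xk A.wk A.lk A.ak A.w0k A.ck
    A.pk A.ok A.bk A.rk A.hnp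
  obtain ⟨b, hb, n, hn, u, hu, rfl⟩ := hex g hg
  have hσb : twS hok φ b ∈ D.borelSubgroup K :=
    twS_borel A hok φ hp (Subgroup.mem_map_of_mem _ hb)
  have hσn : twS hok φ n ∈ D.monomialSubgroup K :=
    twS_mono A hok φ (Subgroup.mem_map_of_mem _ hn)
  have hσu : twS hok φ u ∈ unegSub D K (twS hok φ n) :=
    twS_uneg A.hk hok φ hφ hp n (Subgroup.mem_map_of_mem _ hu)
  have e0 : b * n * u = twS hok φ b * twS hok φ n * twS hok φ u := by
    rw [← map_mul, ← map_mul]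
    exact hfix.symm
  obtain ⟨h0, -⟩ := huniq _ _ _ _ _ _ hb hσb hn hσn hu hσu e0
  have hh'' : n * (n⁻¹ * twS hok φ n) * n⁻¹ ∈ D.diagonalSubgroup K :=
    (Subgroup.mem_normalizer_iff.mp (mono_le_normalizer A.hk A.wk A.ak hn) _).mp h0
  have eσn : twS hok φ n = (n * (n⁻¹ * twS hok φ n) * n⁻¹) * n := by group
  have hσu' : twS hok φ u ∈ unegSub D K n := by
    rw [eσn] at hσu
    exact uneg_of_diag_mul A hh'' hσu
  have e1 : b * n * u = (twS hok φ b * (n * (n⁻¹ * twS hok φ n) * n⁻¹)) * n * twS hok φ u := by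
    rw [e0]
    group
  obtain ⟨-, h2⟩ := huniq _ _ _ _ _ _ hb (mul_mem hσb (diag_le_borel hh'')) hn hn hu hσu' e1
  obtain ⟨eb, eu⟩ := h2 rfl
  exact ⟨b, hb, n, hn, u, hu, eu.symm, rfl⟩

/-- The lengths add along the word `v` in the product of `v` and `w`. -/
def lenAddB (D : ChevalleyDatum) : List ℕ → List ℕ → Bool
  | [], _ => true
  | i :: v, w => decide (∃ r' < D.nroots, D.IsPosRoot r' ∧
      wActP (permOf D) (v ++ w) r' = D.simple i) && lenAddB D v w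

/-- `n_v B n_w ⊆ B n_v n_w B` when the lengths add. -/
theorem nW_case1 (A : ALLOK D) : ∀ (v w : List ℕ), (∀ i ∈ v, i < D.rank) →
    (∀ i ∈ w, i < D.rank) → lenAddB D v w = true → ∀ b ∈ D.borelSubgroup K,
    ∃ b1 ∈ D.borelSubgroup K, ∃ b2 ∈ D.borelSubgroup K,
      nW A.hk K v * b * nW A.hk K w = b1 * nW A.hk K (v ++ w) * b2
  | [], w, _, _, _, b, hb => ⟨b, hb, 1, one_mem _, by simp [nW]⟩
  | i :: v, w, hv, hw, h, b, hb => by
    rw [lenAddB, Bool.and_eq_true, decide_eq_true_eq] at h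
    obtain ⟨⟨r', hr'lt, hr'pos, hr'⟩, h'⟩ := h
    obtain ⟨b1, hb1, b2, hb2, e⟩ :=
      nW_case1 A v w (fun j hj => hv j (List.mem_cons_of_mem _ hj)) hw h' b hb
    have hvw : ∀ j ∈ v ++ w, j < D.rank := by
      intro j hj
      rcases List.mem_append.mp hj with h | h
      · exact hv j (List.mem_cons_of_mem _ h)
      · exact hw j h
    obtain ⟨_, η, hη, hconj⟩ := nW_conj (F := K) A.hk A.nk A.xk (v ++ w) hvw r' hr'lt
    have hη2 : ((η : ℤ) : K) * ((η : ℤ) : K) = 1 := by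
      rcases hη with h | h <;> simp [h]
    have hc : ∀ t, (nW A.hk K (v ++ w))⁻¹ * xU A.hk (D.simple i) t * (nW A.hk K (v ++ w))⁻¹⁻¹ =
        xU A.hk r' ((η : K) * t) := by
      intro t
      have h1 := hconj ((η : K) * t)
      rw [hr', ← mul_assoc, hη2, one_mul] at h1
      rw [← h1]
      group
    obtain ⟨c1, hc1, c2, hc2, e2⟩ := bn_case1 A.hk A.nk A.xk A.wk A.ak A.ck A.pk A.ok
      (hv i (by simp)) hr'pos hc b1 hb1
    refine ⟨c1, hc1, c2 * b2, mul_mem hc2 hb2, ?_⟩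
    rw [nW_cons', List.cons_append, nW_cons']
    calc nU A.hk K i * nW A.hk K v * b * nW A.hk K w
        = nU A.hk K i * (nW A.hk K v * b * nW A.hk K w) := by group
      _ = nU A.hk K i * (b1 * nW A.hk K (v ++ w) * b2) := by rw [e]
      _ = (nU A.hk K i * b1 * nW A.hk K (v ++ w)) * b2 := by group
      _ = (c1 * (nU A.hk K i * nW A.hk K (v ++ w)) * c2) * b2 := by rw [e2]
      _ = _ := by group

/-- Two words of reflections with the same action give elements congruent modulo `H`. -/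
theorem nW_congr_of_fix (A : ALLOK D) {w' x : List ℕ} (hw' : ∀ i ∈ w', i < D.rank)
    (hx : ∀ i ∈ x, i < D.rank)
    (hfix : ∀ r < D.nroots, wActP (permOf D) (w'.reverse ++ x) r = r) :
    (nW A.hk K w')⁻¹ * nW A.hk K x ∈ D.diagonalSubgroup K := by
  obtain ⟨P, hB, -, -⟩ := bn_pair_exists (F := K) A.hk A.nk A.xk A.wk A.lk A.ak A.w0k A.ck
    A.pk A.ok A.bk
  have hr : ∀ i ∈ w'.reverse, i < D.rank := fun i hi => hw' i (List.mem_reverse.mp hi)
  have hall : ∀ i ∈ w'.reverse ++ x, i < D.rank := by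
    intro i hi
    rcases List.mem_append.mp hi with h | h
    · exact hr i h
    · exact hx i h
  have h1 := nW_mem_borel_of_fix P hB A.hk A.nk A.xk A.wk A.ak (w'.reverse ++ x) hall hfix
  rw [nW_append] at h1
  have h2 : nW A.hk K w'.reverse * nW A.hk K x ∈ D.diagonalSubgroup K := by
    rw [← borel_inf_mono A.hk A.nk A.xk A.lk A.wk A.ak A.ok]
    exact ⟨h1, mul_mem (nW_mem A.hk _ hr) (nW_mem A.hk x hx)⟩
  have h3 := nW_mul_reverse (K := K) A w'.reverse hr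
  rw [List.reverse_reverse] at h3
  have e : (nW A.hk K w')⁻¹ * nW A.hk K x =
      (nW A.hk K w'.reverse * nW A.hk K w')⁻¹ * (nW A.hk K w'.reverse * nW A.hk K x) := by group
  rw [e]
  exact mul_mem (inv_mem h3) h2

/-- A table of words closed under the multiplication by the twisted reflections, modulo the
words acting trivially. -/
def TblClosed (D : ChevalleyDatum) (ws tbl : List (List ℕ)) : Prop :=
  ∀ s ∈ ws, ∀ w ∈ tbl, ∃ w' ∈ tbl,
    ∀ r < D.nroots, wActP (permOf D) (w'.reverse ++ (s ++ w)) r = r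

instance (D : ChevalleyDatum) (ws tbl : List (List ℕ)) : Decidable (TblClosed D ws tbl) := by
  unfold TblClosed
  infer_instance

/-- The union of the double cosets of the words of a table. -/
def InTbl (hk : HOK D) (G1 : Subgroup (GL D.Idx K)) (tbl : List (List ℕ)) (x : GL D.Idx K) :
    Prop :=
  ∃ w ∈ tbl, x ∈ dcSet (D.borelSubgroup K ⊓ G1) (nW hk K w)

variable {A : ALLOK D} {hok : GraphOK D perm permInv rho rhoInv eps} {φ : K →+* K}
  {G1 : Subgroup (GL D.Idx K)} {ws : List (List ℕ)}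

/-- The double cosets of the words of a closed table cover the twisted group. -/
theorem TwPack.cover (T : TwPack A hok φ G1 ws) {tbl : List (List ℕ)} (hnil : [] ∈ tbl)
    (htl : ∀ w ∈ tbl, ∀ i ∈ w, i < D.rank) (htG : ∀ w ∈ tbl, nW A.hk K w ∈ G1)
    (hcl : TblClosed D ws tbl) {g : GL D.Idx K} (hg : g ∈ G1) : InTbl A.hk G1 tbl g := by
  have hHB : D.diagonalSubgroup K ⊓ G1 ≤ D.borelSubgroup K ⊓ G1 :=
    inf_le_inf_right _ diag_le_borel
  have hB : ∀ b ∈ D.borelSubgroup K ⊓ G1, ∀ x : GL D.Idx K, InTbl A.hk G1 tbl x →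
      InTbl A.hk G1 tbl (b * x) := by
    rintro b hb x ⟨w, hw, hx⟩
    exact ⟨w, hw, dcSet_mul_left _ hx hb⟩
  have hS : ∀ s ∈ ws, ∀ x : GL D.Idx K, InTbl A.hk G1 tbl x →
      InTbl A.hk G1 tbl (nW A.hk K s * x) := by
    rintro s hs x ⟨w, hw, c1, hc1, c2, hc2, rfl⟩
    have hnw : nW A.hk K w ∈ D.monomialSubgroup K ⊓ G1 :=
      Subgroup.mem_inf.mpr ⟨nW_mem A.hk w (htl w hw), htG w hw⟩
    rcases T.mul_union hs hnw hc1 with ⟨d1, hd1, d2, hd2, e⟩ | ⟨d1, hd1, d2, hd2, e⟩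
    · obtain ⟨w', hw', hfix⟩ := hcl s hs w hw
      have hsw : ∀ i ∈ s ++ w, i < D.rank := by
        intro i hi
        rcases List.mem_append.mp hi with h | h
        · exact T.wlt s hs i h
        · exact htl w hw i h
      have hH := nW_congr_of_fix (K := K) A (htl w' hw') hsw hfix
      rw [nW_append] at hH
      have hHG : (nW A.hk K w')⁻¹ * (nW A.hk K s * nW A.hk K w) ∈ G1 :=
        mul_mem (inv_mem (htG w' hw')) (mul_mem (T.wmem s hs) (htG w hw))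
      refine ⟨w', hw', d1, hd1, ((nW A.hk K w')⁻¹ * (nW A.hk K s * nW A.hk K w)) * d2 * c2,
        mul_mem (mul_mem (hHB (Subgroup.mem_inf.mpr ⟨hH, hHG⟩)) hd2) hc2, ?_⟩
      calc nW A.hk K s * (c1 * nW A.hk K w * c2)
          = (nW A.hk K s * c1 * nW A.hk K w) * c2 := by group
        _ = (d1 * (nW A.hk K s * nW A.hk K w) * d2) * c2 := by rw [e]
        _ = _ := by group
    · refine ⟨w, hw, d1, hd1, d2 * c2, mul_mem hd2 hc2, ?_⟩
      calc nW A.hk K s * (c1 * nW A.hk K w * c2)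
          = (nW A.hk K s * c1 * nW A.hk K w) * c2 := by group
        _ = (d1 * nW A.hk K w * d2) * c2 := by rw [e]
        _ = _ := by group
  have hSinv : ∀ s ∈ ws, ∀ x : GL D.Idx K, InTbl A.hk G1 tbl x →
      InTbl A.hk G1 tbl ((nW A.hk K s)⁻¹ * x) := by
    intro s hs x hx
    have hsq : nW A.hk K s * nW A.hk K s ∈ D.diagonalSubgroup K ⊓ G1 :=
      Subgroup.mem_inf.mpr ⟨nW_sq_mem A (T.wlt s hs) (T.wsq s hs),
        mul_mem (T.wmem s hs) (T.wmem s hs)⟩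
    have e : (nW A.hk K s)⁻¹ * x =
        (nW A.hk K s * nW A.hk K s)⁻¹ * (nW A.hk K s * x) := by group
    rw [e]
    exact hB _ (inv_mem (hHB hsq)) _ (hS s hs x hx)
  have key : ∀ g ∈ Subgroup.closure
      (((D.borelSubgroup K ⊓ G1 : Subgroup (GL D.Idx K)) : Set (GL D.Idx K)) ∪
        {g | ∃ w ∈ ws, g = nW A.hk K w}),
      (∀ x : GL D.Idx K, InTbl A.hk G1 tbl x → InTbl A.hk G1 tbl (g * x)) ∧
        (∀ x : GL D.Idx K, InTbl A.hk G1 tbl x → InTbl A.hk G1 tbl (g⁻¹ * x)) := by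
    intro g hg
    induction hg using Subgroup.closure_induction with
    | mem y hy =>
      rcases hy with hy | ⟨s, hs, rfl⟩
      · exact ⟨hB y hy, hB y⁻¹ (inv_mem hy)⟩
      · exact ⟨hS s hs, hSinv s hs⟩
    | one => exact ⟨fun x hx => by rwa [one_mul], fun x hx => by rwa [inv_one, one_mul]⟩
    | mul a b _ _ iha ihb =>
      refine ⟨fun x hx => ?_, fun x hx => ?_⟩
      · rw [mul_assoc]
        exact iha.1 _ (ihb.1 x hx)
      · rw [mul_inv_rev, mul_assoc]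
        exact ihb.2 _ (iha.2 x hx)
    | inv a _ iha => exact ⟨iha.2, fun x hx => by rw [inv_inv]; exact iha.1 x hx⟩
  have h1 := (key g (T.gen hg)).1 1 ⟨[], hnil, 1, one_mem _, 1, one_mem _, by simp [nW]⟩
  rwa [mul_one] at h1

/-- The order of `B ∩ G¹`. -/
theorem TwPack.card_borel (T : TwPack A hok φ G1 ws) :
    Nat.card ↥(D.borelSubgroup K ⊓ G1) =
      Nat.card ↥(D.posUnipotent K ⊓ G1) * Nat.card ↥(D.diagonalSubgroup K ⊓ G1) := by
  have hU : D.posUnipotent K ≤ D.borelSubgroup K := le_sup_left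
  rw [← Nat.card_prod]
  symm
  apply Nat.card_congr
  refine Equiv.ofBijective (fun p : ↥(D.posUnipotent K ⊓ G1) × ↥(D.diagonalSubgroup K ⊓ G1) =>
    (⟨(p.1 : GL D.Idx K) * (p.2 : GL D.Idx K), Subgroup.mem_inf.mpr
      ⟨mul_mem (hU p.1.2.1) (diag_le_borel p.2.2.1), mul_mem p.1.2.2 p.2.2.2⟩⟩ :
      ↥(D.borelSubgroup K ⊓ G1))) ⟨?_, ?_⟩
  · rintro ⟨u, h⟩ ⟨u', h'⟩ e
    have e1 : (u : GL D.Idx K) * h = u' * h' := congrArg Subtype.val e
    have e2 : (u' : GL D.Idx K)⁻¹ * u = h' * (h : GL D.Idx K)⁻¹ := by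
      rw [inv_mul_eq_iff_eq_mul, ← mul_assoc, ← e1]
      group
    have e3 : (u' : GL D.Idx K)⁻¹ * u ∈ D.posUnipotent K ⊓ D.diagonalSubgroup K :=
      Subgroup.mem_inf.mpr ⟨mul_mem (inv_mem u'.2.1) u.2.1, by
        rw [e2]
        exact mul_mem h'.2.1 (inv_mem h.2.1)⟩
    rw [posU_inf_diag A.hk A.lk A.ak, Subgroup.mem_bot, inv_mul_eq_one] at e3
    have e4 : (u : GL D.Idx K) = u' := e3.symm
    have e5 : (h : GL D.Idx K) = h' := by
      rw [e4] at e1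
      exact mul_left_cancel e1
    exact Prod.ext (Subtype.ext e4) (Subtype.ext e5)
  · rintro ⟨b, hb⟩
    obtain ⟨hbB, hbG⟩ := Subgroup.mem_inf.mp hb
    obtain ⟨u, hu, h, hh, rfl⟩ := borel_decomp A.hk A.wk A.ak b hbB
    have hfix : twS hok φ (u * h) = u * h := T.le_fix hbG
    have hσu : twS hok φ u ∈ D.posUnipotent K :=
      twS_posU A.hk hok φ T.pos (Subgroup.mem_map_of_mem _ hu)
    have hσh : twS hok φ h ∈ D.diagonalSubgroup K :=
      twS_diag A.hk A.ak hok φ (Subgroup.mem_map_of_mem _ hh)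
    rw [map_mul] at hfix
    have e5 : (twS hok φ u)⁻¹ * u = twS hok φ h * h⁻¹ := by
      rw [inv_mul_eq_iff_eq_mul, ← mul_assoc, hfix]
      group
    have e6 : (twS hok φ u)⁻¹ * u ∈ D.posUnipotent K ⊓ D.diagonalSubgroup K :=
      Subgroup.mem_inf.mpr ⟨mul_mem (inv_mem hσu) hu, by
        rw [e5]
        exact mul_mem hσh (inv_mem hh)⟩
    rw [posU_inf_diag A.hk A.lk A.ak, Subgroup.mem_bot, inv_mul_eq_one] at e6
    have huG : u ∈ G1 := T.fixU u hu e6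
    have hhG : h ∈ G1 := by
      have : h = u⁻¹ * (u * h) := by group
      rw [this]
      exact mul_mem (inv_mem huG) hbG
    exact ⟨(⟨u, Subgroup.mem_inf.mpr ⟨hu, huG⟩⟩, ⟨h, Subgroup.mem_inf.mpr ⟨hh, hhG⟩⟩), rfl⟩

/-- The order of the double coset of an element of `N ∩ G¹`. -/
theorem TwPack.dc_card (T : TwPack A hok φ G1 ws) {n : GL D.Idx K}
    (hn : n ∈ D.monomialSubgroup K) (hnG : n ∈ G1) :
    Nat.card (dcSet (D.borelSubgroup K ⊓ G1) n) =
      Nat.card ↥(D.borelSubgroup K ⊓ G1) * Nat.card ↥(unegSub D K n ⊓ G1) := by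
  obtain ⟨-, huniq⟩ := bruhat_normal_form (F := K) A.hk A.nk A.xk A.wk A.lk A.ak A.w0k A.ck
    A.pk A.ok A.bk A.rk A.hnp
  have hU : D.posUnipotent K ≤ D.borelSubgroup K := le_sup_left
  rw [← Nat.card_prod]
  symm
  apply Nat.card_congr
  refine Equiv.ofBijective (fun p : ↥(D.borelSubgroup K ⊓ G1) × ↥(unegSub D K n ⊓ G1) =>
    (⟨(p.1 : GL D.Idx K) * n * (p.2 : GL D.Idx K), ⟨p.1, p.1.2, p.2,
      Subgroup.mem_inf.mpr ⟨hU (uneg_le_pos n p.2.2.1), p.2.2.2⟩, rfl⟩⟩ :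
      ↥(dcSet (D.borelSubgroup K ⊓ G1) n))) ⟨?_, ?_⟩
  · rintro ⟨b, u⟩ ⟨b', u'⟩ e
    have e1 : (b : GL D.Idx K) * n * u = b' * n * u' := congrArg Subtype.val e
    obtain ⟨-, h2⟩ := huniq _ _ _ _ _ _ b.2.1 b'.2.1 hn hn u.2.1 u'.2.1 e1
    obtain ⟨eb, eu⟩ := h2 rfl
    exact Prod.ext (Subtype.ext eb) (Subtype.ext eu)
  · rintro ⟨g, c1, hc1, c2, hc2, rfl⟩
    have hgG : c1 * n * c2 ∈ G1 := mul_mem (mul_mem hc1.2 hnG) hc2.2
    obtain ⟨b, hb, m, hm, u, hu, fu, e⟩ :=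
      tw_bruhat_uneg A hok φ T.surj T.pos (T.le_group hgG) (T.le_fix hgG)
    have huG : u ∈ G1 := T.fixU u (uneg_le_pos m hu) fu
    have h0 : m⁻¹ * n ∈ D.diagonalSubgroup K :=
      dc_unique A hb (hU (uneg_le_pos m hu)) hc1.1 hc2.1 hm hn e.symm
    have hh2 : m * (m⁻¹ * n)⁻¹ * m⁻¹ ∈ D.diagonalSubgroup K :=
      (Subgroup.mem_normalizer_iff.mp (mono_le_normalizer A.hk A.wk A.ak hm) _).mp (inv_mem h0)
    have em : m = (m * (m⁻¹ * n)⁻¹ * m⁻¹) * n := by group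
    have hu' : u ∈ unegSub D K n := by
      rw [em] at hu
      exact uneg_of_diag_mul A hh2 hu
    have eg : c1 * n * c2 = (b * (m * (m⁻¹ * n)⁻¹ * m⁻¹)) * n * u := by
      rw [e]
      group
    have hbG : b * (m * (m⁻¹ * n)⁻¹ * m⁻¹) ∈ G1 := by
      have e' : b * (m * (m⁻¹ * n)⁻¹ * m⁻¹) = (c1 * n * c2) * u⁻¹ * n⁻¹ := by
        rw [eg]
        group
      rw [e']
      exact mul_mem (mul_mem hgG (inv_mem huG)) (inv_mem hnG)
    refine ⟨(⟨b * (m * (m⁻¹ * n)⁻¹ * m⁻¹),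
      Subgroup.mem_inf.mpr ⟨mul_mem hb (diag_le_borel hh2), hbG⟩⟩,
      ⟨u, Subgroup.mem_inf.mpr ⟨hu', huG⟩⟩), ?_⟩
    exact Subtype.ext eg.symm

/-- The order of the twisted group as the sum of the orders of the double cosets of a table
of words. -/
theorem TwPack.card_eq [Finite K] (T : TwPack A hok φ G1 ws) {tbl : List (List ℕ)}
    (hnd : tbl.Nodup) (hnil : [] ∈ tbl) (htl : ∀ w ∈ tbl, ∀ i ∈ w, i < D.rank)
    (htG : ∀ w ∈ tbl, nW A.hk K w ∈ G1) (hcl : TblClosed D ws tbl)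
    (hsep : ∀ w ∈ tbl, ∀ w' ∈ tbl, w ≠ w' → SepW D w w') :
    Nat.card ↥G1 =
      (tbl.map fun w => Nat.card (dcSet (D.borelSubgroup K ⊓ G1) (nW A.hk K w))).sum := by
  have hset : (G1 : Set (GL D.Idx K)) =
      {x | ∃ w ∈ tbl, x ∈ dcSet (D.borelSubgroup K ⊓ G1) (nW A.hk K w)} := by
    ext g
    constructor
    · intro hg
      exact T.cover hnil htl htG hcl hg
    · rintro ⟨w, hw, c1, hc1, c2, hc2, rfl⟩
      exact mul_mem (mul_mem hc1.2 (htG w hw)) hc2.2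
  have h1 : Nat.card ↥G1 = Set.ncard (G1 : Set (GL D.Idx K)) :=
    (Nat.card_coe_set_eq _).symm
  rw [h1, hset, ncard_list_union _ tbl hnd]
  · rfl
  · intro w hw w' hw' hne
    rw [Set.disjoint_left]
    rintro g ⟨c1, hc1, c2, hc2, rfl⟩ ⟨d1, hd1, d2, hd2, e⟩
    exact nW_sep A (htl w hw) (htl w' hw') (hsep w hw w' hw' hne)
      (dc_unique A hc1.1 hc2.1 hd1.1 hd2.1 (nW_mem A.hk w (htl w hw))
        (nW_mem A.hk w' (htl w' hw')) e)

/-- The numbers of fixed points in the subgroups `U_w⁻` multiply when the lengths add. -/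
theorem TwPack.uneg_card_mul [Finite K] (T : TwPack A hok φ G1 ws) {s : List ℕ} (hs : s ∈ ws)
    {w : List ℕ} (hw : ∀ i ∈ w, i < D.rank) (hwG : nW A.hk K w ∈ G1)
    (hlen : lenAddB D s w = true) (hsep : SepW D (s ++ w) w) :
    Nat.card ↥(unegSub D K (nW A.hk K s) ⊓ G1) * Nat.card ↥(unegSub D K (nW A.hk K w) ⊓ G1) =
      Nat.card ↥(unegSub D K (nW A.hk K (s ++ w)) ⊓ G1) := by
  have hsl := T.wlt s hs
  have hsG := T.wmem s hs
  have hsN : nW A.hk K s ∈ D.monomialSubgroup K ⊓ G1 :=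
    Subgroup.mem_inf.mpr ⟨nW_mem A.hk s hsl, hsG⟩
  have hwN : nW A.hk K w ∈ D.monomialSubgroup K ⊓ G1 :=
    Subgroup.mem_inf.mpr ⟨nW_mem A.hk w hw, hwG⟩
  have hswl : ∀ i ∈ s ++ w, i < D.rank := by
    intro i hi
    rcases List.mem_append.mp hi with h | h
    · exact hsl i h
    · exact hw i h
  have hnsep := nW_sep (K := K) A hswl hw hsep
  have hsq : nW A.hk K s * nW A.hk K s ∈ D.borelSubgroup K ⊓ G1 :=
    Subgroup.mem_inf.mpr ⟨diag_le_borel (nW_sq_mem A hsl (T.wsq s hs)), mul_mem hsG hsG⟩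
  have ha : ∀ b ∈ D.borelSubgroup K ⊓ G1, nW A.hk K s * b * nW A.hk K s ∈
      D.borelSubgroup K ⊓ G1 ∨ ∃ c1 ∈ D.borelSubgroup K ⊓ G1, ∃ c2 ∈ D.borelSubgroup K ⊓ G1,
        nW A.hk K s * b * nW A.hk K s = c1 * nW A.hk K s * c2 := by
    intro b hb
    rcases T.mul_union hs hsN hb with ⟨c1, hc1, c2, hc2, e⟩ | h
    · left
      rw [e]
      exact mul_mem (mul_mem hc1 hsq) hc2
    · exact Or.inr h
  have hb : ∀ b ∈ D.borelSubgroup K ⊓ G1, ∃ c1 ∈ D.borelSubgroup K ⊓ G1,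
      ∃ c2 ∈ D.borelSubgroup K ⊓ G1,
        nW A.hk K s * b * nW A.hk K w = c1 * (nW A.hk K s * nW A.hk K w) * c2 := by
    intro b hb
    rcases T.mul_union hs hwN hb with h | ⟨c1, hc1, c2, hc2, e⟩
    · exact h
    · exfalso
      obtain ⟨b1, hb1, b2, hb2, e2⟩ := nW_case1 (K := K) A s w hsl hw hlen b hb.1
      rw [e2] at e
      exact hnsep (dc_unique A hb1 hb2 hc1.1 hc2.1 (nW_mem A.hk _ hswl) (nW_mem A.hk w hw) e)
  have hc : ¬ ∃ c1 ∈ D.borelSubgroup K ⊓ G1, ∃ c2 ∈ D.borelSubgroup K ⊓ G1,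
      nW A.hk K s * nW A.hk K w = c1 * nW A.hk K w * c2 := by
    rintro ⟨c1, hc1, c2, hc2, e⟩
    have e' : 1 * nW A.hk K (s ++ w) * 1 = c1 * nW A.hk K w * c2 := by
      rw [one_mul, mul_one, nW_append, e]
    exact hnsep (dc_unique A (one_mem _) (one_mem _) hc1.1 hc2.1 (nW_mem A.hk _ hswl)
      (nW_mem A.hk w hw) e')
  have hmul := dc_card_mul (D.borelSubgroup K ⊓ G1) hsq ha hb hc
  rw [← nW_append, T.dc_card hsN.1 hsN.2, T.dc_card hwN.1 hwN.2,
    T.dc_card (nW_mem A.hk _ hswl) (by rw [nW_append]; exact mul_mem hsG hwG)] at hmul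
  have hβ : 0 < Nat.card ↥(D.borelSubgroup K ⊓ G1) := Nat.card_pos
  apply Nat.eq_of_mul_eq_mul_left (Nat.mul_pos hβ hβ)
  calc Nat.card ↥(D.borelSubgroup K ⊓ G1) * Nat.card ↥(D.borelSubgroup K ⊓ G1) *
        (Nat.card ↥(unegSub D K (nW A.hk K s) ⊓ G1) *
          Nat.card ↥(unegSub D K (nW A.hk K w) ⊓ G1))
      = Nat.card ↥(D.borelSubgroup K ⊓ G1) * Nat.card ↥(unegSub D K (nW A.hk K s) ⊓ G1) *
        (Nat.card ↥(D.borelSubgroup K ⊓ G1) *
          Nat.card ↥(unegSub D K (nW A.hk K w) ⊓ G1)) := by ring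
    _ = _ := hmul
    _ = _ := by ring

end twcard

end Cfsg.Agent.Lib.Helper9
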