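import Cfsg.Agent.Lib.Helper9.TwBN
import Cfsg.Agent.Lib.Helper9.ThmCox

set_option autoImplicit false

namespace Cfsg.Agent.Lib.Helper9

open Cfsg.Lie
open Cfsg.Agent.Lib.Helper4
open Cfsg.Agent.Lib.Helper15.ChevGraphEx

/-! ### The Weyl group of a twisted group as a Coxeter group -/

section twcox

variable {D : ChevalleyDatum} {K : Type*} [Field K]
  {perm permInv rho rhoInv : List ℕ} {eps : List ℤ}

/-- The `k`-fold repetition of a word. -/
def repW (v : List ℕ) : ℕ → List ℕ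
  | 0 => []
  | k + 1 => v ++ repW v k

theorem nW_repW (hk : HOK D) (v : List ℕ) : ∀ k : ℕ, nW hk K (repW v k) = nW hk K v ^ k
  | 0 => by simp [repW, nW]
  | k + 1 => by rw [repW, nW_append, nW_repW hk v k, pow_succ']

theorem repW_lt {v : List ℕ} {n : ℕ} (hv : ∀ i ∈ v, i < n) : ∀ k : ℕ, ∀ i ∈ repW v k, i < n
  | 0, i, hi => by simp [repW] at hi
  | k + 1, i, hi => by
    rw [repW] at hi
    rcases List.mem_append.mp hi with h | h
    · exact hv i h
    · exact repW_lt hv k i h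

/-- The product of two words of reflections has order `m` on the roots, and no smaller power
preserves the positive roots. -/
def OrdW (D : ChevalleyDatum) (w w' : List ℕ) (m : ℕ) : Prop :=
  0 < m ∧ (∀ r < D.nroots, wActP (permOf D) (repW (w ++ w') m) r = r) ∧
    ∀ k < m, 0 < k → ∃ α < D.nroots, D.IsPosRoot α ∧
      D.IsNegRoot (wActP (permOf D) (repW (w ++ w') k) α)

instance (D : ChevalleyDatum) (w w' : List ℕ) (m : ℕ) : Decidable (OrdW D w w' m) := by
  unfold OrdW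
  infer_instance

variable {A : ALLOK D} {hok : GraphOK D perm permInv rho rhoInv eps} {φ : K →+* K}
  {G1 : Subgroup (GL D.Idx K)} {ws : List (List ℕ)}

/-- `N¹ / H¹` is the Coxeter group generated by the twisted reflections. -/
theorem tw_weyl_iso (T : TwPack A hok φ G1 ws) (hnd : ws.Nodup) {n : ℕ} (hn : n = ws.length)
    (M : CoxeterMatrix (Fin n))
    (hM : ∀ i j : Fin n, i ≠ j → OrdW D (ws.getD i []) (ws.getD j []) (M i j)) :
    ∃ ψ : ↥(D.monomialSubgroup K ⊓ G1) →* M.Group, Function.Surjective ψ ∧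
      ψ.ker = (D.diagonalSubgroup K ⊓ G1).subgroupOf (D.monomialSubgroup K ⊓ G1) := by
  obtain ⟨P, hB, hN, hS⟩ := tw_bn_pair T
  obtain ⟨P0, hB0, -, -⟩ := bn_pair_exists (F := K) A.hk A.nk A.xk A.wk A.lk A.ak A.w0k A.ck
    A.pk A.ok A.bk
  have hBmem : ∀ x : ↥G1, x ∈ P.B ↔ (x : GL D.Idx K) ∈ D.borelSubgroup K := by
    intro x
    rw [hB, Subgroup.mem_subgroupOf, Subgroup.mem_inf]
    exact ⟨fun h => h.1, fun h => ⟨h, x.2⟩⟩
  have hNmem : ∀ x : ↥G1, x ∈ P.N ↔ (x : GL D.Idx K) ∈ D.monomialSubgroup K := by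
    intro x
    rw [hN, Subgroup.mem_subgroupOf, Subgroup.mem_inf]
    exact ⟨fun h => h.1, fun h => ⟨h, x.2⟩⟩
  have hinf := borel_inf_mono (F := K) A.hk A.nk A.xk A.lk A.wk A.ak A.ok
  have hlt : ∀ i : Fin n, (i : ℕ) < ws.length := fun i => hn ▸ i.2
  have hmemws : ∀ i : Fin n, ws.getD i [] ∈ ws := fun i => by
    rw [List.getD_eq_getElem _ _ (hlt i)]
    exact List.getElem_mem (hlt i)
  have hwl : ∀ i : Fin n, ∀ j ∈ ws.getD i [], j < D.rank := fun i => T.wlt _ (hmemws i)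
  -- the representatives
  let a : Fin n → ↥P.N := fun i =>
    ⟨⟨nW A.hk K (ws.getD i []), T.wmem _ (hmemws i)⟩, (hNmem _).mpr (nW_mem A.hk _ (hwl i))⟩
  have haS : ∀ i : Fin n, ((a i : ↥G1)) ∈ P.S := by
    intro i
    rw [hS]
    exact ⟨_, hmemws i, rfl⟩
  have hgen : Set.range (fun i : Fin n => BN.cl P (a i)) = (BN.E P).gen := by
    ext w
    constructor
    · rintro ⟨i, rfl⟩
      exact ⟨a i, haS i, rfl⟩
    · rintro ⟨s, hs, rfl⟩
      rw [hS] at hs
      obtain ⟨w0, hw0, e⟩ := hs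
      obtain ⟨j, hj, ej⟩ := List.getElem_of_mem hw0
      refine ⟨⟨j, hn ▸ hj⟩, ?_⟩
      show BN.cl P (a ⟨j, hn ▸ hj⟩) = BN.cl P s
      congr 1
      apply Subtype.ext
      apply Subtype.ext
      show nW A.hk K (ws.getD j []) = _
      rw [e, List.getD_eq_getElem _ _ hj, ej]
  have hf : Function.Injective (fun i : Fin n => BN.cl P (a i)) := by
    intro i j h
    have h1 : ((a i : ↥G1))⁻¹ * (a j : ↥G1) ∈ P.B := (BN.cl_eq_iff P).mp h
    have h2 : (nW A.hk K (ws.getD i []))⁻¹ * nW A.hk K (ws.getD j []) ∈ D.borelSubgroup K :=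
      (hBmem _).mp h1
    by_contra hij
    have hne : ws.getD i [] ≠ ws.getD j [] := by
      intro e
      rw [List.getD_eq_getElem _ _ (hlt i), List.getD_eq_getElem _ _ (hlt j)] at e
      exact hij (Fin.ext ((List.Nodup.getElem_inj_iff hnd).mp e))
    have h3 : (nW A.hk K (ws.getD i []))⁻¹ * nW A.hk K (ws.getD j []) ∈
        D.diagonalSubgroup K := by
      rw [← hinf]
      exact Subgroup.mem_inf.mpr ⟨h2, mul_mem (inv_mem (nW_mem A.hk _ (hwl i)))
        (nW_mem A.hk _ (hwl j))⟩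
    exact nW_sep A (hwl i) (hwl j) (T.wsep _ (hmemws i) _ (hmemws j) hne) h3
  have hMo : ∀ i j : Fin n, M i j =
      orderOf ((fun i : Fin n => BN.cl P (a i)) i * (fun i : Fin n => BN.cl P (a i)) j) := by
    intro i j
    by_cases hij : i = j
    · subst hij
      show M i i = orderOf (BN.cl P (a i) * BN.cl P (a i))
      rw [BN.gen_sq P ⟨a i, haS i, rfl⟩, orderOf_one, M.diagonal]
    · obtain ⟨hpos, hfix, hneg⟩ := hM i j hij
      have hwij : ∀ x ∈ ws.getD i [] ++ ws.getD j [], x < D.rank := by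
        intro x hx
        rcases List.mem_append.mp hx with h | h
        · exact hwl i x h
        · exact hwl j x h
      have hval : ∀ k : ℕ, ((((a i * a j) ^ k : ↥P.N) : ↥G1) : GL D.Idx K) =
          nW A.hk K (repW (ws.getD i [] ++ ws.getD j []) k) := by
        intro k
        rw [nW_repW, nW_append]
        simp only [Subgroup.coe_pow, Subgroup.coe_mul]
        rfl
      have clp : ∀ (x : ↥P.N) (k : ℕ), BN.cl P x ^ k = BN.cl P (x ^ k) := by
        intro x k
        induction k with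
        | zero => rw [pow_zero, pow_zero, BN.cl_one]
        | succ k ih => rw [pow_succ, pow_succ, BN.cl_mul, ih]
      have hone : ∀ k : ℕ, (BN.cl P (a i) * BN.cl P (a j)) ^ k = 1 ↔
          nW A.hk K (repW (ws.getD i [] ++ ws.getD j []) k) ∈ D.borelSubgroup K := by
        intro k
        rw [← BN.cl_mul, clp, BN.cl_eq_one_iff, hBmem, hval]
      symm
      show orderOf (BN.cl P (a i) * BN.cl P (a j)) = M i j
      rw [orderOf_eq_iff hpos]
      refine ⟨?_, fun k hkm hk0 => ?_⟩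
      · rw [hone]
        exact nW_mem_borel_of_fix P0 hB0 A.hk A.nk A.xk A.wk A.ak _ (repW_lt hwij _) hfix
      · rw [Ne, hone]
        obtain ⟨α, _, hp, hng⟩ := hneg k hkm hk0
        exact nW_not_mem_borel A.hk A.nk A.xk A.wk A.lk A.ak _ (repW_lt hwij _) hp hng
  obtain ⟨cs, hcs⟩ := (BN.E P).exists_coxeterSystem hgen hf M hMo
  -- the homomorphism
  let ι : ↥(D.monomialSubgroup K ⊓ G1) →* ↥P.N :=
    { toFun := fun x => ⟨⟨x, (Subgroup.mem_inf.mp x.2).2⟩,
        (hNmem _).mpr (Subgroup.mem_inf.mp x.2).1⟩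
      map_one' := rfl
      map_mul' := fun _ _ => rfl }
  refine ⟨cs.mulEquiv.toMonoidHom.comp ((QuotientGroup.mk' _).comp ι), ?_, ?_⟩
  · intro y
    obtain ⟨w, rfl⟩ := cs.mulEquiv.surjective y
    obtain ⟨x, rfl⟩ := BN.cl_surj P w
    exact ⟨⟨((x : ↥G1) : GL D.Idx K),
      Subgroup.mem_inf.mpr ⟨(hNmem _).mp x.2, (x : ↥G1).2⟩⟩, rfl⟩
  · ext x
    rw [MonoidHom.mem_ker, Subgroup.mem_subgroupOf]
    show cs.mulEquiv (BN.cl P (ι x)) = 1 ↔ _
    rw [MulEquiv.map_eq_one_iff, BN.cl_eq_one_iff, hBmem]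
    show (x : GL D.Idx K) ∈ D.borelSubgroup K ↔ _
    constructor
    · intro h
      refine Subgroup.mem_inf.mpr ⟨?_, (Subgroup.mem_inf.mp x.2).2⟩
      rw [← hinf]
      exact Subgroup.mem_inf.mpr ⟨h, (Subgroup.mem_inf.mp x.2).1⟩
    · intro h
      exact diag_le_borel (Subgroup.mem_inf.mp h).1

end twcox

end Cfsg.Agent.Lib.Helper9
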