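import Cfsg.Agent.Lib.Helper9.ThmTw2
import Cfsg.Agent.Lib.Helper9.TabD4
import Cfsg.Agent.Lib.Helper9.PermTabD4
import Cfsg.Prelude.Def_LieTwisted

set_option autoImplicit false

namespace Cfsg.Agent.Lib.Helper9

open Cfsg.Lie

/-- A word of the longest element of the Weyl group of `chevD4` made of blocks invariant under
the triality symmetry. -/
def twW0D4 : List ℕ := [1, 0, 2, 3, 1, 0, 2, 3, 1, 0, 2, 3]

/-- The reversed word. -/
def twW0RevD4 : List ℕ := [3, 2, 0, 1, 3, 2, 0, 1, 3, 2, 0, 1]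

/-- The blocks of the word. -/
def twBlkD4 : List (List ℕ) := [[1], [0, 2, 3], [1], [0, 2, 3], [1], [0, 2, 3]]

set_option maxRecDepth 1000000 in
theorem twW0D4_ok : w0B chevD4 permLitD4 twW0D4 twW0RevD4 = true := by decide +kernel

theorem twW0D4_lt : ∀ i ∈ twW0D4, i < chevD4.rank := by decide

theorem twBlkD4_flatten : twBlkD4.flatten = twW0D4 := by decide

theorem twBlkD4_mem : ∀ blk ∈ twBlkD4, blk = [1] ∨ blk = [0, 2, 3] := by
  decide

theorem d4_simple_eq : chevD4.simple 0 = d4p1 ∧ chevD4.simple 1 = d4p2 ∧ chevD4.simple 2 = d4p3 ∧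
    chevD4.simple 3 = d4p4 := by decide +kernel

theorem d4_negsimple_eq : chevD4.neg (chevD4.simple 0) = d4m1 ∧
    chevD4.neg (chevD4.simple 1) = d4m2 ∧ chevD4.neg (chevD4.simple 2) = d4m3 ∧
    chevD4.neg (chevD4.simple 3) = d4m4 := by decide +kernel

set_option maxRecDepth 1000000 in
theorem d4_comm_facts : ∀ p ∈ [(d4p1, d4p3), (d4m1, d4p3), (d4p1, d4m3), (d4p1, d4p4),
    (d4p3, d4p4), (d4m1, d4p4), (d4m3, d4p4), (d4p1, d4m4), (d4p3, d4m4)],
    p.1 < chevD4.nroots ∧ p.2 < chevD4.nroots ∧ p.2 ≠ chevD4.neg p.1 ∧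
      commB chevD4 (litsOf chevD4) p.1 p.2 = true ∧ chevD4.commTerms p.1 p.2 = [] := by
  decide +kernel

section

variable {K : Type*} [Field K]

theorem d4_commute (hk : HOK chevD4) {r s : ℕ}
    (h : (r, s) ∈ [(d4p1, d4p3), (d4m1, d4p3), (d4p1, d4m3), (d4p1, d4p4),
    (d4p3, d4p4), (d4m1, d4p4), (d4m3, d4p4), (d4p1, d4m4), (d4p3, d4m4)]) (t u : K) :
    Commute (xU hk r t) (xU hk s u) := by
  obtain ⟨h1, h2, h3, h4, h5⟩ := d4_comm_facts (r, s) h
  exact comm_of_terms_nil hk h1 h2 h3 h4 h5 t u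

theorem d4_single (hk : HOK chevD4) (q : ℕ) {r : ℕ} (hr : r ∈ [d4p2, d4m2]) {t : K}
    (ht : t ^ q = t) : xU hk r t ∈ twistedD4 K q :=
  Subgroup.subset_closure ⟨[(r, t)], Or.inl ⟨t, ht, r, hr, rfl⟩, by
    simp [xU_val, ChevalleyDatum.wordMat]⟩

theorem d4_triple (hk : HOK chevD4) (q : ℕ) {rs : ℕ × ℕ × ℕ}
    (hrs : rs ∈ [(d4p1, d4p3, d4p4), (d4m1, d4m3, d4m4)]) (t : K) :
    xU hk rs.1 t * xU hk rs.2.1 (t ^ q) * xU hk rs.2.2 (t ^ (q ^ 2)) ∈ twistedD4 K q :=
  Subgroup.subset_closure ⟨[(rs.1, t), (rs.2.1, t ^ q), (rs.2.2, t ^ (q ^ 2))],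
    Or.inr ⟨t, rs, hrs, rfl⟩, by
    simp [xU_val, ChevalleyDatum.wordMat, mul_assoc]⟩

/-- The normal core of `B ∩ G¹` in the twisted group of type `D₄` is trivial. -/
theorem twD4_core [Fintype K] {q : ℕ} (hK : Fintype.card K = q ^ 3) :
    ((chevD4.borelSubgroup K ⊓ twistedD4 K q).subgroupOf (twistedD4 K q)).normalCore = ⊥ := by
  have hD : chevD4 ∈ [chevG2, chevB2, chevD4, chevF4, chevE6, chevE7, chevE8] := by
    simp only [List.mem_cons, true_or, or_true]
  have hk := hok_all chevD4 hD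
  have hm1 : (-1 : K) ^ q = -1 := neg_one_pow_card (n := 3) (by norm_num) hK
  have hm2 : (-1 : K) ^ (q ^ 2) = -1 := by rw [pow_two, pow_mul, hm1, hm1]
  obtain ⟨s0, s1, s2, s3⟩ := d4_simple_eq
  obtain ⟨n0, n1, n2, n3⟩ := d4_negsimple_eq
  have hp1 : xU hk d4p1 (1 : K) * xU hk d4p3 1 * xU hk d4p4 1 ∈ twistedD4 K q := by
    have h := d4_triple (K := K) hk q (rs := (d4p1, d4p3, d4p4)) (by simp) 1
    rwa [one_pow, one_pow] at h
  have hm1' : xU hk d4m1 (-1 : K) * xU hk d4m3 (-1) * xU hk d4m4 (-1) ∈ twistedD4 K q := by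
    have h := d4_triple (K := K) hk q (rs := (d4m1, d4m3, d4m4)) (by simp) (-1)
    rwa [hm1, hm2] at h
  have hn1 : xU hk d4m1 (1 : K) * xU hk d4m3 1 * xU hk d4m4 1 ∈ twistedD4 K q := by
    have h := d4_triple (K := K) hk q (rs := (d4m1, d4m3, d4m4)) (by simp) 1
    rwa [one_pow, one_pow] at h
  refine tw_core hk (nok_all _ hD) (nxok_all _ hD) (wok_all _ hD) (lok_all _ hD) (haok_all _ hD)
    (bnok_all _ hD) (rnok_all _ hD) (orbok_all _ hD) (twistedD4 K q) twW0D4 twW0RevD4 twW0D4_lt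
    twW0D4_ok ?_ ?_
  · rw [← twBlkD4_flatten]
    apply nW_flatten_mem
    intro blk hblk
    rcases twBlkD4_mem blk hblk with rfl | rfl
    · rw [nW_one, nU_eq_three, n1, s1]
      exact mul_mem (mul_mem (d4_single hk q (by simp) (one_pow q))
        (d4_single hk q (by simp) hm1)) (d4_single hk q (by simp) (one_pow q))
    · rw [nW_three]
      apply block3 hk
      · rw [s0, s2]; exact d4_commute hk (by simp) _ _
      · rw [n0, s2]; exact d4_commute hk (by simp) _ _
      · rw [s0, n2]; exact d4_commute hk (by simp) _ _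
      · rw [s0, s3]; exact d4_commute hk (by simp) _ _
      · rw [s2, s3]; exact d4_commute hk (by simp) _ _
      · rw [n0, s3]; exact d4_commute hk (by simp) _ _
      · rw [n2, s3]; exact d4_commute hk (by simp) _ _
      · rw [s0, n3]; exact d4_commute hk (by simp) _ _
      · rw [s2, n3]; exact d4_commute hk (by simp) _ _
      · rw [s0, s2, s3]; exact hp1
      · rw [n0, n2, n3]; exact hm1'
  · intro i hi
    have hi' : i < 4 := hi
    have hL3 : ∃ L : List (ℕ × K), (∀ p ∈ L, p.1 < chevD4.rank) ∧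
        wordU hk (negL chevD4 L) ∈ twistedD4 K q ∧ L = [(0, 1), (2, 1), (3, 1)] := by
      refine ⟨[(0, 1), (2, 1), (3, 1)], ?_, ?_, rfl⟩
      · intro p hp
        simp only [List.mem_cons, List.not_mem_nil, or_false] at hp
        rcases hp with rfl | rfl | rfl
        · exact (by decide : (0 : ℕ) < chevD4.rank)
        · exact (by decide : (2 : ℕ) < chevD4.rank)
        · exact (by decide : (3 : ℕ) < chevD4.rank)
      · simp only [negL, List.map_cons, List.map_nil, wordU_cons, n0, n2, n3]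
        simpa [wordU, mul_assoc] using hn1
    obtain ⟨L, hL1, hL2, rfl⟩ := hL3
    interval_cases i
    · exact ⟨_, hL1, by simp, by simp, hL2⟩
    · refine ⟨[(1, 1)], ?_, by simp, by simp, ?_⟩
      · intro p hp
        simp only [List.mem_cons, List.not_mem_nil, or_false] at hp
        rcases hp with rfl
        exact (by decide : (1 : ℕ) < chevD4.rank)
      · simp only [negL, List.map_cons, List.map_nil, wordU_cons, n1]
        simpa [wordU] using d4_single (K := K) hk q (r := d4m2) (by simp) (one_pow q)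
    · exact ⟨_, hL1, by simp, by simp, hL2⟩
    · exact ⟨_, hL1, by simp, by simp, hL2⟩

end

end Cfsg.Agent.Lib.Helper9
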