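import Cfsg.Agent.Lib.Helper9.ThmTwPerf
import Cfsg.Agent.Lib.Helper9.TwD4

set_option autoImplicit false

namespace Cfsg.Agent.Lib.Helper9

open Cfsg.Lie

set_option maxRecDepth 1000000 in
theorem d4_comm_facts2 : ∀ p ∈ [(d4m1, d4m3), (d4m1, d4m4), (d4m3, d4m4)],
    p.1 < chevD4.nroots ∧ p.2 < chevD4.nroots ∧ p.2 ≠ chevD4.neg p.1 ∧
      commB chevD4 (litsOf chevD4) p.1 p.2 = true ∧ chevD4.commTerms p.1 p.2 = [] := by
  decide +kernel

set_option maxRecDepth 1000000 in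
theorem d4_tw_facts : ∀ p ∈ [([1, 0, 2, 3], d4p2, wActP (permOf chevD4) [0, 2, 3] d4m2, d4p2),
    ([1, 0, 2, 3], d4m2, wActP (permOf chevD4) [0, 2, 3] d4p2, d4m2)], TwFact chevD4 p := by
  decide +kernel

set_option maxRecDepth 1000000 in
theorem d4_exp_facts : ∀ p ∈ [(d4p1, d4p3, d4p4, (2 : ℤ)), (d4m1, d4m3, d4m4, -2)],
    p.1 < chevD4.nroots ∧ p.2.1 < chevD4.nroots ∧ p.2.2.1 < chevD4.nroots ∧
      rootExp chevD4 d4p1 (Nat.add chevD4.rank p.1) = p.2.2.2 ∧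
      rootExp chevD4 d4p3 (Nat.add chevD4.rank p.1) = 0 ∧
      rootExp chevD4 d4p4 (Nat.add chevD4.rank p.1) = 0 ∧
      rootExp chevD4 d4p1 (Nat.add chevD4.rank p.2.1) = 0 ∧
      rootExp chevD4 d4p3 (Nat.add chevD4.rank p.2.1) = p.2.2.2 ∧
      rootExp chevD4 d4p4 (Nat.add chevD4.rank p.2.1) = 0 ∧
      rootExp chevD4 d4p1 (Nat.add chevD4.rank p.2.2.1) = 0 ∧
      rootExp chevD4 d4p3 (Nat.add chevD4.rank p.2.2.1) = 0 ∧
      rootExp chevD4 d4p4 (Nat.add chevD4.rank p.2.2.1) = p.2.2.2 := by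
  decide +kernel

theorem d4_neg_p : chevD4.neg d4p1 = d4m1 ∧ chevD4.neg d4p3 = d4m3 ∧ chevD4.neg d4p4 = d4m4 ∧
    d4p1 < chevD4.nroots ∧ d4p3 < chevD4.nroots ∧ d4p4 < chevD4.nroots ∧
    d4p2 < chevD4.nroots ∧ d4m2 < chevD4.nroots := by decide +kernel

theorem nr_block3 {D : ChevalleyDatum} {F : Type*} [Field F] (hk : HOK D)
    (G1 : Subgroup (GL D.Idx F)) {r1 r2 r3 : ℕ}
    (c12 : ∀ a b : F, Commute (xU hk r1 a) (xU hk r2 b))
    (cm12 : ∀ a b : F, Commute (xU hk (D.neg r1) a) (xU hk r2 b))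
    (c1m2 : ∀ a b : F, Commute (xU hk r1 a) (xU hk (D.neg r2) b))
    (c13 : ∀ a b : F, Commute (xU hk r1 a) (xU hk r3 b))
    (c23 : ∀ a b : F, Commute (xU hk r2 a) (xU hk r3 b))
    (cm13 : ∀ a b : F, Commute (xU hk (D.neg r1) a) (xU hk r3 b))
    (cm23 : ∀ a b : F, Commute (xU hk (D.neg r2) a) (xU hk r3 b))
    (c1m3 : ∀ a b : F, Commute (xU hk r1 a) (xU hk (D.neg r3) b))
    (c2m3 : ∀ a b : F, Commute (xU hk r2 a) (xU hk (D.neg r3) b)) {a b c : F}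
    (hp : xU hk r1 a * xU hk r2 b * xU hk r3 c ∈ G1)
    (hm : xU hk (D.neg r1) (-a⁻¹) * xU hk (D.neg r2) (-b⁻¹) * xU hk (D.neg r3) (-c⁻¹) ∈ G1) :
    nrU hk r1 a * nrU hk r2 b * nrU hk r3 c ∈ G1 := by
  rw [nrU, nrU, nrU, aba_cdc (c12 _ _) (cm12 _ _) (c1m2 _ _),
    aba_cdc ((c13 _ _).mul_left (c23 _ _)) ((cm13 _ _).mul_left (cm23 _ _))
      ((c1m3 _ _).mul_left (c2m3 _ _))]
  exact mul_mem (mul_mem hp hm) hp

section

variable {K : Type*} [Field K] [Fintype K]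

/-- The twisted group of type `D₄` is perfect. -/
theorem twD4_perfect {q : ℕ} (hq : IsPrimePow q) (hK : Fintype.card K = q ^ 3) :
    commutator ↥(twistedD4 K q) = ⊤ := by
  have hD : chevD4 ∈ [chevG2, chevB2, chevD4, chevF4, chevE6, chevE7, chevE8] := by
    simp only [List.mem_cons, true_or, or_true]
  have hk := hok_all chevD4 hD
  have nk := nok_all chevD4 hD
  have xk := nxok_all chevD4 hD
  have wk := wok_all chevD4 hD
  have ak := haok_all chevD4 hD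
  have hm1 : (-1 : K) ^ q = -1 := neg_one_pow_card (n := 3) (by norm_num) hK
  have hm2 : (-1 : K) ^ (q ^ 2) = -1 := by rw [pow_two, pow_mul, hm1, hm1]
  obtain ⟨s0, s1, s2, s3⟩ := d4_simple_eq
  obtain ⟨n0, n1, n2, n3⟩ := d4_negsimple_eq
  obtain ⟨np1, np3, np4, hp1, hp3, hp4, hp2, hm2'⟩ := d4_neg_p
  apply commutator_eq_top_of_le
  have hT1 : (1 : K) ∈ {t : K | t ^ q = t} := one_pow q
  have hTneg : ∀ t ∈ {t : K | t ^ q = t}, -t ∈ {t : K | t ^ q = t} := by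
    intro t ht
    show (-t) ^ q = -t
    rw [neg_pow, hm1, (ht : t ^ q = t)]
    ring
  have hsing : ∀ r ∈ [d4p2, d4m2], ∀ t ∈ {t : K | t ^ q = t},
      xU hk r t ∈ twistedD4 K q := fun r hr t ht => d4_single hk q hr ht
  have c13 : ∀ a b : K, Commute (xU hk d4p1 a) (xU hk d4p3 b) :=
    fun a b => d4_commute hk (by simp) a b
  have cm13 : ∀ a b : K, Commute (xU hk d4m1 a) (xU hk d4p3 b) :=
    fun a b => d4_commute hk (by simp) a b
  have c1m3 : ∀ a b : K, Commute (xU hk d4p1 a) (xU hk d4m3 b) :=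
    fun a b => d4_commute hk (by simp) a b
  have c14 : ∀ a b : K, Commute (xU hk d4p1 a) (xU hk d4p4 b) :=
    fun a b => d4_commute hk (by simp) a b
  have c34 : ∀ a b : K, Commute (xU hk d4p3 a) (xU hk d4p4 b) :=
    fun a b => d4_commute hk (by simp) a b
  have cm14 : ∀ a b : K, Commute (xU hk d4m1 a) (xU hk d4p4 b) :=
    fun a b => d4_commute hk (by simp) a b
  have cm34 : ∀ a b : K, Commute (xU hk d4m3 a) (xU hk d4p4 b) :=
    fun a b => d4_commute hk (by simp) a b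
  have c1m4 : ∀ a b : K, Commute (xU hk d4p1 a) (xU hk d4m4 b) :=
    fun a b => d4_commute hk (by simp) a b
  have c3m4 : ∀ a b : K, Commute (xU hk d4p3 a) (xU hk d4m4 b) :=
    fun a b => d4_commute hk (by simp) a b
  have cm1m3 : ∀ a b : K, Commute (xU hk d4m1 a) (xU hk d4m3 b) := by
    intro a b
    obtain ⟨h1, h2, h3, h4, h5⟩ := d4_comm_facts2 (d4m1, d4m3) (by simp)
    exact comm_of_terms_nil hk h1 h2 h3 h4 h5 a b
  have cm1m4 : ∀ a b : K, Commute (xU hk d4m1 a) (xU hk d4m4 b) := by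
    intro a b
    obtain ⟨h1, h2, h3, h4, h5⟩ := d4_comm_facts2 (d4m1, d4m4) (by simp)
    exact comm_of_terms_nil hk h1 h2 h3 h4 h5 a b
  have cm3m4 : ∀ a b : K, Commute (xU hk d4m3 a) (xU hk d4m4 b) := by
    intro a b
    obtain ⟨h1, h2, h3, h4, h5⟩ := d4_comm_facts2 (d4m3, d4m4) (by simp)
    exact comm_of_terms_nil hk h1 h2 h3 h4 h5 a b
  have hblock : ∀ a : K, nrU hk d4p1 a * nrU hk d4p3 (a ^ q) * nrU hk d4p4 (a ^ (q ^ 2)) ∈
      twistedD4 K q := by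
    intro a
    apply nr_block3 hk _ c13 (by rw [np1]; exact cm13) (by rw [np3]; exact c1m3) c14 c34
      (by rw [np1]; exact cm14) (by rw [np3]; exact cm34) (by rw [np4]; exact c1m4)
      (by rw [np4]; exact c3m4)
    · exact d4_triple hk q (rs := (d4p1, d4p3, d4p4)) (by simp) a
    · rw [np1, np3, np4]
      have h := d4_triple (K := K) hk q (rs := (d4m1, d4m3, d4m4)) (by simp) (-a⁻¹)
      have e : (-a⁻¹) ^ q = -(a ^ q)⁻¹ := by
        rw [neg_pow, hm1, inv_pow]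
        ring
      have e' : (-a⁻¹) ^ (q ^ 2) = -(a ^ (q ^ 2))⁻¹ := by
        rw [neg_pow, hm2, inv_pow]
        ring
      rwa [e, e'] at h
  have hn1 : nW hk K [1] ∈ twistedD4 K q := by
    rw [nW_one, nU_eq_three, n1, s1]
    exact mul_mem (mul_mem (d4_single hk q (by simp) (one_pow q))
      (d4_single hk q (by simp) hm1)) (d4_single hk q (by simp) (one_pow q))
  have hn023 : nW hk K [0, 2, 3] ∈ twistedD4 K q := by
    rw [nW_three, nU_eq_nrU, nU_eq_nrU, nU_eq_nrU, s0, s2, s3]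
    have h := hblock 1
    rwa [one_pow, one_pow] at h
  have hn1023 : nW hk K [1, 0, 2, 3] ∈ twistedD4 K q := by
    have e : ([1, 0, 2, 3] : List ℕ) = [1] ++ [0, 2, 3] := rfl
    rw [e, nW_append]
    exact mul_mem hn1 hn023
  have hw023 : ∀ i ∈ ([0, 2, 3] : List ℕ), i < chevD4.rank := by decide
  have hsingC : ∀ r ∈ [d4p2, d4m2], ∀ t ∈ {t : K | t ^ q = t},
      xU hk r t ∈ ⁅twistedD4 K q, twistedD4 K q⁆ := by
    intro r hr
    simp only [List.mem_cons, List.not_mem_nil, or_false] at hr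
    rcases hr with rfl | rfl
    · exact tw_single hk nk xk _ _ hT1 hTneg
        (d4_tw_facts ([1, 0, 2, 3], d4p2, wActP (permOf chevD4) [0, 2, 3] d4m2, d4p2) (by simp))
        hn1023 (hsing d4p2 (by simp))
        (nW_conj_mem hk nk xk _ [0, 2, 3] hw023 hn023 hm2' _ hTneg (hsing d4m2 (by simp)))
    · exact tw_single hk nk xk _ _ hT1 hTneg
        (d4_tw_facts ([1, 0, 2, 3], d4m2, wActP (permOf chevD4) [0, 2, 3] d4p2, d4m2) (by simp))
        hn1023 (hsing d4m2 (by simp))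
        (nW_conj_mem hk nk xk _ [0, 2, 3] hw023 hn023 hp2 _ hTneg (hsing d4p2 (by simp)))
  have h4 : 4 ≤ Fintype.card K := by
    rw [hK]
    have h8 : 2 ^ 3 ≤ q ^ 3 := Nat.pow_le_pow_left hq.two_le 3
    omega
  obtain ⟨u, hu0, hu2⟩ := exists_sq_ne_one (K := K) h4
  obtain ⟨h, hh⟩ : ∃ h : GL chevD4.Idx K, h = (nrU hk d4p1 u * nrU hk d4p1 (-1)) *
      (nrU hk d4p3 (u ^ q) * nrU hk d4p3 (-1)) *
      (nrU hk d4p4 (u ^ (q ^ 2)) * nrU hk d4p4 (-1)) := ⟨_, rfl⟩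
  have hhG : h ∈ twistedD4 K q := by
    have k13 := nrU_commute hk c13 (by rw [np1]; exact cm13) (by rw [np3]; exact c1m3)
      (by rw [np1, np3]; exact cm1m3) (-1 : K) (u ^ q)
    have k14 := nrU_commute hk c14 (by rw [np1]; exact cm14) (by rw [np4]; exact c1m4)
      (by rw [np1, np4]; exact cm1m4) (-1 : K) (u ^ (q ^ 2))
    have k34 := nrU_commute hk c34 (by rw [np3]; exact cm34) (by rw [np4]; exact c3m4)
      (by rw [np3, np4]; exact cm3m4) (-1 : K) (u ^ (q ^ 2))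
    rw [hh, k13.mul_mul_mul_comm, (k14.mul_left k34).mul_mul_mul_comm]
    have h1 := hblock (-1)
    rw [hm1, hm2] at h1
    exact mul_mem (hblock u) h1
  have hconj : ∀ s < chevD4.nroots, ∀ t : K, h * xU hk s t * h⁻¹ =
      xU hk s (u ^ rootExp chevD4 d4p1 (Nat.add chevD4.rank s) *
        ((u ^ q) ^ rootExp chevD4 d4p3 (Nat.add chevD4.rank s) *
          ((u ^ (q ^ 2)) ^ rootExp chevD4 d4p4 (Nat.add chevD4.rank s) * t))) := by
    intro s hs t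
    rw [hh]
    have e : nrU hk d4p1 u * nrU hk d4p1 (-1) * (nrU hk d4p3 (u ^ q) * nrU hk d4p3 (-1)) *
        (nrU hk d4p4 (u ^ (q ^ 2)) * nrU hk d4p4 (-1)) * xU hk s t *
        (nrU hk d4p1 u * nrU hk d4p1 (-1) * (nrU hk d4p3 (u ^ q) * nrU hk d4p3 (-1)) *
          (nrU hk d4p4 (u ^ (q ^ 2)) * nrU hk d4p4 (-1)))⁻¹ =
        nrU hk d4p1 u * nrU hk d4p1 (-1) * ((nrU hk d4p3 (u ^ q) * nrU hk d4p3 (-1)) *
          ((nrU hk d4p4 (u ^ (q ^ 2)) * nrU hk d4p4 (-1)) * xU hk s t *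
            (nrU hk d4p4 (u ^ (q ^ 2)) * nrU hk d4p4 (-1))⁻¹) *
          (nrU hk d4p3 (u ^ q) * nrU hk d4p3 (-1))⁻¹) *
          (nrU hk d4p1 u * nrU hk d4p1 (-1))⁻¹ := by group
    rw [e, hrU_conj hk wk ak hp4 hs (pow_ne_zero _ hu0),
      hrU_conj hk wk ak hp3 hs (pow_ne_zero q hu0), hrU_conj hk wk ak hp1 hs hu0]
  have hf2 : ∀ a b : K, (a - b) ^ (q ^ 2) = a ^ (q ^ 2) - b ^ (q ^ 2) := by
    intro a b
    rw [pow_two, pow_mul, pow_mul, pow_mul, frob_sub hq hK, frob_sub hq hK]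
  have key : ∀ (r1 r2 r3 : ℕ) (e : ℤ), (r1, r2, r3, e) ∈ [(d4p1, d4p3, d4p4, (2 : ℤ)),
      (d4m1, d4m3, d4m4, -2)] →
      (∀ a b : K, Commute (xU hk r1 a) (xU hk r2 b)) →
      (∀ a b : K, Commute (xU hk r1 a) (xU hk r3 b)) →
      (∀ a b : K, Commute (xU hk r2 a) (xU hk r3 b)) →
      (∀ t : K, xU hk r1 t * xU hk r2 (t ^ q) * xU hk r3 (t ^ (q ^ 2)) ∈ twistedD4 K q) →
      u ^ e - 1 ≠ 0 →
      ∀ t : K, xU hk r1 t * xU hk r2 (t ^ q) * xU hk r3 (t ^ (q ^ 2)) ∈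
        ⁅twistedD4 K q, twistedD4 K q⁆ := by
    intro r1 r2 r3 e hmem k12 k13 k23 hg hne t
    obtain ⟨f1, f2, f3, g1, g2, g3, g4, g5, g6, g7, g8, g9⟩ := d4_exp_facts (r1, r2, r3, e) hmem
    have h1 : ∀ t : K, h * xU hk r1 t * h⁻¹ = xU hk r1 (u ^ e * t) := by
      intro t
      rw [hconj r1 f1, g1, g2, g3, zpow_zero, zpow_zero, one_mul, one_mul]
    have h2 : ∀ t : K, h * xU hk r2 (t ^ q) * h⁻¹ = xU hk r2 ((u ^ e * t) ^ q) := by
      intro t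
      rw [hconj r2 f2, g4, g5, g6, zpow_zero, zpow_zero, one_mul, one_mul, mul_pow,
        zpow_pow_comm]
    have h3 : ∀ t : K, h * xU hk r3 (t ^ (q ^ 2)) * h⁻¹ =
        xU hk r3 ((u ^ e * t) ^ (q ^ 2)) := by
      intro t
      rw [hconj r3 f3, g7, g8, g9, zpow_zero, zpow_zero, one_mul, one_mul, mul_pow,
        zpow_pow_comm]
    have h5 := triple_comm_mem hk (twistedD4 K q) (fun t : K => t ^ q)
      (fun t : K => t ^ (q ^ 2)) (frob_sub hq hK) hf2 k12 k13 k23 h hhG (u ^ e) h1 h2 h3 hg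
      ((u ^ e - 1)⁻¹ * t)
    rwa [← mul_assoc, mul_inv_cancel₀ hne, one_mul] at h5
  have htripC : ∀ rs ∈ [(d4p1, d4p3, d4p4), (d4m1, d4m3, d4m4)], ∀ t : K,
      xU hk rs.1 t * xU hk rs.2.1 (t ^ q) * xU hk rs.2.2 (t ^ (q ^ 2)) ∈
        ⁅twistedD4 K q, twistedD4 K q⁆ := by
    intro rs hrs
    have hg : ∀ t : K, xU hk rs.1 t * xU hk rs.2.1 (t ^ q) * xU hk rs.2.2 (t ^ (q ^ 2)) ∈
        twistedD4 K q := fun t => d4_triple hk q hrs t
    simp only [List.mem_cons, List.not_mem_nil, or_false] at hrs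
    rcases hrs with rfl | rfl
    · refine key _ _ _ 2 (by simp) c13 c14 c34 hg ?_
      rw [zpow_ofNat]
      exact sub_ne_zero.mpr hu2
    · refine key _ _ _ (-2) (by simp) cm1m3 cm1m4 cm3m4 hg ?_
      rw [show (-2 : ℤ) = -((2 : ℕ) : ℤ) from rfl, zpow_neg, zpow_natCast]
      exact sub_ne_zero.mpr (fun h => hu2 (inv_eq_one.mp h))
  show Subgroup.closure {g : GL chevD4.Idx K | ∃ w ∈ d4Words K q,
    (g : Matrix chevD4.Idx chevD4.Idx K) = chevD4.wordMat K w} ≤ _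
  rw [Subgroup.closure_le]
  rintro g ⟨w, hw, hg⟩
  rcases hw with ⟨t, ht, r, hr, rfl⟩ | ⟨t, rs, hrs, rfl⟩
  · have e : g = xU hk r t := Units.ext (by rw [hg]; simp [ChevalleyDatum.wordMat, xU_val])
    rw [e]
    exact hsingC r hr t ht
  · have e : g = xU hk rs.1 t * xU hk rs.2.1 (t ^ q) * xU hk rs.2.2 (t ^ (q ^ 2)) :=
      Units.ext (by rw [hg]; simp [ChevalleyDatum.wordMat, xU_val, mul_assoc])
    rw [e]
    exact htripC rs hrs t

end

end Cfsg.Agent.Lib.Helper9
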