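import Cfsg.Agent.Lib.Helper9.TwFixB
import Cfsg.Agent.Lib.Helper9.TwD4Perf
import Cfsg.Agent.Lib.Helper9.CertAll
import Cfsg.Agent.Lib.Helper15.ChevGraphExCert

set_option autoImplicit false

namespace Cfsg.Agent.Lib.Helper9

open Cfsg.Lie
open Cfsg.Agent.Lib.Helper15.ChevGraphEx

/-! ### The unipotent subgroup of the twisted group of type `D₄` -/

/-- The positive roots of `D₄` by height, the orbits of the triality consecutive. -/
def d4Ord : List ℕ := [14, 18, 13, 12, 19, 16, 15, 17, 20, 21, 22, 23]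

/-- The coweight giving the height. -/
def d4Wt : List ℕ := [3, 5, 3, 3]

set_option maxRecDepth 1000000 in
theorem d4_ordOK : OrdOK chevD4 d4Wt d4Ord :=
  ⟨by decide +kernel, by decide +kernel, by decide +kernel, by decide⟩

theorem d4_rhoSt : ∀ κ ∈ [1, 4, 7, 10, 11, 12], RhoSt d4Ord rhoD4a κ := by decide +kernel

theorem d4_rho_facts : ∀ p ∈ [((14 : ℕ), (14 : ℕ)), (9, 9), (18, 13), (13, 12), (12, 18),
    (5, 10), (10, 11), (11, 5), (19, 16), (16, 15), (15, 19), (17, 20), (20, 21), (21, 17),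
    (22, 22), (23, 23)],
    p.1 < chevD4.nroots ∧ rhoD4a.getD p.1 0 = p.2 := by decide +kernel

theorem d4_eps_facts : ∀ r ∈ [(14 : ℕ), 9, 18, 13, 12, 5, 10, 11, 22, 23],
    epsD4a.getD r 1 = 1 := by
  decide +kernel

set_option maxRecDepth 1000000 in
theorem d4_wact_facts : wActP (permOf chevD4) [1] 18 = 19 ∧ wActP (permOf chevD4) [1] 13 = 16 ∧
    wActP (permOf chevD4) [1] 12 = 15 ∧ wActP (permOf chevD4) [0, 2, 3] 19 = 17 ∧
    wActP (permOf chevD4) [0, 2, 3] 16 = 20 ∧ wActP (permOf chevD4) [0, 2, 3] 15 = 21 ∧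
    wActP (permOf chevD4) [0, 2, 3] 14 = 22 ∧ wActP (permOf chevD4) [1] 22 = 23 := by
  decide +kernel

set_option maxRecDepth 1000000 in
theorem d4_comm_facts3 : ∀ p ∈ [((19 : ℕ), (16 : ℕ)), (19, 15), (17, 20), (17, 21)],
    p.1 < chevD4.nroots ∧ p.2 < chevD4.nroots ∧ p.2 ≠ chevD4.neg p.1 ∧
      commB chevD4 (litsOf chevD4) p.1 p.2 = true ∧ chevD4.commTerms p.1 p.2 = [] := by
  decide +kernel

section

variable {K : Type*} [Field K]

/-- The coefficients of the twelve root elements of an element of `U` fixed by the twisting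
endomorphism, in terms of six parameters. -/
def d4Coef (φ : K →+* K) (p : K × K × K × K × K × K) : ℕ → K := fun j =>
  ([p.1,
    p.2.1, ((epsD4a.getD 18 1 : ℤ) : K) * φ p.2.1,
    ((epsD4a.getD 13 1 : ℤ) : K) * φ (((epsD4a.getD 18 1 : ℤ) : K) * φ p.2.1),
    p.2.2.1, ((epsD4a.getD 19 1 : ℤ) : K) * φ p.2.2.1,
    ((epsD4a.getD 16 1 : ℤ) : K) * φ (((epsD4a.getD 19 1 : ℤ) : K) * φ p.2.2.1),
    p.2.2.2.1, ((epsD4a.getD 17 1 : ℤ) : K) * φ p.2.2.2.1,
    ((epsD4a.getD 20 1 : ℤ) : K) * φ (((epsD4a.getD 17 1 : ℤ) : K) * φ p.2.2.2.1),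
    p.2.2.2.2.1, p.2.2.2.2.2] : List K).getD j 0

end

section

variable {K : Type*} [Field K] [Fintype K]

/-- The structure of `U ∩ ³D₄(q)`: the group lies in the fixed points of the twisting
endomorphism, contains the fixed points in `U` and the twisted reflections, and `U ∩ ³D₄(q)`
has order `q ^ 12`. -/
theorem twD4_pack {q : ℕ} (hq : IsPrimePow q) (hK : Fintype.card K = q ^ 3) (A : ALLOK chevD4) :
    ∃ φ : K →+* K, (∀ t, φ t = t ^ q) ∧ twistedD4 K q ≤ twFix graphOK_D4a φ ∧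
      (∀ u ∈ chevD4.posUnipotent K, u ∈ twFix graphOK_D4a φ → u ∈ twistedD4 K q) ∧
      nW A.hk K [1] ∈ twistedD4 K q ∧ nW A.hk K [0, 2, 3] ∈ twistedD4 K q ∧
      xU A.hk 14 1 ∈ twistedD4 K q ∧
      xU A.hk 18 1 * xU A.hk 13 1 * xU A.hk 12 1 ∈ twistedD4 K q ∧
      Nat.card ↥(chevD4.posUnipotent K ⊓ twistedD4 K q) = q ^ 12 := by
  have hk := A.hk
  obtain ⟨φ, hφ⟩ := frob_hom hq hK (by norm_num)
  have hok := graphOK_D4a
  have O := d4_ordOK
  have hq1 : 1 < q := hq.one_lt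
  have hφ3 : ∀ t : K, φ (φ (φ t)) = t := by
    intro t
    rw [hφ, hφ, hφ, ← pow_mul, ← pow_mul]
    have e : q * (q * q) = Fintype.card K := by rw [hK]; ring
    rw [e]
    exact FiniteField.pow_card t
  have hm1 : (-1 : K) ^ q = -1 := neg_one_pow_card (n := 3) (by norm_num) hK
  have hm2 : (-1 : K) ^ (q ^ 2) = -1 := by rw [pow_two, pow_mul, hm1, hm1]
  obtain ⟨s0, s1, s2, s3⟩ := d4_simple_eq
  obtain ⟨n0, n1, n2, n3⟩ := d4_negsimple_eq
  obtain ⟨np1, np3, np4, hp1, hp3, hp4, hp2, hm2'⟩ := d4_neg_p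
  have c13 : ∀ a b : K, Commute (xU hk d4p1 a) (xU hk d4p3 b) :=
    fun a b => d4_commute hk (by simp) a b
  have cm13 : ∀ a b : K, Commute (xU hk d4m1 a) (xU hk d4p3 b) :=
    fun a b => d4_commute hk (by simp) a b
  have c1m3 : ∀ a b : K, Commute (xU hk d4p1 a) (xU hk d4m3 b) :=
    fun a b => d4_commute hk (by simp) a b
  have c14 : ∀ a b : K, Commute (xU hk d4p1 a) (xU hk d4p4 b) :=
    fun a b => d4_commute hk (by simp) a b
  have c34 : ∀ a b : K, Commute (xU hk d4p3 a) (xU hk d4p4 b) :=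
    fun a b => d4_commute hk (by simp) a b
  have cm14 : ∀ a b : K, Commute (xU hk d4m1 a) (xU hk d4p4 b) :=
    fun a b => d4_commute hk (by simp) a b
  have cm34 : ∀ a b : K, Commute (xU hk d4m3 a) (xU hk d4p4 b) :=
    fun a b => d4_commute hk (by simp) a b
  have c1m4 : ∀ a b : K, Commute (xU hk d4p1 a) (xU hk d4m4 b) :=
    fun a b => d4_commute hk (by simp) a b
  have c3m4 : ∀ a b : K, Commute (xU hk d4p3 a) (xU hk d4m4 b) :=
    fun a b => d4_commute hk (by simp) a b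
  have cm1m3 : ∀ a b : K, Commute (xU hk d4m1 a) (xU hk d4m3 b) := by
    intro a b
    obtain ⟨h1, h2, h3, h4, h5⟩ := d4_comm_facts2 (d4m1, d4m3) (by simp)
    exact comm_of_terms_nil hk h1 h2 h3 h4 h5 a b
  have cm1m4 : ∀ a b : K, Commute (xU hk d4m1 a) (xU hk d4m4 b) := by
    intro a b
    obtain ⟨h1, h2, h3, h4, h5⟩ := d4_comm_facts2 (d4m1, d4m4) (by simp)
    exact comm_of_terms_nil hk h1 h2 h3 h4 h5 a b
  have c_19_16 : ∀ a b : K, Commute (xU hk 19 a) (xU hk 16 b) := by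
    intro a b
    obtain ⟨h1, h2, h3, h4, h5⟩ := d4_comm_facts3 (19, 16) (by simp)
    exact comm_of_terms_nil hk h1 h2 h3 h4 h5 a b
  have c_19_15 : ∀ a b : K, Commute (xU hk 19 a) (xU hk 15 b) := by
    intro a b
    obtain ⟨h1, h2, h3, h4, h5⟩ := d4_comm_facts3 (19, 15) (by simp)
    exact comm_of_terms_nil hk h1 h2 h3 h4 h5 a b
  have c_17_20 : ∀ a b : K, Commute (xU hk 17 a) (xU hk 20 b) := by
    intro a b
    obtain ⟨h1, h2, h3, h4, h5⟩ := d4_comm_facts3 (17, 20) (by simp)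
    exact comm_of_terms_nil hk h1 h2 h3 h4 h5 a b
  have c_17_21 : ∀ a b : K, Commute (xU hk 17 a) (xU hk 21 b) := by
    intro a b
    obtain ⟨h1, h2, h3, h4, h5⟩ := d4_comm_facts3 (17, 21) (by simp)
    exact comm_of_terms_nil hk h1 h2 h3 h4 h5 a b
  have hblock : ∀ a : K, nrU hk d4p1 a * nrU hk d4p3 (a ^ q) * nrU hk d4p4 (a ^ (q ^ 2)) ∈
      twistedD4 K q := by
    intro a
    apply nr_block3 hk _ c13 (by rw [np1]; exact cm13) (by rw [np3]; exact c1m3) c14 c34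
      (by rw [np1]; exact cm14) (by rw [np3]; exact cm34) (by rw [np4]; exact c1m4)
      (by rw [np4]; exact c3m4)
    · exact d4_triple hk q (rs := (d4p1, d4p3, d4p4)) (by simp) a
    · rw [np1, np3, np4]
      have h := d4_triple (K := K) hk q (rs := (d4m1, d4m3, d4m4)) (by simp) (-a⁻¹)
      have e : (-a⁻¹) ^ q = -(a ^ q)⁻¹ := by
        rw [neg_pow, hm1, inv_pow]
        ring
      have e' : (-a⁻¹) ^ (q ^ 2) = -(a ^ (q ^ 2))⁻¹ := by
        rw [neg_pow, hm2, inv_pow]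
        ring
      rwa [e, e'] at h
  have hn1 : nW hk K [1] ∈ twistedD4 K q := by
    rw [nW_one, nU_eq_three, n1, s1]
    exact mul_mem (mul_mem (d4_single hk q (by simp) (one_pow q))
      (d4_single hk q (by simp) hm1)) (d4_single hk q (by simp) (one_pow q))
  have hn023 : nW hk K [0, 2, 3] ∈ twistedD4 K q := by
    rw [nW_three, nU_eq_nrU, nU_eq_nrU, nU_eq_nrU, s0, s2, s3]
    have h := hblock 1
    rwa [one_pow, one_pow] at h
  have hw1 : ∀ i ∈ ([1] : List ℕ), i < chevD4.rank := by decide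
  have hw023 : ∀ i ∈ ([0, 2, 3] : List ℕ), i < chevD4.rank := by decide
  have e2φ : ∀ t : K, t ^ (q ^ 2) = φ (φ t) := by
    intro t
    rw [hφ, hφ, ← pow_mul, pow_two]
  -- the generators are fixed by the twisting endomorphism
  have hGfix : twistedD4 K q ≤ twFix hok φ := by
    show Subgroup.closure {g : GL chevD4.Idx K | ∃ w ∈ d4Words K q,
      (g : Matrix chevD4.Idx chevD4.Idx K) = chevD4.wordMat K w} ≤ _
    rw [Subgroup.closure_le]
    rintro g ⟨w, hw, hg⟩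
    rcases hw with ⟨t, ht, r, hr, rfl⟩ | ⟨t, rs, hrs, rfl⟩
    · have e : g = xU hk r t := Units.ext (by rw [hg]; simp [ChevalleyDatum.wordMat, xU_val])
      rw [e]
      simp only [List.mem_cons, List.not_mem_nil, or_false] at hr
      rcases hr with rfl | rfl
      · exact twS_single_fix hk hok φ (d4_rho_facts (14, 14) (by simp)).1
          (d4_rho_facts (14, 14) (by simp)).2 (d4_eps_facts 14 (by simp)) (by rw [hφ, ht])
      · exact twS_single_fix hk hok φ (d4_rho_facts (9, 9) (by simp)).1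
          (d4_rho_facts (9, 9) (by simp)).2 (d4_eps_facts 9 (by simp)) (by rw [hφ, ht])
    · have e : g = xU hk rs.1 t * xU hk rs.2.1 (t ^ q) * xU hk rs.2.2 (t ^ (q ^ 2)) :=
        Units.ext (by rw [hg]; simp [ChevalleyDatum.wordMat, xU_val, mul_assoc])
      rw [e, e2φ, ← hφ]
      simp only [List.mem_cons, List.not_mem_nil, or_false] at hrs
      rcases hrs with rfl | rfl
      · exact twS_triple_fix hk hok φ (d4_rho_facts (18, 13) (by simp)).1
          (d4_rho_facts (13, 12) (by simp)).1 (d4_rho_facts (12, 18) (by simp)).1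
          (d4_rho_facts (18, 13) (by simp)).2 (d4_rho_facts (13, 12) (by simp)).2
          (d4_rho_facts (12, 18) (by simp)).2 (d4_eps_facts 18 (by simp))
          (d4_eps_facts 13 (by simp)) (d4_eps_facts 12 (by simp)) c13 c14 (hφ3 t)
      · exact twS_triple_fix hk hok φ (d4_rho_facts (5, 10) (by simp)).1
          (d4_rho_facts (10, 11) (by simp)).1 (d4_rho_facts (11, 5) (by simp)).1
          (d4_rho_facts (5, 10) (by simp)).2 (d4_rho_facts (10, 11) (by simp)).2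
          (d4_rho_facts (11, 5) (by simp)).2 (d4_eps_facts 5 (by simp))
          (d4_eps_facts 10 (by simp)) (d4_eps_facts 11 (by simp)) cm1m3 cm1m4 (hφ3 t)
  -- the blocks of root elements in the twisted group
  have hX1 : ∀ t : K, φ t = t → xU hk 14 t ∈ twistedD4 K q := fun t ht =>
    d4_single hk q (r := d4p2) (by simp) (by rw [← hφ, ht])
  have hX2 : ∀ t : K, xU hk 18 t * xU hk 13 (φ t) * xU hk 12 (φ (φ t)) ∈ twistedD4 K q := by
    intro t
    have h := d4_triple (K := K) hk q (rs := (d4p1, d4p3, d4p4)) (by simp) t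
    rwa [e2φ, ← hφ] at h
  obtain ⟨wa1, wa2, wa3, wa4, wa5, wa6, wa7, wa8⟩ := d4_wact_facts
  have hX3 := block3_conj A hok φ O (twistedD4 K q) hGfix [1] hw1 hn1
    (r1 := 18) (r2 := 13) (r3 := 12) (by decide) (by decide) (by decide) (κ := 4) (by decide)
    wa1 wa2 wa3 (by decide) (by decide) (by decide) c_19_16 c_19_15 (d4_rhoSt 7 (by simp))
    (fun t => φ t) (fun t => φ (φ t)) hX2
  have hX4 := block3_conj A hok φ O (twistedD4 K q) hGfix [0, 2, 3] hw023 hn023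
    (r1 := 19) (r2 := 16) (r3 := 15) (by decide) (by decide) (by decide) (κ := 7) (by decide)
    wa4 wa5 wa6 (by decide) (by decide) (by decide) c_17_20 c_17_21 (d4_rhoSt 10 (by simp))
    _ _ hX3
  have hX5 : ∀ t : K, φ t = t → xU hk 22 t ∈ twistedD4 K q :=
    block1_conj A φ (twistedD4 K q) [0, 2, 3] hw023 hn023 (r := 14) (by decide) wa7 hX1
  have hX6 : ∀ t : K, φ t = t → xU hk 23 t ∈ twistedD4 K q :=
    block1_conj A φ (twistedD4 K q) [1] hw1 hn1 (r := 22) (by decide) wa8 hX5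
  have hX2' : ∀ t : K, xU hk 18 t * xU hk 13 (((epsD4a.getD 18 1 : ℤ) : K) * φ t) *
      xU hk 12 (((epsD4a.getD 13 1 : ℤ) : K) * φ (((epsD4a.getD 18 1 : ℤ) : K) * φ t)) ∈
        twistedD4 K q := by
    intro t
    rw [d4_eps_facts 18 (by simp), d4_eps_facts 13 (by simp), Int.cast_one, one_mul, one_mul]
    exact hX2 t
  -- the parametrised elements lie in the twisted group
  have hmemG : ∀ p : K × K × K × K × K × K, φ p.1 = p.1 → φ p.2.2.2.2.1 = p.2.2.2.2.1 →
      φ p.2.2.2.2.2 = p.2.2.2.2.2 → ordW hk d4Ord (d4Coef φ p) 0 12 ∈ twistedD4 K q := by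
    intro p h1 h5 h6
    rw [ordW_succ]
    refine mul_mem (hX1 _ h1) ?_
    rw [ordW_succ3]
    refine mul_mem (hX2' _) ?_
    rw [ordW_succ3]
    refine mul_mem (hX3 _) ?_
    rw [ordW_succ3]
    refine mul_mem (hX4 _) ?_
    rw [ordW_succ]
    refine mul_mem (hX5 _ h5) ?_
    rw [ordW_succ, ordW_zero, mul_one]
    exact hX6 _ h6
  -- every fixed element of `U` is a parametrised element
  have hsurj : ∀ u ∈ chevD4.posUnipotent K, u ∈ twFix hok φ → ∃ p : K × K × K × K × K × K,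
      φ p.1 = p.1 ∧ φ p.2.2.2.2.1 = p.2.2.2.2.1 ∧ φ p.2.2.2.2.2 = p.2.2.2.2.2 ∧
        u = ordW hk d4Ord (d4Coef φ p) 0 12 := by
    intro u hu hfix
    rw [posU_eq_tord A O] at hu
    obtain ⟨c, rfl⟩ := ordW_surj A O 12 0 (by decide) u hu
    have m : ∀ n κ, κ + n ≤ 12 → ordW hk d4Ord c κ n ∈ vSub hk K (TOrd d4Ord κ) 0 :=
      fun n κ h => ordW_mem hk c n κ h
    rw [ordW_succ] at hfix
    obtain ⟨a0, f1⟩ := peel_fix1 A hok φ O (κ := 0) (by decide) (by decide) (by decide)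
      (d4_rhoSt 1 (by simp)) (m 11 1 (by norm_num)) hfix
    rw [ordW_succ3] at f1
    obtain ⟨b1, b2, f4⟩ := peel_fix3 A hok φ O (κ := 1) (by decide) (by decide) (by decide)
      (by decide) c13 c14 (d4_rhoSt 4 (by simp)) (m 8 4 (by norm_num)) f1
    rw [ordW_succ3] at f4
    obtain ⟨c1, c2, f7⟩ := peel_fix3 A hok φ O (κ := 4) (by decide) (by decide) (by decide)
      (by decide) c_19_16 c_19_15 (d4_rhoSt 7 (by simp)) (m 5 7 (by norm_num)) f4
    rw [ordW_succ3] at f7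
    obtain ⟨d1, d2, f10⟩ := peel_fix3 A hok φ O (κ := 7) (by decide) (by decide) (by decide)
      (by decide) c_17_20 c_17_21 (d4_rhoSt 10 (by simp)) (m 2 10 (by norm_num)) f7
    rw [ordW_succ] at f10
    obtain ⟨e0, f11⟩ := peel_fix1 A hok φ O (κ := 10) (by decide) (by decide) (by decide)
      (d4_rhoSt 11 (by simp)) (m 1 11 (by norm_num)) f10
    rw [ordW_succ] at f11
    obtain ⟨g0, -⟩ := peel_fix1 A hok φ O (κ := 11) (by decide) (by decide) (by decide)
      (d4_rhoSt 12 (by simp)) (m 0 12 (by norm_num)) f11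
    have b1' : c 2 = ((epsD4a.getD 18 1 : ℤ) : K) * φ (c 1) := b1
    have b2' : c 3 = ((epsD4a.getD 13 1 : ℤ) : K) * φ (c 2) := b2
    have c1' : c 5 = ((epsD4a.getD 19 1 : ℤ) : K) * φ (c 4) := c1
    have c2' : c 6 = ((epsD4a.getD 16 1 : ℤ) : K) * φ (c 5) := c2
    have d1' : c 8 = ((epsD4a.getD 17 1 : ℤ) : K) * φ (c 7) := d1
    have d2' : c 9 = ((epsD4a.getD 20 1 : ℤ) : K) * φ (c 8) := d2
    have a0' : φ (c 0) = c 0 := a0
    have e0' : φ (c 10) = c 10 := e0
    have g0' : φ (c 11) = c 11 := g0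
    refine ⟨(c 0, c 1, c 4, c 7, c 10, c 11), a0', e0', g0', ?_⟩
    apply ordW_congr
    intro j _ hj
    have hj' : j < 12 := by omega
    interval_cases j
    · rfl
    · rfl
    · exact b1'
    · rw [b1'] at b2'
      exact b2'
    · rfl
    · exact c1'
    · rw [c1'] at c2'
      exact c2'
    · rfl
    · exact d1'
    · rw [d1'] at d2'
      exact d2'
    · rfl
    · rfl
  -- the count
  have hcard0 : Nat.card {t : K // t ^ q = t} = q := card_frob_fixed hq1 (by norm_num) hK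
  have hfix0 : ∀ t : {t : K // t ^ q = t}, φ t.1 = t.1 := fun t => by rw [hφ, t.2]
  let Ψ : {t : K // t ^ q = t} × K × K × K × {t : K // t ^ q = t} × {t : K // t ^ q = t} →
      ↥(chevD4.posUnipotent K ⊓ twistedD4 K q) := fun p =>
    ⟨ordW hk d4Ord (d4Coef φ (p.1.1, p.2.1, p.2.2.1, p.2.2.2.1, p.2.2.2.2.1.1, p.2.2.2.2.2.1)) 0 12,
      by
        rw [posU_eq_tord A O]
        exact ordW_mem hk _ 12 0 (by decide),
      hmemG _ (hfix0 _) (hfix0 _) (hfix0 _)⟩
  have hΨ : Function.Bijective Ψ := by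
    constructor
    · intro p p' h
      have h2 : ordW hk d4Ord (d4Coef φ (p.1.1, p.2.1, p.2.2.1, p.2.2.2.1, p.2.2.2.2.1.1,
          p.2.2.2.2.2.1)) 0 12 = ordW hk d4Ord (d4Coef φ (p'.1.1, p'.2.1, p'.2.2.1, p'.2.2.2.1,
          p'.2.2.2.2.1.1, p'.2.2.2.2.2.1)) 0 12 := congrArg Subtype.val h
      have h3 := ordW_inj A O 12 0 (by decide) h2
      have k0 : p.1.1 = p'.1.1 := h3 0 (by norm_num) (by norm_num)
      have k1 : p.2.1 = p'.2.1 := h3 1 (by norm_num) (by norm_num)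
      have k4 : p.2.2.1 = p'.2.2.1 := h3 4 (by norm_num) (by norm_num)
      have k7 : p.2.2.2.1 = p'.2.2.2.1 := h3 7 (by norm_num) (by norm_num)
      have k10 : p.2.2.2.2.1.1 = p'.2.2.2.2.1.1 := h3 10 (by norm_num) (by norm_num)
      have k11 : p.2.2.2.2.2.1 = p'.2.2.2.2.2.1 := h3 11 (by norm_num) (by norm_num)
      exact Prod.ext (Subtype.ext k0) (Prod.ext k1 (Prod.ext k4 (Prod.ext k7
        (Prod.ext (Subtype.ext k10) (Subtype.ext k11)))))
    · rintro ⟨u, hu⟩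
      obtain ⟨p, h1, h5, h6, rfl⟩ := hsurj u hu.1 (hGfix hu.2)
      refine ⟨(⟨p.1, by rw [← hφ, h1]⟩, p.2.1, p.2.2.1, p.2.2.2.1,
        ⟨p.2.2.2.2.1, by rw [← hφ, h5]⟩, ⟨p.2.2.2.2.2, by rw [← hφ, h6]⟩), ?_⟩
      rfl
  refine ⟨φ, hφ, hGfix, fun u hu hf => ?_, hn1, hn023, hX1 1 (map_one φ), ?_, ?_⟩
  · obtain ⟨p, h1, h5, h6, rfl⟩ := hsurj u hu hf
    exact hmemG p h1 h5 h6
  · have h := hX2 1
    rwa [map_one, map_one] at h
  rw [← Nat.card_congr (Equiv.ofBijective Ψ hΨ), Nat.card_prod, Nat.card_prod, Nat.card_prod,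
    Nat.card_prod, Nat.card_prod, hcard0, Nat.card_eq_fintype_card (α := K), hK]
  ring

/-- The order of `U ∩ ³D₄(q)`. -/
theorem twD4_posU_card {q : ℕ} (hq : IsPrimePow q) (hK : Fintype.card K = q ^ 3) :
    Nat.card ↥(chevD4.posUnipotent K ⊓ twistedD4 K q) = q ^ 12 := by
  have hD : chevD4 ∈ [chevG2, chevB2, chevD4, chevF4, chevE6, chevE7, chevE8] := by
    simp only [List.mem_cons, true_or, or_true]
  obtain ⟨φ, -, -, -, -, -, -, -, h⟩ := twD4_pack hq hK (allok_cert _ hD)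
  exact h

end

end Cfsg.Agent.Lib.Helper9
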