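import Cfsg.Agent.Lib.Helper9.TwBN
import Cfsg.Agent.Lib.Helper9.TwD4U

set_option autoImplicit false

namespace Cfsg.Agent.Lib.Helper9

open Cfsg.Lie
open Cfsg.Agent.Lib.Helper15.ChevGraphEx

/-! ### The `(B, N)`-pair and the simplicity of the twisted group of type `D₄` -/

set_option maxRecDepth 1000000 in
theorem d4_posSt : PosSt chevD4 rhoD4a := by decide +kernel

set_option maxRecDepth 1000000 in
theorem d4_wsq : ∀ w ∈ ([[1], [0, 2, 3]] : List (List ℕ)), ∀ r < chevD4.nroots,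
    wActP (permOf chevD4) (w ++ w) r = r := by decide +kernel

set_option maxRecDepth 1000000 in
theorem d4_wsep : ∀ w ∈ ([[1], [0, 2, 3]] : List (List ℕ)),
    ∀ w' ∈ ([[1], [0, 2, 3]] : List (List ℕ)), w ≠ w' → SepW chevD4 w w' := by decide +kernel

set_option maxRecDepth 1000000 in
theorem d4_wsub : ∀ w ∈ ([[1], [0, 2, 3]] : List (List ℕ)), ∀ w' ∈ w.sublists, w' ≠ [] →
    w' ≠ w → SepW chevD4 w' (w'.map fun i => permD4a.getD i 0) := by decide +kernel

set_option maxRecDepth 1000000 in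
theorem d4_nc : NcW chevD4 [1] [0, 2, 3] := by decide +kernel

set_option maxRecDepth 1000000 in
theorem d4_wact2 : wActP (permOf chevD4) [1] 14 = 9 ∧ wActP (permOf chevD4) [0, 2, 3] 18 = 5 ∧
    wActP (permOf chevD4) [0, 2, 3] 13 = 10 ∧ wActP (permOf chevD4) [0, 2, 3] 12 = 11 := by
  decide +kernel

theorem d4_posneg_facts : chevD4.IsPosRoot 14 ∧ chevD4.IsPosRoot 18 ∧ chevD4.IsPosRoot 13 ∧
    chevD4.IsPosRoot 12 ∧ chevD4.IsNegRoot 9 ∧ chevD4.IsNegRoot 5 ∧ chevD4.IsNegRoot 10 ∧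
    chevD4.IsNegRoot 11 := by decide +kernel

section

variable {K : Type*} [Field K] [Fintype K]

/-- The twisted group of type `D₄` with its twisted reflections. -/
theorem twD4_twPack {q : ℕ} (hq : IsPrimePow q) (hK : Fintype.card K = q ^ 3)
    (A : ALLOK chevD4) :
    ∃ φ : K →+* K, TwPack A graphOK_D4a φ (twistedD4 K q) [[1], [0, 2, 3]] := by
  obtain ⟨φ, hφ, hGfix, hfixU, hn1, hn023, hx14, hx3, -⟩ := twD4_pack hq hK A
  have hk := A.hk
  have O := d4_ordOK
  obtain ⟨wa1, wa2, wa3, wa4⟩ := d4_wact2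
  obtain ⟨p14, p18, p13, p12, m9, m5, m10, m11⟩ := d4_posneg_facts
  have hw1 : ∀ i ∈ ([1] : List ℕ), i < chevD4.rank := by decide
  have hw023 : ∀ i ∈ ([0, 2, 3] : List ℕ), i < chevD4.rank := by decide
  have hxU : ∀ {r : ℕ}, chevD4.IsPosRoot r → ∀ t : K, xU A.hk r t ∈ chevD4.posUnipotent K :=
    fun {r} hr t => Subgroup.subset_closure ⟨r, t, hr, xU_val A.hk r t⟩
  refine ⟨φ, {
    surj := frob_surj φ
    pos := d4_posSt
    le_fix := hGfix
    fixU := hfixU
    wlt := by decide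
    wmem := ?_
    wsq := d4_wsq
    wsep := d4_wsep
    wsub := d4_wsub
    wne := ?_
    gen := ?_ }⟩
  · intro w hw
    simp only [List.mem_cons, List.not_mem_nil, or_false] at hw
    rcases hw with rfl | rfl
    · exact hn1
    · exact hn023
  · intro w hw
    simp only [List.mem_cons, List.not_mem_nil, or_false] at hw
    rcases hw with rfl | rfl
    · refine ⟨xU A.hk 14 1, hx14, hxU p14 1, fun h => one_ne_zero (xU_eq_one A.hk p14.1 h), ?_⟩
      exact nW_conj_neg_mem A hw1 p14.1 (by rw [wa1]; exact m9) 1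
    · refine ⟨xU A.hk 18 1 * xU A.hk 13 1 * xU A.hk 12 1, hx3,
        mul_mem (mul_mem (hxU p18 1) (hxU p13 1)) (hxU p12 1), fun h => ?_, ?_⟩
      · have e : xU A.hk 18 (1 : K) = (xU A.hk 13 1 * xU A.hk 12 1)⁻¹ := by
          rw [eq_inv_iff_mul_eq_one, ← mul_assoc]
          exact h
        have hmem : xU A.hk (d4Ord.getD 1 0) (1 : K) ∈ vSub A.hk K (TOrd d4Ord (1 + 1)) 0 := by
          show xU A.hk 18 (1 : K) ∈ vSub A.hk K (TOrd d4Ord 2) 0
          rw [e]
          exact inv_mem (mul_mem (xU_mem_tord A.hk (ord := d4Ord) (κ := 2) (j := 2) le_rfl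
            (by decide) 1) (xU_mem_tord A.hk (ord := d4Ord) (κ := 2) (j := 3) (by norm_num)
            (by decide) 1))
        exact one_ne_zero (tord_zero A O (κ := 1) (by decide) hmem)
      · have e : nW A.hk K [0, 2, 3] * (xU A.hk 18 1 * xU A.hk 13 1 * xU A.hk 12 1) *
            (nW A.hk K [0, 2, 3])⁻¹ =
            (nW A.hk K [0, 2, 3] * xU A.hk 18 1 * (nW A.hk K [0, 2, 3])⁻¹) *
            (nW A.hk K [0, 2, 3] * xU A.hk 13 1 * (nW A.hk K [0, 2, 3])⁻¹) *
            (nW A.hk K [0, 2, 3] * xU A.hk 12 1 * (nW A.hk K [0, 2, 3])⁻¹) := by group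
        rw [e]
        exact mul_mem (mul_mem (nW_conj_neg_mem A hw023 p18.1 (by rw [wa2]; exact m5) 1)
          (nW_conj_neg_mem A hw023 p13.1 (by rw [wa3]; exact m10) 1))
          (nW_conj_neg_mem A hw023 p12.1 (by rw [wa4]; exact m11) 1)
  · show Subgroup.closure {g : GL chevD4.Idx K | ∃ w ∈ d4Words K q,
      (g : Matrix chevD4.Idx chevD4.Idx K) = chevD4.wordMat K w} ≤ _
    rw [Subgroup.closure_le]
    rintro g ⟨w, hw, hg⟩
    have hgG : g ∈ twistedD4 K q := Subgroup.subset_closure ⟨w, hw, hg⟩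
    rcases hw with ⟨t, ht, r, hr, rfl⟩ | ⟨t, rs, hrs, rfl⟩
    · have e : g = xU A.hk r t := Units.ext (by rw [hg]; simp [ChevalleyDatum.wordMat, xU_val])
      simp only [List.mem_cons, List.not_mem_nil, or_false] at hr
      rcases hr with rfl | rfl
      · exact mem_gen_of_pos A hgG (by rw [e]; exact hxU p14 t)
      · refine mem_gen_of_conj A (w := [1]) (by simp) hn1 hgG ?_
        rw [e]
        exact nW_inv_conj_mem A hw1 p14 wa1 t
    · have e : g = xU A.hk rs.1 t * xU A.hk rs.2.1 (t ^ q) * xU A.hk rs.2.2 (t ^ (q ^ 2)) :=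
        Units.ext (by rw [hg]; simp [ChevalleyDatum.wordMat, xU_val, mul_assoc])
      simp only [List.mem_cons, List.not_mem_nil, or_false] at hrs
      rcases hrs with rfl | rfl
      · exact mem_gen_of_pos A hgG (by
          rw [e]
          exact mul_mem (mul_mem (hxU p18 _) (hxU p13 _)) (hxU p12 _))
      · refine mem_gen_of_conj A (w := [0, 2, 3]) (by simp) hn023 hgG ?_
        rw [e]
        have e2 : (nW A.hk K [0, 2, 3])⁻¹ * (xU A.hk (d4m1, d4m3, d4m4).1 t *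
            xU A.hk (d4m1, d4m3, d4m4).2.1 (t ^ q) *
            xU A.hk (d4m1, d4m3, d4m4).2.2 (t ^ (q ^ 2))) * nW A.hk K [0, 2, 3] =
            ((nW A.hk K [0, 2, 3])⁻¹ * xU A.hk 5 t * nW A.hk K [0, 2, 3]) *
            ((nW A.hk K [0, 2, 3])⁻¹ * xU A.hk 10 (t ^ q) * nW A.hk K [0, 2, 3]) *
            ((nW A.hk K [0, 2, 3])⁻¹ * xU A.hk 11 (t ^ (q ^ 2)) * nW A.hk K [0, 2, 3]) := by
          show (nW A.hk K [0, 2, 3])⁻¹ * (xU A.hk 5 t * xU A.hk 10 (t ^ q) *
            xU A.hk 11 (t ^ (q ^ 2))) * nW A.hk K [0, 2, 3] = _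
          group
        rw [e2]
        exact mul_mem (mul_mem (nW_inv_conj_mem A hw023 p18 wa2 _)
          (nW_inv_conj_mem A hw023 p13 wa3 _)) (nW_inv_conj_mem A hw023 p12 wa4 _)

/-- The `(B, N)`-pair of `³D₄(q)`. -/
theorem twD4_bn_pair {q : ℕ} (hq : IsPrimePow q) (hK : Fintype.card K = q ^ 3) :
    ∃ P : Cfsg.BNPair ↥(twistedD4 K q),
      P.B = (chevD4.borelSubgroup K ⊓ twistedD4 K q).subgroupOf (twistedD4 K q) ∧
      P.N = (chevD4.monomialSubgroup K ⊓ twistedD4 K q).subgroupOf (twistedD4 K q) := by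
  have hD : chevD4 ∈ [chevG2, chevB2, chevD4, chevF4, chevE6, chevE7, chevE8] := by
    simp only [List.mem_cons, true_or, or_true]
  obtain ⟨φ, T⟩ := twD4_twPack hq hK (allok_cert _ hD)
  obtain ⟨P, hB, hN, -⟩ := tw_bn_pair T
  exact ⟨P, hB, hN⟩

/-- `³D₄(q)` is simple. -/
theorem twD4_simple {q : ℕ} (hq : IsPrimePow q) (hK : Fintype.card K = q ^ 3) :
    IsSimpleGroup ↥(twistedD4 K q) ∧ ¬ IsMulCommutative ↥(twistedD4 K q) := by
  have hD : chevD4 ∈ [chevG2, chevB2, chevD4, chevF4, chevE6, chevE7, chevE8] := by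
    simp only [List.mem_cons, true_or, or_true]
  obtain ⟨φ, T⟩ := twD4_twPack hq hK (allok_cert _ hD)
  refine tw_simple T ?_ (by simp) (twD4_perfect hq hK) (twD4_core hK)
  intro j hj
  have hj0 : j = 0 := by
    simp only [List.length_cons, List.length_nil] at hj
    omega
  subst hj0
  exact d4_nc

end

end Cfsg.Agent.Lib.Helper9
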