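import Cfsg.Agent.Lib.Helper9.TwD4BN
import Cfsg.Agent.Lib.Helper9.ThmHCard
import Cfsg.Agent.Lib.Helper9.ThmFieldDecomp

set_option autoImplicit false

namespace Cfsg.Agent.Lib.Helper9

open Cfsg.Lie
open Cfsg.Agent.Lib.Helper15.ChevGraphEx

/-! ### The diagonal subgroup of the twisted group of type `D₄` -/

section general

variable {D : ChevalleyDatum} {K : Type*} [Field K]
  {perm permInv rho rhoInv : List ℕ} {eps : List ℤ}

/-- The character of a diagonal element fixed by the twisting endomorphism is compatible with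
the permutation of the roots. -/
theorem chi_tw_fix (hk : HOK D) (wk : WOK D) (hok : GraphOK D perm permInv rho rhoInv eps)
    (φ : K →+* K) (c : Fin D.rank → Kˣ) (hfix : chiHom D K c ∈ twFix hok φ) {r : ℕ}
    (hr : r < D.nroots) (he : eps.getD r 1 = 1) :
    ((chiV D c (Nat.add D.rank (rho.getD r 0)) : Kˣ) : K) =
      φ ((chiV D c (Nat.add D.rank r) : Kˣ) : K) := by
  have hval : ((chiHom D K c : GL D.Idx K) : Matrix D.Idx D.Idx K) = chiMat D (extU D c) := rfl
  have hρ : rho.getD r 0 < D.nroots := (hok.c1 r hr).1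
  have h1 := chi_conj_xU hk wk (chiHom D K c) (extU D c) (extU_ne_zero c) hval hr (1 : K)
  have h2 := chi_conj_xU hk wk (chiHom D K c) (extU D c) (extU_ne_zero c) hval hρ (φ 1)
  rw [chiN_extU] at h1 h2
  have h3 := congrArg (twS hok φ) h1
  rw [map_mul, map_mul, map_inv, (mem_twFix hok φ _).mp hfix, twS_xU hk hok φ hr,
    twS_xU hk hok φ hr, he, Int.cast_one, one_mul, one_mul, h2] at h3
  have h4 := xU_inj_of hk hρ h3
  simpa using h4

theorem chiV_div (c c' : Fin D.rank → Kˣ) (code : ℕ) :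
    chiV D (c / c') code = chiV D c code / chiV D c' code := by
  unfold chiV
  rw [← Finset.prod_div_distrib]
  apply Finset.prod_congr rfl
  intro i _
  rw [Pi.div_apply, div_zpow]

/-- The diagonal entry of a diagonal element at a root. -/
theorem chiHom_entry (c : Fin D.rank → Kˣ) (s : Fin D.nroots) :
    ((chiHom D K c : GL D.Idx K) : Matrix D.Idx D.Idx K) (Sum.inr s) (Sum.inr s) =
      ((chiV D c (Nat.add D.rank s.val) : Kˣ) : K) := by
  show chiMat D (extU D c) (Sum.inr s) (Sum.inr s) = _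
  rw [chiMat, Matrix.diagonal_apply_eq, chiN_extU]
  rfl

theorem mul3_comm {G : Type*} [Group G] {a1 b1 c1 a2 b2 c2 : G} (h1 : Commute b1 a2)
    (h2 : Commute c1 a2) (h3 : Commute c1 b2) :
    (a1 * a2) * (b1 * b2) * (c1 * c2) = (a1 * b1 * c1) * (a2 * b2 * c2) := by
  have e1 : ∀ X, c1 * (a2 * X) = a2 * (c1 * X) := fun X => by rw [← mul_assoc, h2.eq, mul_assoc]
  have e2 : ∀ X, b1 * (a2 * X) = a2 * (b1 * X) := fun X => by rw [← mul_assoc, h1.eq, mul_assoc]
  have e3 : ∀ X, c1 * (b2 * X) = b2 * (c1 * X) := fun X => by rw [← mul_assoc, h3.eq, mul_assoc]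
  simp only [mul_assoc]
  conv_rhs => rw [e1, e2, e3]

/-- `h_{p_i}(c)` is the diagonal matrix of the powers `c ^ cartanExp`. -/
theorem hMat_cert' (hk : HOK D) {i : ℕ} (hi : i < D.rank) (c : K) (hc : c ≠ 0) :
    D.hMat K (D.simple i) c =
      Matrix.diagonal (fun col : D.Idx => c ^ cartanExp D i (idxCode D col)) := by
  have h := simple_lt D hk.simple hi
  exact hMat_eq_diag D hk.hN (litsOf D) _ h.1 h.2 (hk.xok _ h.1) (hk.xok _ h.2) _ (hk.hdiag i hi)
    c hc

/-- The arithmetic behind the injectivity of the parametrisation of the diagonal subgroup. -/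
theorem tw3_arith {q : ℕ} {u v : K} (hv : v ≠ 0) (hm : (-1 : K) ^ q = -1)
    (h1 : u ^ 2 = v) (h2 : v ^ 2 = u * u ^ q * u ^ (q ^ 2)) (h3 : v ^ q = v) :
    u = 1 ∧ v = 1 := by
  have e1 : (u ^ q) ^ 2 = u ^ 2 := by
    rw [← pow_mul, mul_comm, pow_mul, h1, h3]
  have e2 : (u ^ (q ^ 2)) ^ 2 = u ^ 2 := by
    rw [pow_two q, pow_mul, ← pow_mul, mul_comm, pow_mul, e1, h1, h3]
  have e3 : v ^ 4 = v ^ 3 := by
    have : v ^ 4 = (v ^ 2) ^ 2 := by ring
    rw [this, h2, mul_pow, mul_pow, e1, e2, h1]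
    ring
  have hv1 : v = 1 := by
    have h : v ^ 3 * (v - 1) = 0 := by linear_combination e3
    rcases mul_eq_zero.mp h with h | h
    · exact absurd (pow_eq_zero_iff (by norm_num) |>.mp h) hv
    · exact sub_eq_zero.mp h
  refine ⟨?_, hv1⟩
  rw [hv1] at h1 h2
  have h : (u - 1) * (u + 1) = 0 := by linear_combination h1
  rcases mul_eq_zero.mp h with h | h
  · exact sub_eq_zero.mp h
  · have hu1 : u = -1 := eq_neg_of_add_eq_zero_left h
    rw [hu1, pow_two q, pow_mul, hm, hm] at h2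
    rw [hu1]
    linear_combination -h2

end general

set_option maxRecDepth 1000000 in
theorem d4_cartan_facts : ∀ p ∈ [((0 : ℕ), (18 : ℕ), (2 : ℤ)), (1, 18, -1), (2, 18, 0),
    (3, 18, 0), (0, 14, -1), (1, 14, 2), (2, 14, -1), (3, 14, -1)],
    cartanExp chevD4 p.1 (Nat.add chevD4.rank p.2.1) = p.2.2 := by decide +kernel

section

variable {K : Type*} [Field K]

/-- The diagonal element of the twisted group with the parameters `x`, `y`. -/
def d4Theta (hk : HOK chevD4) (q : ℕ) (x y : K) : GL chevD4.Idx K :=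
  (nrU hk d4p1 x * nrU hk d4p1 (-1)) * (nrU hk d4p3 (x ^ q) * nrU hk d4p3 (-1)) *
    (nrU hk d4p4 (x ^ (q ^ 2)) * nrU hk d4p4 (-1)) * (nrU hk d4p2 y * nrU hk d4p2 (-1))

theorem d4Theta_val (hk : HOK chevD4) (q : ℕ) {x y : K} (hx : x ≠ 0) (hy : y ≠ 0) :
    ((d4Theta hk q x y : GL chevD4.Idx K) : Matrix chevD4.Idx chevD4.Idx K) =
      Matrix.diagonal (fun col : chevD4.Idx =>
        x ^ cartanExp chevD4 0 (idxCode chevD4 col) *
          (x ^ q) ^ cartanExp chevD4 2 (idxCode chevD4 col) *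
          (x ^ (q ^ 2)) ^ cartanExp chevD4 3 (idxCode chevD4 col) *
          y ^ cartanExp chevD4 1 (idxCode chevD4 col)) := by
  obtain ⟨s0, s1, s2, s3⟩ := d4_simple_eq
  unfold d4Theta
  rw [Units.val_mul, Units.val_mul, Units.val_mul, hMat_eq_nrU, hMat_eq_nrU, hMat_eq_nrU,
    hMat_eq_nrU, ← s0, ← s1, ← s2, ← s3, hMat_cert' hk (by decide) x hx,
    hMat_cert' hk (by decide) (x ^ q) (pow_ne_zero _ hx),
    hMat_cert' hk (by decide) (x ^ (q ^ 2)) (pow_ne_zero _ hx),
    hMat_cert' hk (by decide) y hy, Matrix.diagonal_mul_diagonal, Matrix.diagonal_mul_diagonal,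
    Matrix.diagonal_mul_diagonal]

theorem d4Theta_entry (hk : HOK chevD4) (q : ℕ) {x y : K} (hx : x ≠ 0) (hy : y ≠ 0) :
    ((d4Theta hk q x y : GL chevD4.Idx K) : Matrix chevD4.Idx chevD4.Idx K)
        (Sum.inr ⟨18, by decide⟩) (Sum.inr ⟨18, by decide⟩) = x ^ 2 * y⁻¹ ∧
      ((d4Theta hk q x y : GL chevD4.Idx K) : Matrix chevD4.Idx chevD4.Idx K)
        (Sum.inr ⟨14, by decide⟩) (Sum.inr ⟨14, by decide⟩) =
        x⁻¹ * (x ^ q)⁻¹ * (x ^ (q ^ 2))⁻¹ * y ^ 2 := by
  rw [d4Theta_val hk q hx hy, Matrix.diagonal_apply_eq, Matrix.diagonal_apply_eq]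
  have f1 := d4_cartan_facts (0, 18, 2) (by simp)
  have f2 := d4_cartan_facts (1, 18, -1) (by simp)
  have f3 := d4_cartan_facts (2, 18, 0) (by simp)
  have f4 := d4_cartan_facts (3, 18, 0) (by simp)
  have g1 := d4_cartan_facts (0, 14, -1) (by simp)
  have g2 := d4_cartan_facts (1, 14, 2) (by simp)
  have g3 := d4_cartan_facts (2, 14, -1) (by simp)
  have g4 := d4_cartan_facts (3, 14, -1) (by simp)
  constructor
  · rw [show cartanExp chevD4 0 (idxCode chevD4 (Sum.inr ⟨18, by decide⟩)) = 2 from f1,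
      show cartanExp chevD4 1 (idxCode chevD4 (Sum.inr ⟨18, by decide⟩)) = -1 from f2,
      show cartanExp chevD4 2 (idxCode chevD4 (Sum.inr ⟨18, by decide⟩)) = 0 from f3,
      show cartanExp chevD4 3 (idxCode chevD4 (Sum.inr ⟨18, by decide⟩)) = 0 from f4]
    rw [zpow_zero, zpow_zero, zpow_neg_one, mul_one, mul_one, zpow_ofNat]
  · rw [show cartanExp chevD4 0 (idxCode chevD4 (Sum.inr ⟨14, by decide⟩)) = -1 from g1,
      show cartanExp chevD4 1 (idxCode chevD4 (Sum.inr ⟨14, by decide⟩)) = 2 from g2,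
      show cartanExp chevD4 2 (idxCode chevD4 (Sum.inr ⟨14, by decide⟩)) = -1 from g3,
      show cartanExp chevD4 3 (idxCode chevD4 (Sum.inr ⟨14, by decide⟩)) = -1 from g4]
    rw [zpow_neg_one, zpow_neg_one, zpow_neg_one, zpow_ofNat]

end

section

variable {K : Type*} [Field K] [Fintype K]

/-- The diagonal elements of the twisted group with given parameters. -/
theorem d4Theta_mem {q : ℕ} (hK : Fintype.card K = q ^ 3) (hk : HOK chevD4) {x y : K}
    (hx : x ≠ 0) (hy : y ≠ 0) (hyq : y ^ q = y) :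
    d4Theta hk q x y ∈ chevD4.diagonalSubgroup K ⊓ twistedD4 K q := by
  have hm1 : (-1 : K) ^ q = -1 := neg_one_pow_card (n := 3) (by norm_num) hK
  have hm2 : (-1 : K) ^ (q ^ 2) = -1 := by rw [pow_two, pow_mul, hm1, hm1]
  obtain ⟨s0, s1, s2, s3⟩ := d4_simple_eq
  obtain ⟨n0, n1, n2, n3⟩ := d4_negsimple_eq
  obtain ⟨np1, np3, np4, hp1, hp3, hp4, hp2, hm2'⟩ := d4_neg_p
  have c13 : ∀ a b : K, Commute (xU hk d4p1 a) (xU hk d4p3 b) :=
    fun a b => d4_commute hk (by simp) a b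
  have cm13 : ∀ a b : K, Commute (xU hk d4m1 a) (xU hk d4p3 b) :=
    fun a b => d4_commute hk (by simp) a b
  have c1m3 : ∀ a b : K, Commute (xU hk d4p1 a) (xU hk d4m3 b) :=
    fun a b => d4_commute hk (by simp) a b
  have c14 : ∀ a b : K, Commute (xU hk d4p1 a) (xU hk d4p4 b) :=
    fun a b => d4_commute hk (by simp) a b
  have c34 : ∀ a b : K, Commute (xU hk d4p3 a) (xU hk d4p4 b) :=
    fun a b => d4_commute hk (by simp) a b
  have cm14 : ∀ a b : K, Commute (xU hk d4m1 a) (xU hk d4p4 b) :=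
    fun a b => d4_commute hk (by simp) a b
  have cm34 : ∀ a b : K, Commute (xU hk d4m3 a) (xU hk d4p4 b) :=
    fun a b => d4_commute hk (by simp) a b
  have c1m4 : ∀ a b : K, Commute (xU hk d4p1 a) (xU hk d4m4 b) :=
    fun a b => d4_commute hk (by simp) a b
  have c3m4 : ∀ a b : K, Commute (xU hk d4p3 a) (xU hk d4m4 b) :=
    fun a b => d4_commute hk (by simp) a b
  have cm1m3 : ∀ a b : K, Commute (xU hk d4m1 a) (xU hk d4m3 b) := by
    intro a b
    obtain ⟨h1, h2, h3, h4, h5⟩ := d4_comm_facts2 (d4m1, d4m3) (by simp)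
    exact comm_of_terms_nil hk h1 h2 h3 h4 h5 a b
  have cm1m4 : ∀ a b : K, Commute (xU hk d4m1 a) (xU hk d4m4 b) := by
    intro a b
    obtain ⟨h1, h2, h3, h4, h5⟩ := d4_comm_facts2 (d4m1, d4m4) (by simp)
    exact comm_of_terms_nil hk h1 h2 h3 h4 h5 a b
  have cm3m4 : ∀ a b : K, Commute (xU hk d4m3 a) (xU hk d4m4 b) := by
    intro a b
    obtain ⟨h1, h2, h3, h4, h5⟩ := d4_comm_facts2 (d4m3, d4m4) (by simp)
    exact comm_of_terms_nil hk h1 h2 h3 h4 h5 a b
  have hblock : ∀ a : K, nrU hk d4p1 a * nrU hk d4p3 (a ^ q) * nrU hk d4p4 (a ^ (q ^ 2)) ∈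
      twistedD4 K q := by
    intro a
    apply nr_block3 hk _ c13 (by rw [np1]; exact cm13) (by rw [np3]; exact c1m3) c14 c34
      (by rw [np1]; exact cm14) (by rw [np3]; exact cm34) (by rw [np4]; exact c1m4)
      (by rw [np4]; exact c3m4)
    · exact d4_triple hk q (rs := (d4p1, d4p3, d4p4)) (by simp) a
    · rw [np1, np3, np4]
      have h := d4_triple (K := K) hk q (rs := (d4m1, d4m3, d4m4)) (by simp) (-a⁻¹)
      have e : (-a⁻¹) ^ q = -(a ^ q)⁻¹ := by
        rw [neg_pow, hm1, inv_pow]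
        ring
      have e' : (-a⁻¹) ^ (q ^ 2) = -(a ^ (q ^ 2))⁻¹ := by
        rw [neg_pow, hm2, inv_pow]
        ring
      rwa [e, e'] at h
  have hN13 : ∀ a b : K, Commute (nrU hk d4p1 a) (nrU hk d4p3 b) :=
    nrU_commute hk c13 (by rw [np1]; exact cm13) (by rw [np3]; exact c1m3)
      (by rw [np1, np3]; exact cm1m3)
  have hN14 : ∀ a b : K, Commute (nrU hk d4p1 a) (nrU hk d4p4 b) :=
    nrU_commute hk c14 (by rw [np1]; exact cm14) (by rw [np4]; exact c1m4)
      (by rw [np1, np4]; exact cm1m4)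
  have hN34 : ∀ a b : K, Commute (nrU hk d4p3 a) (nrU hk d4p4 b) :=
    nrU_commute hk c34 (by rw [np3]; exact cm34) (by rw [np4]; exact c3m4)
      (by rw [np3, np4]; exact cm3m4)
  rw [Subgroup.mem_inf]
  constructor
  · exact mul_mem (mul_mem (mul_mem (hrU_mem hk hp1 hx) (hrU_mem hk hp3 (pow_ne_zero _ hx)))
      (hrU_mem hk hp4 (pow_ne_zero _ hx))) (hrU_mem hk hp2 hy)
  · unfold d4Theta
    apply mul_mem
    · rw [mul3_comm (hN13 _ _).symm (hN14 _ _).symm (hN34 _ _).symm]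
      apply mul_mem (hblock x)
      have h := hblock (-1)
      rwa [hm1, hm2] at h
    · have hs : ∀ t : K, t ^ q = t → nrU hk d4p2 t ∈ twistedD4 K q := by
        intro t ht
        unfold nrU
        have hn : chevD4.neg d4p2 = d4m2 := by rw [← s1]; exact n1
        rw [hn]
        have e : (-t⁻¹) ^ q = -t⁻¹ := by
          rw [neg_pow, hm1, inv_pow, ht]
          ring
        exact mul_mem (mul_mem (d4_single hk q (by simp) ht) (d4_single hk q (by simp) e))
          (d4_single hk q (by simp) ht)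
      exact mul_mem (hs y hyq) (hs (-1) hm1)

/-- The parametrisation of the diagonal subgroup of the twisted group is injective. -/
theorem d4Theta_inj {q : ℕ} (hK : Fintype.card K = q ^ 3) (hk : HOK chevD4) {x y x' y' : K}
    (hx : x ≠ 0) (hy : y ≠ 0) (hyq : y ^ q = y) (hx' : x' ≠ 0) (hy' : y' ≠ 0)
    (hyq' : y' ^ q = y') (h : d4Theta hk q x y = d4Theta hk q x' y') : x = x' ∧ y = y' := by
  have hm1 : (-1 : K) ^ q = -1 := neg_one_pow_card (n := 3) (by norm_num) hK
  obtain ⟨a1, a2⟩ := d4Theta_entry hk q hx hy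
  obtain ⟨b1, b2⟩ := d4Theta_entry hk q hx' hy'
  rw [h, b1] at a1
  rw [h, b2] at a2
  have hX : x ^ q ≠ 0 := pow_ne_zero _ hx
  have hX' : x' ^ q ≠ 0 := pow_ne_zero _ hx'
  have hZ : x ^ (q ^ 2) ≠ 0 := pow_ne_zero _ hx
  have hZ' : x' ^ (q ^ 2) ≠ 0 := pow_ne_zero _ hx'
  have h1 : (x / x') ^ 2 = y / y' := by
    rw [div_pow, div_eq_div_iff (pow_ne_zero 2 hx') hy']
    have e := a1
    field_simp at e
    linear_combination -e
  have h2 : (y / y') ^ 2 = x / x' * (x / x') ^ q * (x / x') ^ (q ^ 2) := by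
    rw [div_pow, div_pow, div_pow, div_mul_div_comm, div_mul_div_comm,
      div_eq_div_iff (pow_ne_zero 2 hy') (mul_ne_zero (mul_ne_zero hx' hX') hZ')]
    have e := a2
    generalize x ^ q = X at e hX ⊢
    generalize x' ^ q = X' at e hX' ⊢
    generalize x ^ (q ^ 2) = Z at e hZ ⊢
    generalize x' ^ (q ^ 2) = Z' at e hZ' ⊢
    field_simp at e
    linear_combination -e
  have h3 : (y / y') ^ q = y / y' := by rw [div_pow, hyq, hyq']
  obtain ⟨e1, e2⟩ := tw3_arith (div_ne_zero hy hy') hm1 h1 h2 h3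
  exact ⟨(div_eq_one_iff_eq hx').mp e1, (div_eq_one_iff_eq hy').mp e2⟩

/-- `|H ∩ ³D₄(q)| = (q - 1)² (q² + q + 1)`. -/
theorem twD4_card_diag {q : ℕ} (hq : IsPrimePow q) (hK : Fintype.card K = q ^ 3) :
    Nat.card ↥(chevD4.diagonalSubgroup K ⊓ twistedD4 K q) = (q - 1) ^ 2 * (q ^ 2 + q + 1) := by
  classical
  have hD : chevD4 ∈ [chevG2, chevB2, chevD4, chevF4, chevE6, chevE7, chevE8] := by
    simp only [List.mem_cons, true_or, or_true]
  have A := allok_cert _ hD
  have hk := A.hk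
  obtain ⟨φ, hφ, hle, -, -, -, -, -, -⟩ := twD4_pack hq hK A
  have hq1 : 1 < q := hq.one_lt
  obtain ⟨s0, s1, s2, s3⟩ := d4_simple_eq
  have hKq : Nat.card (powMonoidHom (q - 1) : Kˣ →* Kˣ).ker = q - 1 := by
    rw [IsCyclic.card_powMonoidHom_ker, Nat.card_units, Nat.card_eq_fintype_card, hK]
    apply Nat.gcd_eq_right
    exact Nat.sub_one_dvd_pow_sub_one q 3
  have hKq_mem : ∀ y : Kˣ, y ∈ (powMonoidHom (q - 1) : Kˣ →* Kˣ).ker ↔ (y : K) ^ q = y := by
    intro y
    rw [MonoidHom.mem_ker, powMonoidHom_apply]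
    have e : (y : K) ^ q = (y : K) ^ (q - 1) * y := by
      rw [← pow_succ]
      congr 1
      omega
    rw [e]
    constructor
    · intro h
      rw [← Units.val_pow_eq_pow_val, h, Units.val_one, one_mul]
    · intro h
      apply Units.ext
      rw [Units.val_pow_eq_pow_val, Units.val_one]
      exact mul_right_cancel₀ y.ne_zero (by rw [h, one_mul])
  have hT : Nat.card (Kˣ × ↥(powMonoidHom (q - 1) : Kˣ →* Kˣ).ker) = (q ^ 3 - 1) * (q - 1) := by
    rw [Nat.card_prod, hKq, Nat.card_units, Nat.card_eq_fintype_card, hK]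
  have hex : ∀ h : ↥(chevD4.diagonalSubgroup K ⊓ twistedD4 K q),
      ∃ c : Fin chevD4.rank → Kˣ, chiHom chevD4 K c = h.1 := by
    intro h
    have h1 : h.1 ∈ (chiHom chevD4 K).range := by
      rw [chiHom_range hk A.ak]
      exact (Subgroup.mem_inf.mp h.2).1
    exact h1
  choose cc hcc using hex
  have hccfix : ∀ h, chiHom chevD4 K (cc h) ∈ twFix graphOK_D4a φ := fun h => by
    rw [hcc]
    exact hle (Subgroup.mem_inf.mp h.2).2
  have r14 := d4_rho_facts (14, 14) (by simp)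
  have r18 := d4_rho_facts (18, 13) (by simp)
  have r13 := d4_rho_facts (13, 12) (by simp)
  have e14 := d4_eps_facts 14 (by simp)
  have e18 := d4_eps_facts 18 (by simp)
  have e13 := d4_eps_facts 13 (by simp)
  have hfix14 : ∀ c : Fin chevD4.rank → Kˣ, chiHom chevD4 K c ∈ twFix graphOK_D4a φ →
      ((chiV chevD4 c (Nat.add chevD4.rank 14) : Kˣ) : K) ^ q =
        chiV chevD4 c (Nat.add chevD4.rank 14) := by
    intro c hc
    have h := chi_tw_fix hk A.wk graphOK_D4a φ c hc r14.1 e14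
    rw [r14.2, hφ] at h
    exact h.symm
  have hfix13 : ∀ c : Fin chevD4.rank → Kˣ, chiHom chevD4 K c ∈ twFix graphOK_D4a φ →
      ((chiV chevD4 c (Nat.add chevD4.rank 13) : Kˣ) : K) =
        φ (chiV chevD4 c (Nat.add chevD4.rank 18)) := by
    intro c hc
    have h := chi_tw_fix hk A.wk graphOK_D4a φ c hc r18.1 e18
    rwa [r18.2] at h
  have hfix12 : ∀ c : Fin chevD4.rank → Kˣ, chiHom chevD4 K c ∈ twFix graphOK_D4a φ →
      ((chiV chevD4 c (Nat.add chevD4.rank 12) : Kˣ) : K) =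
        φ (chiV chevD4 c (Nat.add chevD4.rank 13)) := by
    intro c hc
    have h := chi_tw_fix hk A.wk graphOK_D4a φ c hc r13.1 e13
    rwa [r13.2] at h
  have hker : ∀ c : Fin chevD4.rank → Kˣ, chiHom chevD4 K c ∈ twFix graphOK_D4a φ →
      chiV chevD4 c (Nat.add chevD4.rank 18) = 1 → chiV chevD4 c (Nat.add chevD4.rank 14) = 1 →
      chiHom chevD4 K c = 1 := by
    intro c hc h18 h14
    have h13 : chiV chevD4 c (Nat.add chevD4.rank 13) = 1 := by
      apply Units.ext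
      rw [hfix13 c hc, h18, Units.val_one, map_one]
    have h12 : chiV chevD4 c (Nat.add chevD4.rank 12) = 1 := by
      apply Units.ext
      rw [hfix12 c hc, h13, Units.val_one, map_one]
    rw [chiHom_eq_one_iff]
    intro s hs
    apply chiV_all hk A.nk A.xk A.ok A.uk c _ _ s hs rfl
    intro j hj
    have hj4 : j < 4 := hj
    interval_cases j
    · rw [s0]
      exact h18
    · rw [s1]
      exact h14
    · rw [s2]
      exact h13
    · rw [s3]
      exact h12
  have hΨ : Nat.card ↥(chevD4.diagonalSubgroup K ⊓ twistedD4 K q) ≤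
      Nat.card (Kˣ × ↥(powMonoidHom (q - 1) : Kˣ →* Kˣ).ker) := by
    apply Nat.card_le_card_of_injective
      (fun h : ↥(chevD4.diagonalSubgroup K ⊓ twistedD4 K q) =>
        ((chiV chevD4 (cc h) (Nat.add chevD4.rank 18),
          ⟨chiV chevD4 (cc h) (Nat.add chevD4.rank 14),
            (hKq_mem _).mpr (hfix14 _ (hccfix h))⟩) :
          Kˣ × ↥(powMonoidHom (q - 1) : Kˣ →* Kˣ).ker))
    intro h h' e
    have e1 : chiV chevD4 (cc h) (Nat.add chevD4.rank 18) =
        chiV chevD4 (cc h') (Nat.add chevD4.rank 18) := congrArg Prod.fst e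
    have e2 : chiV chevD4 (cc h) (Nat.add chevD4.rank 14) =
        chiV chevD4 (cc h') (Nat.add chevD4.rank 14) :=
      congrArg (fun p : Kˣ × ↥(powMonoidHom (q - 1) : Kˣ →* Kˣ).ker => (p.2 : Kˣ)) e
    have h3 := hker (cc h / cc h') (by rw [map_div]; exact div_mem (hccfix h) (hccfix h'))
      (by rw [chiV_div, e1, div_self']) (by rw [chiV_div, e2, div_self'])
    rw [map_div, div_eq_one, hcc, hcc] at h3
    exact Subtype.ext h3
  have hΘ : Nat.card (Kˣ × ↥(powMonoidHom (q - 1) : Kˣ →* Kˣ).ker) ≤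
      Nat.card ↥(chevD4.diagonalSubgroup K ⊓ twistedD4 K q) := by
    apply Nat.card_le_card_of_injective
      (fun p : Kˣ × ↥(powMonoidHom (q - 1) : Kˣ →* Kˣ).ker =>
        (⟨d4Theta hk q (p.1 : K) ((p.2 : Kˣ) : K),
          d4Theta_mem hK hk p.1.ne_zero (p.2 : Kˣ).ne_zero ((hKq_mem _).mp p.2.2)⟩ :
          ↥(chevD4.diagonalSubgroup K ⊓ twistedD4 K q)))
    intro p p' e
    have e1 : d4Theta hk q (p.1 : K) ((p.2 : Kˣ) : K) =
        d4Theta hk q (p'.1 : K) ((p'.2 : Kˣ) : K) := congrArg Subtype.val e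
    obtain ⟨f1, f2⟩ := d4Theta_inj hK hk p.1.ne_zero (p.2 : Kˣ).ne_zero ((hKq_mem _).mp p.2.2)
      p'.1.ne_zero (p'.2 : Kˣ).ne_zero ((hKq_mem _).mp p'.2.2) e1
    exact Prod.ext (Units.ext f1) (Subtype.ext (Units.ext f2))
  have hcard := le_antisymm hΨ hΘ
  rw [hcard, hT]
  obtain ⟨m, rfl⟩ : ∃ m, q = m + 1 := ⟨q - 1, by omega⟩
  have e3 : (m + 1) ^ 3 - 1 = m * ((m + 1) ^ 2 + (m + 1) + 1) := by
    have : (m + 1) ^ 3 = m * ((m + 1) ^ 2 + (m + 1) + 1) + 1 := by ring
    omega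
  rw [e3, Nat.add_sub_cancel]
  ring

end

end Cfsg.Agent.Lib.Helper9
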