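import Cfsg.Agent.Lib.Helper9.TwCard
import Cfsg.Agent.Lib.Helper9.TwD4H

set_option autoImplicit false

namespace Cfsg.Agent.Lib.Helper9

open Cfsg.Lie
open Cfsg.Agent.Lib.Helper4
open Cfsg.Agent.Lib.Helper15.ChevGraphEx

/-! ### The order of the twisted group of type `D₄` -/

/-- The twelve elements of the Weyl group of the twisted group of type `D₄`, as words in the
twisted reflections. -/
def d4Blocks : List (List (List ℕ)) :=
  [[], [[1]], [[0, 2, 3], [1]], [[1], [0, 2, 3], [1]], [[0, 2, 3], [1], [0, 2, 3], [1]],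
    [[1], [0, 2, 3], [1], [0, 2, 3], [1]], [[0, 2, 3], [1], [0, 2, 3], [1], [0, 2, 3], [1]],
    [[0, 2, 3]], [[1], [0, 2, 3]], [[0, 2, 3], [1], [0, 2, 3]], [[1], [0, 2, 3], [1], [0, 2, 3]],
    [[0, 2, 3], [1], [0, 2, 3], [1], [0, 2, 3]]]

/-- The same elements as words in the fundamental reflections. -/
def d4Tbl : List (List ℕ) := d4Blocks.map List.flatten

theorem d4_tbl_eq : d4Tbl = [[], [1], [0, 2, 3, 1], [1, 0, 2, 3, 1], [0, 2, 3, 1, 0, 2, 3, 1],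
    [1, 0, 2, 3, 1, 0, 2, 3, 1], [0, 2, 3, 1, 0, 2, 3, 1, 0, 2, 3, 1], [0, 2, 3], [1, 0, 2, 3],
    [0, 2, 3, 1, 0, 2, 3], [1, 0, 2, 3, 1, 0, 2, 3], [0, 2, 3, 1, 0, 2, 3, 1, 0, 2, 3]] := by
  decide

theorem d4_tbl_nodup : d4Tbl.Nodup := by decide

theorem d4_tbl_nil : [] ∈ d4Tbl := by decide

theorem d4_tbl_lt : ∀ w ∈ d4Tbl, ∀ i ∈ w, i < chevD4.rank := by decide

theorem d4_blocks_mem : ∀ L ∈ d4Blocks, ∀ blk ∈ L, blk ∈ [[1], [0, 2, 3]] := by decide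

set_option maxRecDepth 1000000 in
theorem d4_tbl_closed : TblClosed chevD4 [[1], [0, 2, 3]] d4Tbl := by decide +kernel

set_option maxRecDepth 1000000 in
theorem d4_tbl_sep : ∀ w ∈ d4Tbl, ∀ w' ∈ d4Tbl, w ≠ w' → SepW chevD4 w w' := by decide +kernel

/-- The steps of the two chains from the identity to the longest element. -/
def d4Steps : List (List ℕ × List ℕ) :=
  [([0, 2, 3], [1]), ([1], [0, 2, 3, 1]), ([0, 2, 3], [1, 0, 2, 3, 1]),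
    ([1], [0, 2, 3, 1, 0, 2, 3, 1]), ([0, 2, 3], [1, 0, 2, 3, 1, 0, 2, 3, 1]),
    ([1], [0, 2, 3]), ([0, 2, 3], [1, 0, 2, 3]), ([1], [0, 2, 3, 1, 0, 2, 3]),
    ([0, 2, 3], [1, 0, 2, 3, 1, 0, 2, 3])]

set_option maxRecDepth 1000000 in
theorem d4_steps : ∀ p ∈ d4Steps, p.1 ∈ [[1], [0, 2, 3]] ∧ p.2 ∈ d4Tbl ∧
    lenAddB chevD4 p.1 p.2 = true ∧ SepW chevD4 (p.1 ++ p.2) p.2 := by decide +kernel

set_option maxRecDepth 1000000 in
theorem d4_w0_fact : ∀ r < chevD4.nroots, chevD4.IsPosRoot r →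
    chevD4.IsNegRoot (wActP (permOf chevD4) [0, 2, 3, 1, 0, 2, 3, 1, 0, 2, 3, 1] r) := by
  decide +kernel

set_option maxRecDepth 1000000 in
theorem d4_a_fact : (∀ r < chevD4.nroots, chevD4.IsPosRoot r →
    chevD4.IsNegRoot (wActP (permOf chevD4) [1] r) → r = 14) ∧ chevD4.IsPosRoot 14 ∧
    chevD4.IsNegRoot (wActP (permOf chevD4) [1] 14) := by
  decide +kernel

section

variable {K : Type*} [Field K] [Fintype K]

/-- The fixed points in `U_a⁻` for the twisted reflection `a`. -/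
theorem d4_unegA_card {q : ℕ} (hq : IsPrimePow q) (hK : Fintype.card K = q ^ 3)
    (A : ALLOK chevD4) :
    Nat.card ↥(unegSub chevD4 K (nW A.hk K [1]) ⊓ twistedD4 K q) = q := by
  obtain ⟨φ, hφ, hle, -, -, -, -, -, -⟩ := twD4_pack hq hK A
  obtain ⟨hone, hp14, hn14⟩ := d4_a_fact
  have hw1 : ∀ i ∈ ([1] : List ℕ), i < chevD4.rank := by decide
  have r14 := d4_rho_facts (14, 14) (by simp)
  have e14 := d4_eps_facts 14 (by simp)
  have hform : ∀ g ∈ unegSub chevD4 K (nW A.hk K [1]), ∃ t : K, g = xU A.hk 14 t := by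
    intro g hg
    unfold unegSub at hg
    induction hg using Subgroup.closure_induction with
    | mem x hx =>
      obtain ⟨r, t, hr, hle', hx⟩ := hx
      obtain ⟨hlt, η, hη, h2⟩ := nW_conj (F := K) A.hk A.nk A.xk [1] hw1 r hr.1
      have hneg := neg_of_map_le A.hk A.wk A.lk A.ak hr.1 hlt hle' h2
      have h14 := hone r hr.1 hr hneg
      rw [h14] at hx
      exact ⟨t, eq_xU A.hk hx⟩
    | one => exact ⟨0, (xU_zero A.hk 14).symm⟩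
    | mul a b _ _ iha ihb =>
      obtain ⟨t, rfl⟩ := iha
      obtain ⟨u, rfl⟩ := ihb
      exact ⟨t + u, xU_mul A.hk 14 t u⟩
    | inv a _ iha =>
      obtain ⟨t, rfl⟩ := iha
      exact ⟨-t, xU_inv A.hk 14 t⟩
  have hmem : ∀ t : K, xU A.hk 14 t ∈ unegSub chevD4 K (nW A.hk K [1]) := by
    intro t
    obtain ⟨hlt, η, hη, h2⟩ := nW_conj (F := K) A.hk A.nk A.xk [1] hw1 14 hp14.1
    exact xU_mem_uneg A.hk (η : K) hp14 hn14 h2 t
  refine Eq.trans ?_ (card_frob_fixed hq.one_lt (by norm_num : (3 : ℕ) ≠ 0) hK)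
  symm
  apply Nat.card_congr
  refine Equiv.ofBijective (fun t : {t : K // t ^ q = t} =>
    (⟨xU A.hk 14 (t : K), Subgroup.mem_inf.mpr ⟨hmem t, d4_single A.hk q (by simp [d4p2]) t.2⟩⟩ :
      ↥(unegSub chevD4 K (nW A.hk K [1]) ⊓ twistedD4 K q))) ⟨?_, ?_⟩
  · intro t t' e
    exact Subtype.ext (xU_inj_of A.hk hp14.1 (congrArg Subtype.val e))
  · rintro ⟨g, hg⟩
    obtain ⟨hg1, hg2⟩ := Subgroup.mem_inf.mp hg
    obtain ⟨t, rfl⟩ := hform g hg1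
    have hfix : twS graphOK_D4a φ (xU A.hk 14 t) = xU A.hk 14 t := hle hg2
    rw [twS_xU A.hk graphOK_D4a φ r14.1, r14.2, e14, Int.cast_one, one_mul] at hfix
    have ht : φ t = t := xU_inj_of A.hk hp14.1 hfix
    rw [hφ] at ht
    exact ⟨⟨t, ht⟩, rfl⟩

omit [Fintype K] in
/-- The subgroup `U_w⁻` of the longest element is `U`. -/
theorem d4_unegW0 (A : ALLOK chevD4) :
    unegSub chevD4 K (nW A.hk K [0, 2, 3, 1, 0, 2, 3, 1, 0, 2, 3, 1]) = chevD4.posUnipotent K := by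
  apply le_antisymm (uneg_le_pos _)
  have hw : ∀ i ∈ ([0, 2, 3, 1, 0, 2, 3, 1, 0, 2, 3, 1] : List ℕ), i < chevD4.rank := by decide
  unfold ChevalleyDatum.posUnipotent
  rw [Subgroup.closure_le]
  rintro g ⟨r, t, hr, hg⟩
  rw [eq_xU A.hk hg]
  obtain ⟨hlt, η, hη, h2⟩ := nW_conj (F := K) A.hk A.nk A.xk _ hw r hr.1
  exact xU_mem_uneg A.hk (η : K) hr (d4_w0_fact r hr.1 hr) h2 t

/-- `|³D₄(q)| = q¹² (q² - 1)(q⁶ - 1)(q⁸ + q⁴ + 1)`. -/
theorem twD4_card {q : ℕ} (hq : IsPrimePow q) (hK : Fintype.card K = q ^ 3) :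
    Nat.card ↥(twistedD4 K q) = q ^ 12 * (q ^ 2 - 1) * (q ^ 6 - 1) * (q ^ 8 + q ^ 4 + 1) := by
  have hD : chevD4 ∈ [chevG2, chevB2, chevD4, chevF4, chevE6, chevE7, chevE8] := by
    simp only [List.mem_cons, true_or, or_true]
  have A := allok_cert _ hD
  obtain ⟨φ, T⟩ := twD4_twPack hq hK A
  have hq1 : 1 < q := hq.one_lt
  have hβ : Nat.card ↥(chevD4.borelSubgroup K ⊓ twistedD4 K q) =
      q ^ 12 * ((q - 1) ^ 2 * (q ^ 2 + q + 1)) := by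
    rw [T.card_borel, twD4_posU_card hq hK, twD4_card_diag hq hK]
  have hβpos : 0 < Nat.card ↥(chevD4.borelSubgroup K ⊓ twistedD4 K q) := Nat.card_pos
  have htG : ∀ w ∈ d4Tbl, nW A.hk K w ∈ twistedD4 K q := by
    intro w hw
    obtain ⟨L, hL, rfl⟩ := List.mem_map.mp hw
    exact nW_flatten_mem A.hk _ L (fun blk hblk => T.wmem blk (d4_blocks_mem L hL blk hblk))
  have hcard := T.card_eq d4_tbl_nodup d4_tbl_nil d4_tbl_lt htG d4_tbl_closed d4_tbl_sep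
  have hdc : ∀ w ∈ d4Tbl, Nat.card (dcSet (chevD4.borelSubgroup K ⊓ twistedD4 K q)
      (nW A.hk K w)) = Nat.card ↥(chevD4.borelSubgroup K ⊓ twistedD4 K q) *
        Nat.card ↥(unegSub chevD4 K (nW A.hk K w) ⊓ twistedD4 K q) :=
    fun w hw => T.dc_card (nW_mem A.hk w (d4_tbl_lt w hw)) (htG w hw)
  have step : ∀ p ∈ d4Steps,
      Nat.card ↥(unegSub chevD4 K (nW A.hk K p.1) ⊓ twistedD4 K q) *
        Nat.card ↥(unegSub chevD4 K (nW A.hk K p.2) ⊓ twistedD4 K q) =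
      Nat.card ↥(unegSub chevD4 K (nW A.hk K (p.1 ++ p.2)) ⊓ twistedD4 K q) := by
    intro p hp
    obtain ⟨h1, h2, h3, h4⟩ := d4_steps p hp
    exact T.uneg_card_mul h1 (d4_tbl_lt p.2 h2) (htG p.2 h2) h3 h4
  have ia : Nat.card ↥(unegSub chevD4 K (nW A.hk K [1]) ⊓ twistedD4 K q) = q :=
    d4_unegA_card hq hK A
  have iw0 : Nat.card ↥(unegSub chevD4 K (nW A.hk K [0, 2, 3, 1, 0, 2, 3, 1, 0, 2, 3, 1]) ⊓
      twistedD4 K q) = q ^ 12 := by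
    rw [d4_unegW0 A, twD4_posU_card hq hK]
  have i0 : Nat.card ↥(unegSub chevD4 K (nW A.hk K []) ⊓ twistedD4 K q) = 1 := by
    have h := hdc [] d4_tbl_nil
    have e1 : nW A.hk K [] = 1 := by simp [nW]
    have e2 : Nat.card (dcSet (chevD4.borelSubgroup K ⊓ twistedD4 K q) (nW A.hk K [])) =
        Nat.card ↥(chevD4.borelSubgroup K ⊓ twistedD4 K q) := by
      rw [e1, dcSet_one]
      rfl
    rw [e2] at h
    exact (Nat.eq_of_mul_eq_mul_left hβpos (by rw [mul_one]; exact h)).symm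
  have s1 : Nat.card ↥(unegSub chevD4 K (nW A.hk K [0, 2, 3]) ⊓ twistedD4 K q) *
      Nat.card ↥(unegSub chevD4 K (nW A.hk K [1]) ⊓ twistedD4 K q) =
      Nat.card ↥(unegSub chevD4 K (nW A.hk K [0, 2, 3, 1]) ⊓ twistedD4 K q) :=
    step ([0, 2, 3], [1]) (by simp [d4Steps])
  have s2 : Nat.card ↥(unegSub chevD4 K (nW A.hk K [1]) ⊓ twistedD4 K q) *
      Nat.card ↥(unegSub chevD4 K (nW A.hk K [0, 2, 3, 1]) ⊓ twistedD4 K q) =
      Nat.card ↥(unegSub chevD4 K (nW A.hk K [1, 0, 2, 3, 1]) ⊓ twistedD4 K q) :=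
    step ([1], [0, 2, 3, 1]) (by simp [d4Steps])
  have s3 : Nat.card ↥(unegSub chevD4 K (nW A.hk K [0, 2, 3]) ⊓ twistedD4 K q) *
      Nat.card ↥(unegSub chevD4 K (nW A.hk K [1, 0, 2, 3, 1]) ⊓ twistedD4 K q) =
      Nat.card ↥(unegSub chevD4 K (nW A.hk K [0, 2, 3, 1, 0, 2, 3, 1]) ⊓ twistedD4 K q) :=
    step ([0, 2, 3], [1, 0, 2, 3, 1]) (by simp [d4Steps])
  have s4 : Nat.card ↥(unegSub chevD4 K (nW A.hk K [1]) ⊓ twistedD4 K q) *
      Nat.card ↥(unegSub chevD4 K (nW A.hk K [0, 2, 3, 1, 0, 2, 3, 1]) ⊓ twistedD4 K q) =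
      Nat.card ↥(unegSub chevD4 K (nW A.hk K [1, 0, 2, 3, 1, 0, 2, 3, 1]) ⊓ twistedD4 K q) :=
    step ([1], [0, 2, 3, 1, 0, 2, 3, 1]) (by simp [d4Steps])
  have s5 : Nat.card ↥(unegSub chevD4 K (nW A.hk K [0, 2, 3]) ⊓ twistedD4 K q) *
      Nat.card ↥(unegSub chevD4 K (nW A.hk K [1, 0, 2, 3, 1, 0, 2, 3, 1]) ⊓ twistedD4 K q) =
      Nat.card ↥(unegSub chevD4 K (nW A.hk K [0, 2, 3, 1, 0, 2, 3, 1, 0, 2, 3, 1]) ⊓
        twistedD4 K q) :=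
    step ([0, 2, 3], [1, 0, 2, 3, 1, 0, 2, 3, 1]) (by simp [d4Steps])
  have f1 : Nat.card ↥(unegSub chevD4 K (nW A.hk K [1]) ⊓ twistedD4 K q) *
      Nat.card ↥(unegSub chevD4 K (nW A.hk K [0, 2, 3]) ⊓ twistedD4 K q) =
      Nat.card ↥(unegSub chevD4 K (nW A.hk K [1, 0, 2, 3]) ⊓ twistedD4 K q) :=
    step ([1], [0, 2, 3]) (by simp [d4Steps])
  have f2 : Nat.card ↥(unegSub chevD4 K (nW A.hk K [0, 2, 3]) ⊓ twistedD4 K q) *
      Nat.card ↥(unegSub chevD4 K (nW A.hk K [1, 0, 2, 3]) ⊓ twistedD4 K q) =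
      Nat.card ↥(unegSub chevD4 K (nW A.hk K [0, 2, 3, 1, 0, 2, 3]) ⊓ twistedD4 K q) :=
    step ([0, 2, 3], [1, 0, 2, 3]) (by simp [d4Steps])
  have f3 : Nat.card ↥(unegSub chevD4 K (nW A.hk K [1]) ⊓ twistedD4 K q) *
      Nat.card ↥(unegSub chevD4 K (nW A.hk K [0, 2, 3, 1, 0, 2, 3]) ⊓ twistedD4 K q) =
      Nat.card ↥(unegSub chevD4 K (nW A.hk K [1, 0, 2, 3, 1, 0, 2, 3]) ⊓ twistedD4 K q) :=
    step ([1], [0, 2, 3, 1, 0, 2, 3]) (by simp [d4Steps])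
  have f4 : Nat.card ↥(unegSub chevD4 K (nW A.hk K [0, 2, 3]) ⊓ twistedD4 K q) *
      Nat.card ↥(unegSub chevD4 K (nW A.hk K [1, 0, 2, 3, 1, 0, 2, 3]) ⊓ twistedD4 K q) =
      Nat.card ↥(unegSub chevD4 K (nW A.hk K [0, 2, 3, 1, 0, 2, 3, 1, 0, 2, 3]) ⊓
        twistedD4 K q) :=
    step ([0, 2, 3], [1, 0, 2, 3, 1, 0, 2, 3]) (by simp [d4Steps])
  have ib : Nat.card ↥(unegSub chevD4 K (nW A.hk K [0, 2, 3]) ⊓ twistedD4 K q) = q ^ 3 := by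
    have s5' := s5
    rw [iw0, ← s4, ← s3, ← s2, ← s1, ia] at s5'
    generalize Nat.card ↥(unegSub chevD4 K (nW A.hk K [0, 2, 3]) ⊓ twistedD4 K q) = x at s5' ⊢
    have h : x ^ 3 * q ^ 3 = (q ^ 3) ^ 3 * q ^ 3 := by
      calc x ^ 3 * q ^ 3 = x * (q * (x * (q * (x * q)))) := by ring
        _ = q ^ 12 := s5'
        _ = _ := by ring
    have hq3 : 0 < q ^ 3 := by positivity
    exact Nat.pow_left_injective (by norm_num : (3 : ℕ) ≠ 0)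
      (Nat.eq_of_mul_eq_mul_right hq3 h)
  rw [hcard, d4_tbl_eq]
  simp only [List.map_cons, List.map_nil, List.sum_cons, List.sum_nil]
  rw [hdc [] (by decide), hdc [1] (by decide), hdc [0, 2, 3, 1] (by decide),
    hdc [1, 0, 2, 3, 1] (by decide), hdc [0, 2, 3, 1, 0, 2, 3, 1] (by decide),
    hdc [1, 0, 2, 3, 1, 0, 2, 3, 1] (by decide),
    hdc [0, 2, 3, 1, 0, 2, 3, 1, 0, 2, 3, 1] (by decide), hdc [0, 2, 3] (by decide),
    hdc [1, 0, 2, 3] (by decide), hdc [0, 2, 3, 1, 0, 2, 3] (by decide),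
    hdc [1, 0, 2, 3, 1, 0, 2, 3] (by decide), hdc [0, 2, 3, 1, 0, 2, 3, 1, 0, 2, 3] (by decide),
    i0, iw0, ← f4, ← f3, ← f2, ← f1, ← s4, ← s3, ← s2, ← s1, ia, ib, hβ]
  obtain ⟨m, rfl⟩ : ∃ m, q = m + 1 := ⟨q - 1, by omega⟩
  have e2 : (m + 1) ^ 2 - 1 = m * (m + 2) := by
    have : (m + 1) ^ 2 = m * (m + 2) + 1 := by ring
    omega
  have e6 : (m + 1) ^ 6 - 1 =
      m * ((m + 1) ^ 5 + (m + 1) ^ 4 + (m + 1) ^ 3 + (m + 1) ^ 2 + (m + 1) + 1) := by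
    have : (m + 1) ^ 6 =
        m * ((m + 1) ^ 5 + (m + 1) ^ 4 + (m + 1) ^ 3 + (m + 1) ^ 2 + (m + 1) + 1) + 1 := by ring
    omega
  rw [e2, e6, Nat.add_sub_cancel]
  ring

end

end Cfsg.Agent.Lib.Helper9
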