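import Cfsg.Agent.Lib.Helper9.TwCox
import Cfsg.Agent.Lib.Helper9.TwD4BN

set_option autoImplicit false

namespace Cfsg.Agent.Lib.Helper9

open Cfsg.Lie
open Cfsg.Agent.Lib.Helper15.ChevGraphEx

/-! ### The Weyl group of the twisted group of type `D₄` -/

set_option maxRecDepth 1000000 in
theorem d4_ordW : OrdW chevD4 [1] [0, 2, 3] 6 ∧ OrdW chevD4 [0, 2, 3] [1] 6 := by
  decide +kernel

section

variable {K : Type*} [Field K] [Fintype K]

/-- `N¹ / H¹` is the Coxeter group of type `G₂` for `³D₄(q)`. -/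
theorem twD4_weyl {q : ℕ} (hq : IsPrimePow q) (hK : Fintype.card K = q ^ 3) :
    ∃ ψ : ↥(chevD4.monomialSubgroup K ⊓ twistedD4 K q) →* (CoxeterMatrix.G₂).Group,
      Function.Surjective ψ ∧
      ψ.ker = (chevD4.diagonalSubgroup K ⊓ twistedD4 K q).subgroupOf
        (chevD4.monomialSubgroup K ⊓ twistedD4 K q) := by
  have hD : chevD4 ∈ [chevG2, chevB2, chevD4, chevF4, chevE6, chevE7, chevE8] := by
    simp only [List.mem_cons, true_or, or_true]
  obtain ⟨φ, T⟩ := twD4_twPack hq hK (allok_cert _ hD)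
  obtain ⟨o01, o10⟩ := d4_ordW
  refine tw_weyl_iso T (by decide) (n := 2) rfl CoxeterMatrix.G₂ ?_
  intro i j hij
  fin_cases i <;> fin_cases j
  · exact absurd rfl hij
  · exact o01
  · exact o10
  · exact absurd rfl hij

end

end Cfsg.Agent.Lib.Helper9
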