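import Cfsg.Agent.Lib.Helper9.ThmTw2
import Cfsg.Agent.Lib.Helper9.TabE6
import Cfsg.Agent.Lib.Helper9.PermTabE6
import Cfsg.Prelude.Def_LieTwisted

set_option autoImplicit false

namespace Cfsg.Agent.Lib.Helper9

open Cfsg.Lie

/-- A word of the longest element of the Weyl group of `chevE6` made of blocks invariant under
the graph symmetry. -/
def twW0E6 : List ℕ := [1, 3, 1, 0, 5, 2, 4, 3, 1, 0, 5, 2, 4, 3, 1, 0, 5, 2, 4, 3, 1, 0, 5, 2, 4, 3, 1, 0, 5, 2, 4, 3, 0, 5, 2, 4]

/-- The reversed word. -/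
def twW0RevE6 : List ℕ := [4, 2, 5, 0, 3, 4, 2, 5, 0, 1, 3, 4, 2, 5, 0, 1, 3, 4, 2, 5, 0, 1, 3, 4, 2, 5, 0, 1, 3, 4, 2, 5, 0, 1, 3, 1]

/-- The blocks of the word. -/
def twBlkE6 : List (List ℕ) := [[1], [3], [1], [0, 5], [2, 4], [3], [1], [0, 5], [2, 4], [3], [1], [0, 5], [2, 4], [3], [1], [0, 5], [2, 4], [3], [1], [0, 5], [2, 4], [3], [0, 5], [2, 4]]

set_option maxRecDepth 1000000 in
theorem twW0E6_ok : w0B chevE6 permLitE6 twW0E6 twW0RevE6 = true := by decide +kernel

theorem twW0E6_lt : ∀ i ∈ twW0E6, i < chevE6.rank := by decide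

theorem twBlkE6_flatten : twBlkE6.flatten = twW0E6 := by decide

theorem twBlkE6_mem : ∀ blk ∈ twBlkE6, blk = [1] ∨ blk = [3] ∨ blk = [0, 5] ∨ blk = [2, 4] := by
  decide

theorem e6_simple_eq : chevE6.simple 0 = e6p1 ∧ chevE6.simple 1 = e6p2 ∧ chevE6.simple 2 = e6p3 ∧
    chevE6.simple 3 = e6p4 ∧ chevE6.simple 4 = e6p5 ∧ chevE6.simple 5 = e6p6 := by decide +kernel

theorem e6_negsimple_eq : chevE6.neg (chevE6.simple 0) = e6m1 ∧
    chevE6.neg (chevE6.simple 1) = e6m2 ∧ chevE6.neg (chevE6.simple 2) = e6m3 ∧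
    chevE6.neg (chevE6.simple 3) = e6m4 ∧ chevE6.neg (chevE6.simple 4) = e6m5 ∧
    chevE6.neg (chevE6.simple 5) = e6m6 := by decide +kernel

set_option maxRecDepth 1000000 in
theorem e6_comm_facts : ∀ p ∈ [(e6p1, e6p6), (e6m1, e6p6), (e6p1, e6m6), (e6p3, e6p5),
    (e6m3, e6p5), (e6p3, e6m5)],
    p.1 < chevE6.nroots ∧ p.2 < chevE6.nroots ∧ p.2 ≠ chevE6.neg p.1 ∧
      commB chevE6 (litsOf chevE6) p.1 p.2 = true ∧ chevE6.commTerms p.1 p.2 = [] := by
  decide +kernel

section

variable {K : Type*} [Field K]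

theorem e6_commute (hk : HOK chevE6) {r s : ℕ}
    (h : (r, s) ∈ [(e6p1, e6p6), (e6m1, e6p6), (e6p1, e6m6), (e6p3, e6p5), (e6m3, e6p5),
      (e6p3, e6m5)]) (t u : K) : Commute (xU hk r t) (xU hk s u) := by
  obtain ⟨h1, h2, h3, h4, h5⟩ := e6_comm_facts (r, s) h
  exact comm_of_terms_nil hk h1 h2 h3 h4 h5 t u

theorem e6_single (hk : HOK chevE6) (q : ℕ) {r : ℕ} (hr : r ∈ [e6p2, e6m2, e6p4, e6m4]) {t : K}
    (ht : t ^ q = t) : xU hk r t ∈ twistedE6 K q :=
  Subgroup.subset_closure ⟨[(r, t)], Or.inl ⟨t, ht, r, hr, rfl⟩, by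
    simp [xU_val, ChevalleyDatum.wordMat]⟩

theorem e6_pair (hk : HOK chevE6) (q : ℕ) {rs : ℕ × ℕ}
    (hrs : rs ∈ [(e6p1, e6p6), (e6m1, e6m6), (e6p3, e6p5), (e6m3, e6m5)]) (t : K) :
    xU hk rs.1 t * xU hk rs.2 (t ^ q) ∈ twistedE6 K q :=
  Subgroup.subset_closure ⟨[(rs.1, t), (rs.2, t ^ q)], Or.inr ⟨t, rs, hrs, rfl⟩, by
    simp [xU_val, ChevalleyDatum.wordMat]⟩

/-- The normal core of `B ∩ G¹` in the twisted group of type `E₆` is trivial. -/
theorem twE6_core [Fintype K] {q : ℕ} (hK : Fintype.card K = q ^ 2) :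
    ((chevE6.borelSubgroup K ⊓ twistedE6 K q).subgroupOf (twistedE6 K q)).normalCore = ⊥ := by
  have hD : chevE6 ∈ [chevG2, chevB2, chevD4, chevF4, chevE6, chevE7, chevE8] := by
    simp only [List.mem_cons, true_or, or_true]
  have hk := hok_all chevE6 hD
  have hm1 : (-1 : K) ^ q = -1 := neg_one_pow_card (n := 2) (by norm_num) hK
  obtain ⟨s0, s1, s2, s3, s4, s5⟩ := e6_simple_eq
  obtain ⟨n0, n1, n2, n3, n4, n5⟩ := e6_negsimple_eq
  have hp1 : xU hk e6p1 (1 : K) * xU hk e6p6 1 ∈ twistedE6 K q := by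
    have h := e6_pair (K := K) hk q (rs := (e6p1, e6p6)) (by simp) 1
    rwa [one_pow] at h
  have hm1' : xU hk e6m1 (-1 : K) * xU hk e6m6 (-1) ∈ twistedE6 K q := by
    have h := e6_pair (K := K) hk q (rs := (e6m1, e6m6)) (by simp) (-1)
    rwa [hm1] at h
  have hp3 : xU hk e6p3 (1 : K) * xU hk e6p5 1 ∈ twistedE6 K q := by
    have h := e6_pair (K := K) hk q (rs := (e6p3, e6p5)) (by simp) 1
    rwa [one_pow] at h
  have hm3' : xU hk e6m3 (-1 : K) * xU hk e6m5 (-1) ∈ twistedE6 K q := by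
    have h := e6_pair (K := K) hk q (rs := (e6m3, e6m5)) (by simp) (-1)
    rwa [hm1] at h
  have hn1 : xU hk e6m1 (1 : K) * xU hk e6m6 1 ∈ twistedE6 K q := by
    have h := e6_pair (K := K) hk q (rs := (e6m1, e6m6)) (by simp) 1
    rwa [one_pow] at h
  have hn3 : xU hk e6m3 (1 : K) * xU hk e6m5 1 ∈ twistedE6 K q := by
    have h := e6_pair (K := K) hk q (rs := (e6m3, e6m5)) (by simp) 1
    rwa [one_pow] at h
  refine tw_core hk (nok_all _ hD) (nxok_all _ hD) (wok_all _ hD) (lok_all _ hD) (haok_all _ hD)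
    (bnok_all _ hD) (rnok_all _ hD) (orbok_all _ hD) (twistedE6 K q) twW0E6 twW0RevE6 twW0E6_lt
    twW0E6_ok ?_ ?_
  · rw [← twBlkE6_flatten]
    apply nW_flatten_mem
    intro blk hblk
    rcases twBlkE6_mem blk hblk with rfl | rfl | rfl | rfl
    · rw [nW_one, nU_eq_three, n1, s1]
      exact mul_mem (mul_mem (e6_single hk q (by simp) (one_pow q))
        (e6_single hk q (by simp) hm1)) (e6_single hk q (by simp) (one_pow q))
    · rw [nW_one, nU_eq_three, n3, s3]
      exact mul_mem (mul_mem (e6_single hk q (by simp) (one_pow q))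
        (e6_single hk q (by simp) hm1)) (e6_single hk q (by simp) (one_pow q))
    · rw [nW_two]
      apply block2 hk
      · rw [s0, s5]; exact e6_commute hk (by simp) _ _
      · rw [n0, s5]; exact e6_commute hk (by simp) _ _
      · rw [s0, n5]; exact e6_commute hk (by simp) _ _
      · rw [s0, s5]; exact hp1
      · rw [n0, n5]; exact hm1'
    · rw [nW_two]
      apply block2 hk
      · rw [s2, s4]; exact e6_commute hk (by simp) _ _
      · rw [n2, s4]; exact e6_commute hk (by simp) _ _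
      · rw [s2, n4]; exact e6_commute hk (by simp) _ _
      · rw [s2, s4]; exact hp3
      · rw [n2, n4]; exact hm3'
  · intro i hi
    have hi' : i < 6 := hi
    interval_cases i
    · refine ⟨[(0, 1), (5, 1)], ?_, by simp, by simp, ?_⟩
      · intro p hp
        simp only [List.mem_cons, List.not_mem_nil, or_false] at hp
        rcases hp with rfl | rfl
        · exact (by decide : (0 : ℕ) < chevE6.rank)
        · exact (by decide : (5 : ℕ) < chevE6.rank)
      · simp only [negL, List.map_cons, List.map_nil, wordU_cons, n0, n5]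
        simpa [wordU] using hn1
    · refine ⟨[(1, 1)], ?_, by simp, by simp, ?_⟩
      · intro p hp
        simp only [List.mem_cons, List.not_mem_nil, or_false] at hp
        rcases hp with rfl
        exact (by decide : (1 : ℕ) < chevE6.rank)
      · simp only [negL, List.map_cons, List.map_nil, wordU_cons, n1]
        simpa [wordU] using e6_single (K := K) hk q (r := e6m2) (by simp) (one_pow q)
    · refine ⟨[(2, 1), (4, 1)], ?_, by simp, by simp, ?_⟩
      · intro p hp
        simp only [List.mem_cons, List.not_mem_nil, or_false] at hp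
        rcases hp with rfl | rfl
        · exact (by decide : (2 : ℕ) < chevE6.rank)
        · exact (by decide : (4 : ℕ) < chevE6.rank)
      · simp only [negL, List.map_cons, List.map_nil, wordU_cons, n2, n4]
        simpa [wordU] using hn3
    · refine ⟨[(3, 1)], ?_, by simp, by simp, ?_⟩
      · intro p hp
        simp only [List.mem_cons, List.not_mem_nil, or_false] at hp
        rcases hp with rfl
        exact (by decide : (3 : ℕ) < chevE6.rank)
      · simp only [negL, List.map_cons, List.map_nil, wordU_cons, n3]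
        simpa [wordU] using e6_single (K := K) hk q (r := e6m4) (by simp) (one_pow q)
    · refine ⟨[(2, 1), (4, 1)], ?_, by simp, by simp, ?_⟩
      · intro p hp
        simp only [List.mem_cons, List.not_mem_nil, or_false] at hp
        rcases hp with rfl | rfl
        · exact (by decide : (2 : ℕ) < chevE6.rank)
        · exact (by decide : (4 : ℕ) < chevE6.rank)
      · simp only [negL, List.map_cons, List.map_nil, wordU_cons, n2, n4]
        simpa [wordU] using hn3
    · refine ⟨[(0, 1), (5, 1)], ?_, by simp, by simp, ?_⟩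
      · intro p hp
        simp only [List.mem_cons, List.not_mem_nil, or_false] at hp
        rcases hp with rfl | rfl
        · exact (by decide : (0 : ℕ) < chevE6.rank)
        · exact (by decide : (5 : ℕ) < chevE6.rank)
      · simp only [negL, List.map_cons, List.map_nil, wordU_cons, n0, n5]
        simpa [wordU] using hn1

end

end Cfsg.Agent.Lib.Helper9
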