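import Cfsg.Agent.Lib.Helper9.ThmTwPerf
import Cfsg.Agent.Lib.Helper9.TwE6

set_option autoImplicit false

namespace Cfsg.Agent.Lib.Helper9

open Cfsg.Lie

set_option maxRecDepth 1000000 in
theorem e6_comm_facts2 : ∀ p ∈ [(e6m1, e6m6), (e6m3, e6m5)],
    p.1 < chevE6.nroots ∧ p.2 < chevE6.nroots ∧ p.2 ≠ chevE6.neg p.1 ∧
      commB chevE6 (litsOf chevE6) p.1 p.2 = true ∧ chevE6.commTerms p.1 p.2 = [] := by
  decide +kernel

set_option maxRecDepth 1000000 in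
theorem e6_tw_facts : ∀ p ∈ [([3], e6p2, e6m4, e6p2), ([3], e6m2, e6p4, e6m2),
    ([1], e6p4, e6m2, e6p4), ([1], e6m4, e6p2, e6m4)], TwFact chevE6 p := by
  decide +kernel

set_option maxRecDepth 1000000 in
theorem e6_exp_facts : ∀ p ∈ [(e6p1, e6p6, (2 : ℤ)), (e6m1, e6m6, -2), (e6p3, e6p5, -1),
    (e6m3, e6m5, 1)],
    p.1 < chevE6.nroots ∧ p.2.1 < chevE6.nroots ∧
      rootExp chevE6 e6p1 (Nat.add chevE6.rank p.1) = p.2.2 ∧
      rootExp chevE6 e6p6 (Nat.add chevE6.rank p.1) = 0 ∧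
      rootExp chevE6 e6p1 (Nat.add chevE6.rank p.2.1) = 0 ∧
      rootExp chevE6 e6p6 (Nat.add chevE6.rank p.2.1) = p.2.2 := by
  decide +kernel

theorem e6_neg_p : chevE6.neg e6p1 = e6m1 ∧ chevE6.neg e6p6 = e6m6 ∧ e6p1 < chevE6.nroots ∧
    e6p6 < chevE6.nroots := by decide +kernel

section

variable {K : Type*} [Field K] [Fintype K]

/-- The twisted group of type `E₆` is perfect. -/
theorem twE6_perfect {q : ℕ} (hq : IsPrimePow q) (hK : Fintype.card K = q ^ 2) :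
    commutator ↥(twistedE6 K q) = ⊤ := by
  have hD : chevE6 ∈ [chevG2, chevB2, chevD4, chevF4, chevE6, chevE7, chevE8] := by
    simp only [List.mem_cons, true_or, or_true]
  have hk := hok_all chevE6 hD
  have nk := nok_all chevE6 hD
  have xk := nxok_all chevE6 hD
  have wk := wok_all chevE6 hD
  have ak := haok_all chevE6 hD
  have hm1 : (-1 : K) ^ q = -1 := neg_one_pow_card (n := 2) (by norm_num) hK
  obtain ⟨s0, s1, s2, s3, s4, s5⟩ := e6_simple_eq
  obtain ⟨n0, n1, n2, n3, n4, n5⟩ := e6_negsimple_eq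
  obtain ⟨np1, np6, hp1, hp6⟩ := e6_neg_p
  apply commutator_eq_top_of_le
  have hT1 : (1 : K) ∈ {t : K | t ^ q = t} := one_pow q
  have hTneg : ∀ t ∈ {t : K | t ^ q = t}, -t ∈ {t : K | t ^ q = t} := by
    intro t ht
    show (-t) ^ q = -t
    rw [neg_pow, hm1, (ht : t ^ q = t)]
    ring
  have hsing : ∀ r ∈ [e6p2, e6m2, e6p4, e6m4], ∀ t ∈ {t : K | t ^ q = t},
      xU hk r t ∈ twistedE6 K q := fun r hr t ht => e6_single hk q hr ht
  have hn1 : nW hk K [1] ∈ twistedE6 K q := by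
    rw [nW_one, nU_eq_three, n1, s1]
    exact mul_mem (mul_mem (e6_single hk q (by simp) (one_pow q))
      (e6_single hk q (by simp) hm1)) (e6_single hk q (by simp) (one_pow q))
  have hn3 : nW hk K [3] ∈ twistedE6 K q := by
    rw [nW_one, nU_eq_three, n3, s3]
    exact mul_mem (mul_mem (e6_single hk q (by simp) (one_pow q))
      (e6_single hk q (by simp) hm1)) (e6_single hk q (by simp) (one_pow q))
  have hsingC : ∀ r ∈ [e6p2, e6m2, e6p4, e6m4], ∀ t ∈ {t : K | t ^ q = t},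
      xU hk r t ∈ ⁅twistedE6 K q, twistedE6 K q⁆ := by
    intro r hr
    simp only [List.mem_cons, List.not_mem_nil, or_false] at hr
    rcases hr with rfl | rfl | rfl | rfl
    · exact tw_single hk nk xk _ _ hT1 hTneg (e6_tw_facts ([3], e6p2, e6m4, e6p2) (by simp))
        hn3 (hsing e6p2 (by simp)) (hsing e6m4 (by simp))
    · exact tw_single hk nk xk _ _ hT1 hTneg (e6_tw_facts ([3], e6m2, e6p4, e6m2) (by simp))
        hn3 (hsing e6m2 (by simp)) (hsing e6p4 (by simp))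
    · exact tw_single hk nk xk _ _ hT1 hTneg (e6_tw_facts ([1], e6p4, e6m2, e6p4) (by simp))
        hn1 (hsing e6p4 (by simp)) (hsing e6m2 (by simp))
    · exact tw_single hk nk xk _ _ hT1 hTneg (e6_tw_facts ([1], e6m4, e6p2, e6m4) (by simp))
        hn1 (hsing e6m4 (by simp)) (hsing e6p2 (by simp))
  have c16 : ∀ a b : K, Commute (xU hk e6p1 a) (xU hk e6p6 b) :=
    fun a b => e6_commute hk (by simp) a b
  have cm16 : ∀ a b : K, Commute (xU hk e6m1 a) (xU hk e6p6 b) :=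
    fun a b => e6_commute hk (by simp) a b
  have c1m6 : ∀ a b : K, Commute (xU hk e6p1 a) (xU hk e6m6 b) :=
    fun a b => e6_commute hk (by simp) a b
  have c35 : ∀ a b : K, Commute (xU hk e6p3 a) (xU hk e6p5 b) :=
    fun a b => e6_commute hk (by simp) a b
  have cm1m6 : ∀ a b : K, Commute (xU hk e6m1 a) (xU hk e6m6 b) := by
    intro a b
    obtain ⟨h1, h2, h3, h4, h5⟩ := e6_comm_facts2 (e6m1, e6m6) (by simp)
    exact comm_of_terms_nil hk h1 h2 h3 h4 h5 a b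
  have cm3m5 : ∀ a b : K, Commute (xU hk e6m3 a) (xU hk e6m5 b) := by
    intro a b
    obtain ⟨h1, h2, h3, h4, h5⟩ := e6_comm_facts2 (e6m3, e6m5) (by simp)
    exact comm_of_terms_nil hk h1 h2 h3 h4 h5 a b
  have h4 : 4 ≤ Fintype.card K := by
    rw [hK]
    have := hq.two_le
    nlinarith
  obtain ⟨u, hu0, hu2⟩ := exists_sq_ne_one (K := K) h4
  have hu1 : u ≠ 1 := by
    rintro rfl
    exact hu2 (one_pow 2)
  have hblock : ∀ a : K, nrU hk e6p1 a * nrU hk e6p6 (a ^ q) ∈ twistedE6 K q := by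
    intro a
    apply nr_block2 hk _ c16 (by rw [np1]; exact cm16) (by rw [np6]; exact c1m6)
    · exact e6_pair hk q (rs := (e6p1, e6p6)) (by simp) a
    · rw [np1, np6]
      have h := e6_pair (K := K) hk q (rs := (e6m1, e6m6)) (by simp) (-a⁻¹)
      have e : (-a⁻¹) ^ q = -(a ^ q)⁻¹ := by
        rw [neg_pow, hm1, inv_pow]
        ring
      rwa [e] at h
  obtain ⟨h, hh⟩ : ∃ h : GL chevE6.Idx K, h = (nrU hk e6p1 u * nrU hk e6p1 (-1)) *
      (nrU hk e6p6 (u ^ q) * nrU hk e6p6 (-1)) := ⟨_, rfl⟩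
  have hhG : h ∈ twistedE6 K q := by
    have k := nrU_commute hk c16 (by rw [np1]; exact cm16) (by rw [np6]; exact c1m6)
      (by rw [np1, np6]; exact cm1m6) (-1 : K) (u ^ q)
    rw [hh, k.mul_mul_mul_comm]
    have h1 := hblock (-1)
    rw [hm1] at h1
    exact mul_mem (hblock u) h1
  have hconj : ∀ s < chevE6.nroots, ∀ t : K, h * xU hk s t * h⁻¹ =
      xU hk s (u ^ rootExp chevE6 e6p1 (Nat.add chevE6.rank s) *
        ((u ^ q) ^ rootExp chevE6 e6p6 (Nat.add chevE6.rank s) * t)) := by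
    intro s hs t
    rw [hh, mul_inv_rev]
    have e : nrU hk e6p1 u * nrU hk e6p1 (-1) * (nrU hk e6p6 (u ^ q) * nrU hk e6p6 (-1)) *
        xU hk s t * ((nrU hk e6p6 (u ^ q) * nrU hk e6p6 (-1))⁻¹ *
          (nrU hk e6p1 u * nrU hk e6p1 (-1))⁻¹) =
        nrU hk e6p1 u * nrU hk e6p1 (-1) * ((nrU hk e6p6 (u ^ q) * nrU hk e6p6 (-1)) *
          xU hk s t * (nrU hk e6p6 (u ^ q) * nrU hk e6p6 (-1))⁻¹) *
          (nrU hk e6p1 u * nrU hk e6p1 (-1))⁻¹ := by group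
    rw [e, hrU_conj hk wk ak hp6 hs (pow_ne_zero q hu0), hrU_conj hk wk ak hp1 hs hu0]
  have key : ∀ (r1 r2 : ℕ) (e : ℤ), (r1, r2, e) ∈ [(e6p1, e6p6, (2 : ℤ)), (e6m1, e6m6, -2),
      (e6p3, e6p5, -1), (e6m3, e6m5, 1)] →
      (∀ a b : K, Commute (xU hk r1 a) (xU hk r2 b)) →
      (∀ t : K, xU hk r1 t * xU hk r2 (t ^ q) ∈ twistedE6 K q) → u ^ e - 1 ≠ 0 →
      ∀ t : K, xU hk r1 t * xU hk r2 (t ^ q) ∈ ⁅twistedE6 K q, twistedE6 K q⁆ := by
    intro r1 r2 e hmem hcomm hg hne t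
    obtain ⟨f1, f2, f3, f4, f5, f6⟩ := e6_exp_facts (r1, r2, e) hmem
    have h1 : ∀ t : K, h * xU hk r1 t * h⁻¹ = xU hk r1 (u ^ e * t) := by
      intro t
      rw [hconj r1 f1, f3, f4, zpow_zero, one_mul]
    have h2 : ∀ t : K, h * xU hk r2 (t ^ q) * h⁻¹ = xU hk r2 ((u ^ e * t) ^ q) := by
      intro t
      rw [hconj r2 f2, f5, f6, zpow_zero, one_mul, mul_pow, zpow_pow_comm]
    have h3 := pair_comm_mem hk (twistedE6 K q) (fun t : K => t ^ q) (frob_sub hq hK) hcomm h hhG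
      (u ^ e) h1 h2 hg ((u ^ e - 1)⁻¹ * t)
    rwa [← mul_assoc, mul_inv_cancel₀ hne, one_mul] at h3
  have hpairC : ∀ rs ∈ [(e6p1, e6p6), (e6m1, e6m6), (e6p3, e6p5), (e6m3, e6m5)], ∀ t : K,
      xU hk rs.1 t * xU hk rs.2 (t ^ q) ∈ ⁅twistedE6 K q, twistedE6 K q⁆ := by
    intro rs hrs
    have hg : ∀ t : K, xU hk rs.1 t * xU hk rs.2 (t ^ q) ∈ twistedE6 K q :=
      fun t => e6_pair hk q hrs t
    simp only [List.mem_cons, List.not_mem_nil, or_false] at hrs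
    rcases hrs with rfl | rfl | rfl | rfl
    · refine key _ _ 2 (by simp) c16 hg ?_
      rw [zpow_ofNat]
      exact sub_ne_zero.mpr hu2
    · refine key _ _ (-2) (by simp) cm1m6 hg ?_
      rw [show (-2 : ℤ) = -((2 : ℕ) : ℤ) from rfl, zpow_neg, zpow_natCast]
      exact sub_ne_zero.mpr (fun h => hu2 (inv_eq_one.mp h))
    · refine key _ _ (-1) (by simp) c35 hg ?_
      rw [zpow_neg_one]
      exact sub_ne_zero.mpr (fun h => hu1 (inv_eq_one.mp h))
    · refine key _ _ 1 (by simp) cm3m5 hg ?_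
      rw [zpow_one]
      exact sub_ne_zero.mpr hu1
  show Subgroup.closure {g : GL chevE6.Idx K | ∃ w ∈ e6Words K q,
    (g : Matrix chevE6.Idx chevE6.Idx K) = chevE6.wordMat K w} ≤ _
  rw [Subgroup.closure_le]
  rintro g ⟨w, hw, hg⟩
  rcases hw with ⟨t, ht, r, hr, rfl⟩ | ⟨t, rs, hrs, rfl⟩
  · have e : g = xU hk r t := Units.ext (by rw [hg]; simp [ChevalleyDatum.wordMat, xU_val])
    rw [e]
    exact hsingC r hr t ht
  · have e : g = xU hk rs.1 t * xU hk rs.2 (t ^ q) :=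
      Units.ext (by rw [hg]; simp [ChevalleyDatum.wordMat, xU_val])
    rw [e]
    exact hpairC rs hrs t

end

end Cfsg.Agent.Lib.Helper9
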