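import Cfsg.Agent.Lib.Helper9.TwFixB
import Cfsg.Agent.Lib.Helper9.TwE6Perf
import Cfsg.Agent.Lib.Helper9.CertAll
import Cfsg.Agent.Lib.Helper15.ChevGraphExCert

set_option autoImplicit false

namespace Cfsg.Agent.Lib.Helper9

open Cfsg.Lie
open Cfsg.Agent.Lib.Helper15.ChevGraphEx

/-! ### The unipotent subgroup of the twisted group of type `E₆` -/

/-- The positive roots of `E₆` by height, the orbits of the graph automorphism consecutive. -/
def e6Ord : List ℕ := [39, 42, 37, 46, 56, 36, 43, 40, 47, 57, 38, 44, 50, 48, 58, 41, 51, 59, 45, 61, 49, 53, 60, 62, 52, 63, 64, 54, 65, 67, 55, 68, 66, 69, 70, 71]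

/-- The coweight giving the height. -/
def e6Wt : List ℕ := [8, 11, 15, 21, 15, 8]

/-- The positions of the roots fixed by the graph automorphism. -/
def e6SPos : List ℕ := [0, 3, 8, 11, 16, 21, 22, 25, 28, 33, 34, 35]

/-- The positions of the first roots of the orbits of length two. -/
def e6PPos : List ℕ := [1, 4, 6, 9, 12, 14, 17, 19, 23, 26, 29, 31]

set_option maxRecDepth 1000000 in
theorem e6_ordOK : OrdOK chevE6 e6Wt e6Ord :=
  ⟨by decide +kernel, by decide +kernel, by decide +kernel, by decide +kernel⟩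

set_option maxRecDepth 1000000 in
theorem e6_rhoSt : ∀ κ ∈ [1, 3, 4, 6, 8, 9, 11, 12, 14, 16, 17, 19, 21, 22, 23, 25, 26, 28, 29, 31, 33, 34, 35, 36], RhoSt e6Ord rhoE6 κ := by decide +kernel

set_option maxRecDepth 1000000 in
theorem e6_gen_facts : ∀ p ∈ [((46 : ℕ), (46 : ℕ)), (25, 25), (39, 39), (32, 32), (56, 36), (36, 56),
    (15, 35), (35, 15), (42, 37), (37, 42), (29, 34), (34, 29)],
    p.1 < chevE6.nroots ∧ rhoE6.getD p.1 0 = p.2 ∧ epsE6.getD p.1 1 = 1 := by decide +kernel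

set_option maxRecDepth 1000000 in
theorem e6_ord_single : ∀ κ ∈ e6SPos, κ < e6Ord.length ∧
    rhoE6.getD (e6Ord.getD κ 0) 0 = e6Ord.getD κ 0 ∧ epsE6.getD (e6Ord.getD κ 0) 1 = 1 := by
  decide +kernel

set_option maxRecDepth 1000000 in
theorem e6_ord_pair : ∀ κ ∈ e6PPos, κ + 1 < e6Ord.length ∧
    rhoE6.getD (e6Ord.getD κ 0) 0 = e6Ord.getD (κ + 1) 0 ∧
    rhoE6.getD (e6Ord.getD (κ + 1) 0) 0 = e6Ord.getD κ 0 ∧
    e6Ord.getD κ 0 < chevE6.nroots ∧ e6Ord.getD (κ + 1) 0 < chevE6.nroots ∧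
    e6Ord.getD (κ + 1) 0 ≠ chevE6.neg (e6Ord.getD κ 0) ∧
    commB chevE6 (litsOf chevE6) (e6Ord.getD κ 0) (e6Ord.getD (κ + 1) 0) = true ∧
    chevE6.commTerms (e6Ord.getD κ 0) (e6Ord.getD (κ + 1) 0) = [] := by
  decide +kernel

set_option maxRecDepth 1000000 in
theorem e6_wact_facts :
    wActP (permOf chevE6) [3] 42 = 43 ∧
    wActP (permOf chevE6) [3] 37 = 40 ∧
    wActP (permOf chevE6) [3] 46 = 47 ∧
    wActP (permOf chevE6) [2, 4] 56 = 57 ∧
    wActP (permOf chevE6) [2, 4] 36 = 38 ∧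
    wActP (permOf chevE6) [2, 4] 39 = 44 ∧
    wActP (permOf chevE6) [1] 43 = 50 ∧
    wActP (permOf chevE6) [1] 40 = 48 ∧
    wActP (permOf chevE6) [3] 57 = 58 ∧
    wActP (permOf chevE6) [3] 38 = 41 ∧
    wActP (permOf chevE6) [2, 4] 47 = 51 ∧
    wActP (permOf chevE6) [2, 4] 58 = 59 ∧
    wActP (permOf chevE6) [2, 4] 41 = 45 ∧
    wActP (permOf chevE6) [1] 58 = 61 ∧
    wActP (permOf chevE6) [1] 41 = 49 ∧
    wActP (permOf chevE6) [3] 51 = 53 ∧
    wActP (permOf chevE6) [0, 5] 44 = 60 ∧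
    wActP (permOf chevE6) [2, 4] 61 = 62 ∧
    wActP (permOf chevE6) [2, 4] 49 = 52 ∧
    wActP (permOf chevE6) [0, 5] 51 = 63 ∧
    wActP (permOf chevE6) [3] 62 = 64 ∧
    wActP (permOf chevE6) [3] 52 = 54 ∧
    wActP (permOf chevE6) [0, 5] 53 = 65 ∧
    wActP (permOf chevE6) [2, 4] 64 = 67 ∧
    wActP (permOf chevE6) [2, 4] 54 = 55 ∧
    wActP (permOf chevE6) [0, 5] 67 = 68 ∧
    wActP (permOf chevE6) [0, 5] 55 = 66 ∧
    wActP (permOf chevE6) [2, 4] 65 = 69 ∧
    wActP (permOf chevE6) [3] 69 = 70 ∧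
    wActP (permOf chevE6) [1] 70 = 71 := by
  decide +kernel

theorem e6_wact_lt : ∀ r ∈ [36, 37, 38, 39, 40, 41, 42, 43, 44, 46, 47, 49, 51, 52, 53, 54, 55, 56, 57, 58, 61, 62, 64, 65, 67, 69, 70], r < chevE6.nroots := by decide

section

variable {K : Type*} [Field K]

/-- The coefficients of the root elements of an element of `U` fixed by the twisting
endomorphism, in terms of the parameters. -/
def e6Coef (φ : K →+* K) (a b : ℕ → K) : ℕ → K := fun j =>
  ([a 0,
    b 0,
    ((epsE6.getD 42 1 : ℤ) : K) * φ (b 0),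
    a 1,
    b 1,
    ((epsE6.getD 56 1 : ℤ) : K) * φ (b 1),
    b 2,
    ((epsE6.getD 43 1 : ℤ) : K) * φ (b 2),
    a 2,
    b 3,
    ((epsE6.getD 57 1 : ℤ) : K) * φ (b 3),
    a 3,
    b 4,
    ((epsE6.getD 50 1 : ℤ) : K) * φ (b 4),
    b 5,
    ((epsE6.getD 58 1 : ℤ) : K) * φ (b 5),
    a 4,
    b 6,
    ((epsE6.getD 59 1 : ℤ) : K) * φ (b 6),
    b 7,
    ((epsE6.getD 61 1 : ℤ) : K) * φ (b 7),
    a 5,
    a 6,
    b 8,
    ((epsE6.getD 62 1 : ℤ) : K) * φ (b 8),
    a 7,
    b 9,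
    ((epsE6.getD 64 1 : ℤ) : K) * φ (b 9),
    a 8,
    b 10,
    ((epsE6.getD 67 1 : ℤ) : K) * φ (b 10),
    b 11,
    ((epsE6.getD 68 1 : ℤ) : K) * φ (b 11),
    a 9,
    a 10,
    a 11] : List K).getD j 0

end

section

variable {K : Type*} [Field K] [Fintype K]

/-- The structure of `U ∩ ²E₆(q)`: the group lies in the fixed points of the twisting
endomorphism, contains the fixed points in `U` and the twisted reflections, and `U ∩ ²E₆(q)`
has order `q ^ 36`. -/
theorem twE6_pack {q : ℕ} (hq : IsPrimePow q) (hK : Fintype.card K = q ^ 2) (A : ALLOK chevE6) :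
    ∃ φ : K →+* K, (∀ t, φ t = t ^ q) ∧ twistedE6 K q ≤ twFix graphOK_E6 φ ∧
      (∀ u ∈ chevE6.posUnipotent K, u ∈ twFix graphOK_E6 φ → u ∈ twistedE6 K q) ∧
      nW A.hk K [1] ∈ twistedE6 K q ∧ nW A.hk K [3] ∈ twistedE6 K q ∧
      nW A.hk K [0, 5] ∈ twistedE6 K q ∧ nW A.hk K [2, 4] ∈ twistedE6 K q ∧
      xU A.hk 46 1 ∈ twistedE6 K q ∧ xU A.hk 39 1 ∈ twistedE6 K q ∧
      xU A.hk 56 1 * xU A.hk 36 1 ∈ twistedE6 K q ∧
      xU A.hk 42 1 * xU A.hk 37 1 ∈ twistedE6 K q ∧
      Nat.card ↥(chevE6.posUnipotent K ⊓ twistedE6 K q) = q ^ 36 := by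
  have hk := A.hk
  obtain ⟨φ, hφ⟩ := frob_hom hq hK (by norm_num)
  have hok := graphOK_E6
  have O := e6_ordOK
  have hq1 : 1 < q := hq.one_lt
  have hφ2 : ∀ t : K, φ (φ t) = t := by
    intro t
    rw [hφ, hφ, ← pow_mul]
    have e : q * q = Fintype.card K := by rw [hK]; ring
    rw [e]
    exact FiniteField.pow_card t
  have hm1 : (-1 : K) ^ q = -1 := neg_one_pow_card (n := 2) (by norm_num) hK
  obtain ⟨s0, s1, s2, s3, s4, s5⟩ := e6_simple_eq
  obtain ⟨n0, n1, n2, n3, n4, n5⟩ := e6_negsimple_eq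
  have hp1 : xU hk e6p1 (1 : K) * xU hk e6p6 1 ∈ twistedE6 K q := by
    have h := e6_pair (K := K) hk q (rs := (e6p1, e6p6)) (by simp) 1
    rwa [one_pow] at h
  have hm1' : xU hk e6m1 (-1 : K) * xU hk e6m6 (-1) ∈ twistedE6 K q := by
    have h := e6_pair (K := K) hk q (rs := (e6m1, e6m6)) (by simp) (-1)
    rwa [hm1] at h
  have hp3 : xU hk e6p3 (1 : K) * xU hk e6p5 1 ∈ twistedE6 K q := by
    have h := e6_pair (K := K) hk q (rs := (e6p3, e6p5)) (by simp) 1
    rwa [one_pow] at h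
  have hm3' : xU hk e6m3 (-1 : K) * xU hk e6m5 (-1) ∈ twistedE6 K q := by
    have h := e6_pair (K := K) hk q (rs := (e6m3, e6m5)) (by simp) (-1)
    rwa [hm1] at h
  have hn1 : nW hk K [1] ∈ twistedE6 K q := by
    rw [nW_one, nU_eq_three, n1, s1]
    exact mul_mem (mul_mem (e6_single hk q (by simp) (one_pow q))
      (e6_single hk q (by simp) hm1)) (e6_single hk q (by simp) (one_pow q))
  have hn3 : nW hk K [3] ∈ twistedE6 K q := by
    rw [nW_one, nU_eq_three, n3, s3]
    exact mul_mem (mul_mem (e6_single hk q (by simp) (one_pow q))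
      (e6_single hk q (by simp) hm1)) (e6_single hk q (by simp) (one_pow q))
  have hn05 : nW hk K [0, 5] ∈ twistedE6 K q := by
    rw [nW_two]
    apply block2 hk
    · rw [s0, s5]; exact e6_commute hk (by simp) _ _
    · rw [n0, s5]; exact e6_commute hk (by simp) _ _
    · rw [s0, n5]; exact e6_commute hk (by simp) _ _
    · rw [s0, s5]; exact hp1
    · rw [n0, n5]; exact hm1'
  have hn24 : nW hk K [2, 4] ∈ twistedE6 K q := by
    rw [nW_two]
    apply block2 hk
    · rw [s2, s4]; exact e6_commute hk (by simp) _ _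
    · rw [n2, s4]; exact e6_commute hk (by simp) _ _
    · rw [s2, n4]; exact e6_commute hk (by simp) _ _
    · rw [s2, s4]; exact hp3
    · rw [n2, n4]; exact hm3'
  have hw1 : ∀ i ∈ ([1] : List ℕ), i < chevE6.rank := by decide
  have hw3 : ∀ i ∈ ([3] : List ℕ), i < chevE6.rank := by decide
  have hw05 : ∀ i ∈ ([0, 5] : List ℕ), i < chevE6.rank := by decide
  have hw24 : ∀ i ∈ ([2, 4] : List ℕ), i < chevE6.rank := by decide
  have c16 : ∀ a b : K, Commute (xU hk e6p1 a) (xU hk e6p6 b) :=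
    fun a b => e6_commute hk (by simp) a b
  have c35 : ∀ a b : K, Commute (xU hk e6p3 a) (xU hk e6p5 b) :=
    fun a b => e6_commute hk (by simp) a b
  have cm1m6 : ∀ a b : K, Commute (xU hk e6m1 a) (xU hk e6m6 b) := by
    intro a b
    obtain ⟨h1, h2, h3, h4, h5⟩ := e6_comm_facts2 (e6m1, e6m6) (by simp)
    exact comm_of_terms_nil hk h1 h2 h3 h4 h5 a b
  have cm3m5 : ∀ a b : K, Commute (xU hk e6m3 a) (xU hk e6m5 b) := by
    intro a b
    obtain ⟨h1, h2, h3, h4, h5⟩ := e6_comm_facts2 (e6m3, e6m5) (by simp)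
    exact comm_of_terms_nil hk h1 h2 h3 h4 h5 a b
  have cP : ∀ κ ∈ e6PPos, ∀ a b : K,
      Commute (xU hk (e6Ord.getD κ 0) a) (xU hk (e6Ord.getD (κ + 1) 0) b) := by
    intro κ hκ a b
    obtain ⟨-, -, -, h1, h2, h3, h4, h5⟩ := e6_ord_pair κ hκ
    exact comm_of_terms_nil hk h1 h2 h3 h4 h5 a b
  -- the generators are fixed by the twisting endomorphism
  have hGfix : twistedE6 K q ≤ twFix hok φ := by
    show Subgroup.closure {g : GL chevE6.Idx K | ∃ w ∈ e6Words K q,
      (g : Matrix chevE6.Idx chevE6.Idx K) = chevE6.wordMat K w} ≤ _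
    rw [Subgroup.closure_le]
    rintro g ⟨w, hw, hg⟩
    rcases hw with ⟨t, ht, r, hr, rfl⟩ | ⟨t, rs, hrs, rfl⟩
    · have e : g = xU hk r t := Units.ext (by rw [hg]; simp [ChevalleyDatum.wordMat, xU_val])
      rw [e]
      simp only [List.mem_cons, List.not_mem_nil, or_false] at hr
      rcases hr with rfl | rfl | rfl | rfl
      · exact twS_single_fix hk hok φ (e6_gen_facts (46, 46) (by simp)).1
          (e6_gen_facts (46, 46) (by simp)).2.1 (e6_gen_facts (46, 46) (by simp)).2.2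
          (by rw [hφ, ht])
      · exact twS_single_fix hk hok φ (e6_gen_facts (25, 25) (by simp)).1
          (e6_gen_facts (25, 25) (by simp)).2.1 (e6_gen_facts (25, 25) (by simp)).2.2
          (by rw [hφ, ht])
      · exact twS_single_fix hk hok φ (e6_gen_facts (39, 39) (by simp)).1
          (e6_gen_facts (39, 39) (by simp)).2.1 (e6_gen_facts (39, 39) (by simp)).2.2
          (by rw [hφ, ht])
      · exact twS_single_fix hk hok φ (e6_gen_facts (32, 32) (by simp)).1
          (e6_gen_facts (32, 32) (by simp)).2.1 (e6_gen_facts (32, 32) (by simp)).2.2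
          (by rw [hφ, ht])
    · have e : g = xU hk rs.1 t * xU hk rs.2 (t ^ q) :=
        Units.ext (by rw [hg]; simp [ChevalleyDatum.wordMat, xU_val])
      rw [e, ← hφ]
      simp only [List.mem_cons, List.not_mem_nil, or_false] at hrs
      rcases hrs with rfl | rfl | rfl | rfl
      · exact twS_pair_fix hk hok φ (e6_gen_facts (56, 36) (by simp)).1
          (e6_gen_facts (36, 56) (by simp)).1 (e6_gen_facts (56, 36) (by simp)).2.1
          (e6_gen_facts (36, 56) (by simp)).2.1 (e6_gen_facts (56, 36) (by simp)).2.2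
          (e6_gen_facts (36, 56) (by simp)).2.2 c16 (hφ2 t)
      · exact twS_pair_fix hk hok φ (e6_gen_facts (15, 35) (by simp)).1
          (e6_gen_facts (35, 15) (by simp)).1 (e6_gen_facts (15, 35) (by simp)).2.1
          (e6_gen_facts (35, 15) (by simp)).2.1 (e6_gen_facts (15, 35) (by simp)).2.2
          (e6_gen_facts (35, 15) (by simp)).2.2 cm1m6 (hφ2 t)
      · exact twS_pair_fix hk hok φ (e6_gen_facts (42, 37) (by simp)).1
          (e6_gen_facts (37, 42) (by simp)).1 (e6_gen_facts (42, 37) (by simp)).2.1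
          (e6_gen_facts (37, 42) (by simp)).2.1 (e6_gen_facts (42, 37) (by simp)).2.2
          (e6_gen_facts (37, 42) (by simp)).2.2 c35 (hφ2 t)
      · exact twS_pair_fix hk hok φ (e6_gen_facts (29, 34) (by simp)).1
          (e6_gen_facts (34, 29) (by simp)).1 (e6_gen_facts (29, 34) (by simp)).2.1
          (e6_gen_facts (34, 29) (by simp)).2.1 (e6_gen_facts (29, 34) (by simp)).2.2
          (e6_gen_facts (34, 29) (by simp)).2.2 cm3m5 (hφ2 t)
  -- the blocks of root elements in the twisted group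
  have hB46 : ∀ t : K, φ t = t → xU hk 46 t ∈ twistedE6 K q := fun t ht =>
    e6_single hk q (r := e6p2) (by simp) (by rw [← hφ, ht])
  have hB39 : ∀ t : K, φ t = t → xU hk 39 t ∈ twistedE6 K q := fun t ht =>
    e6_single hk q (r := e6p4) (by simp) (by rw [← hφ, ht])
  have hB56 : ∀ t : K, xU hk 56 t * xU hk 36 (((epsE6.getD 56 1 : ℤ) : K) * φ t) ∈
      twistedE6 K q := by
    intro t
    have h := e6_pair (K := K) hk q (rs := (e6p1, e6p6)) (by simp) t
    rw [(e6_gen_facts (56, 36) (by simp)).2.2, Int.cast_one, one_mul, hφ]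
    exact h
  have hB42 : ∀ t : K, xU hk 42 t * xU hk 37 (((epsE6.getD 42 1 : ℤ) : K) * φ t) ∈
      twistedE6 K q := by
    intro t
    have h := e6_pair (K := K) hk q (rs := (e6p3, e6p5)) (by simp) t
    rw [(e6_gen_facts (42, 37) (by simp)).2.2, Int.cast_one, one_mul, hφ]
    exact h
  obtain ⟨wa0, wa1, wa2, wa3, wa4, wa5, wa6, wa7, wa8, wa9, wa10, wa11, wa12, wa13, wa14, wa15, wa16, wa17, wa18, wa19, wa20, wa21, wa22, wa23, wa24, wa25, wa26, wa27, wa28, wa29⟩ := e6_wact_facts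
  have hB43 := block2_conj A hok φ O (twistedE6 K q) hGfix [3] hw3 hn3
    (r1 := 42) (r2 := 37) (e6_wact_lt 42 (by simp)) (e6_wact_lt 37 (by simp)) (κ := 6)
    (e6_ord_pair 6 (by decide)).1 wa0 wa1 (e6_ord_pair 6 (by decide)).2.1
    (e6_ord_pair 6 (by decide)).2.2.1 (cP 6 (by decide)) (e6_rhoSt 8 (by decide)) _ hB42
  have hB47 : ∀ t : K, φ t = t → xU hk 47 t ∈ twistedE6 K q :=
    block1_conj A φ (twistedE6 K q) [3] hw3 hn3 (r := 46) (e6_wact_lt 46 (by simp)) wa2 hB46
  have hB57 := block2_conj A hok φ O (twistedE6 K q) hGfix [2, 4] hw24 hn24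
    (r1 := 56) (r2 := 36) (e6_wact_lt 56 (by simp)) (e6_wact_lt 36 (by simp)) (κ := 9)
    (e6_ord_pair 9 (by decide)).1 wa3 wa4 (e6_ord_pair 9 (by decide)).2.1
    (e6_ord_pair 9 (by decide)).2.2.1 (cP 9 (by decide)) (e6_rhoSt 11 (by decide)) _ hB56
  have hB44 : ∀ t : K, φ t = t → xU hk 44 t ∈ twistedE6 K q :=
    block1_conj A φ (twistedE6 K q) [2, 4] hw24 hn24 (r := 39) (e6_wact_lt 39 (by simp)) wa5 hB39
  have hB50 := block2_conj A hok φ O (twistedE6 K q) hGfix [1] hw1 hn1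
    (r1 := 43) (r2 := 40) (e6_wact_lt 43 (by simp)) (e6_wact_lt 40 (by simp)) (κ := 12)
    (e6_ord_pair 12 (by decide)).1 wa6 wa7 (e6_ord_pair 12 (by decide)).2.1
    (e6_ord_pair 12 (by decide)).2.2.1 (cP 12 (by decide)) (e6_rhoSt 14 (by decide)) _ hB43
  have hB58 := block2_conj A hok φ O (twistedE6 K q) hGfix [3] hw3 hn3
    (r1 := 57) (r2 := 38) (e6_wact_lt 57 (by simp)) (e6_wact_lt 38 (by simp)) (κ := 14)
    (e6_ord_pair 14 (by decide)).1 wa8 wa9 (e6_ord_pair 14 (by decide)).2.1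
    (e6_ord_pair 14 (by decide)).2.2.1 (cP 14 (by decide)) (e6_rhoSt 16 (by decide)) _ hB57
  have hB51 : ∀ t : K, φ t = t → xU hk 51 t ∈ twistedE6 K q :=
    block1_conj A φ (twistedE6 K q) [2, 4] hw24 hn24 (r := 47) (e6_wact_lt 47 (by simp)) wa10 hB47
  have hB59 := block2_conj A hok φ O (twistedE6 K q) hGfix [2, 4] hw24 hn24
    (r1 := 58) (r2 := 41) (e6_wact_lt 58 (by simp)) (e6_wact_lt 41 (by simp)) (κ := 17)
    (e6_ord_pair 17 (by decide)).1 wa11 wa12 (e6_ord_pair 17 (by decide)).2.1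
    (e6_ord_pair 17 (by decide)).2.2.1 (cP 17 (by decide)) (e6_rhoSt 19 (by decide)) _ hB58
  have hB61 := block2_conj A hok φ O (twistedE6 K q) hGfix [1] hw1 hn1
    (r1 := 58) (r2 := 41) (e6_wact_lt 58 (by simp)) (e6_wact_lt 41 (by simp)) (κ := 19)
    (e6_ord_pair 19 (by decide)).1 wa13 wa14 (e6_ord_pair 19 (by decide)).2.1
    (e6_ord_pair 19 (by decide)).2.2.1 (cP 19 (by decide)) (e6_rhoSt 21 (by decide)) _ hB58
  have hB53 : ∀ t : K, φ t = t → xU hk 53 t ∈ twistedE6 K q :=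
    block1_conj A φ (twistedE6 K q) [3] hw3 hn3 (r := 51) (e6_wact_lt 51 (by simp)) wa15 hB51
  have hB60 : ∀ t : K, φ t = t → xU hk 60 t ∈ twistedE6 K q :=
    block1_conj A φ (twistedE6 K q) [0, 5] hw05 hn05 (r := 44) (e6_wact_lt 44 (by simp)) wa16 hB44
  have hB62 := block2_conj A hok φ O (twistedE6 K q) hGfix [2, 4] hw24 hn24
    (r1 := 61) (r2 := 49) (e6_wact_lt 61 (by simp)) (e6_wact_lt 49 (by simp)) (κ := 23)
    (e6_ord_pair 23 (by decide)).1 wa17 wa18 (e6_ord_pair 23 (by decide)).2.1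
    (e6_ord_pair 23 (by decide)).2.2.1 (cP 23 (by decide)) (e6_rhoSt 25 (by decide)) _ hB61
  have hB63 : ∀ t : K, φ t = t → xU hk 63 t ∈ twistedE6 K q :=
    block1_conj A φ (twistedE6 K q) [0, 5] hw05 hn05 (r := 51) (e6_wact_lt 51 (by simp)) wa19 hB51
  have hB64 := block2_conj A hok φ O (twistedE6 K q) hGfix [3] hw3 hn3
    (r1 := 62) (r2 := 52) (e6_wact_lt 62 (by simp)) (e6_wact_lt 52 (by simp)) (κ := 26)
    (e6_ord_pair 26 (by decide)).1 wa20 wa21 (e6_ord_pair 26 (by decide)).2.1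
    (e6_ord_pair 26 (by decide)).2.2.1 (cP 26 (by decide)) (e6_rhoSt 28 (by decide)) _ hB62
  have hB65 : ∀ t : K, φ t = t → xU hk 65 t ∈ twistedE6 K q :=
    block1_conj A φ (twistedE6 K q) [0, 5] hw05 hn05 (r := 53) (e6_wact_lt 53 (by simp)) wa22 hB53
  have hB67 := block2_conj A hok φ O (twistedE6 K q) hGfix [2, 4] hw24 hn24
    (r1 := 64) (r2 := 54) (e6_wact_lt 64 (by simp)) (e6_wact_lt 54 (by simp)) (κ := 29)
    (e6_ord_pair 29 (by decide)).1 wa23 wa24 (e6_ord_pair 29 (by decide)).2.1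
    (e6_ord_pair 29 (by decide)).2.2.1 (cP 29 (by decide)) (e6_rhoSt 31 (by decide)) _ hB64
  have hB68 := block2_conj A hok φ O (twistedE6 K q) hGfix [0, 5] hw05 hn05
    (r1 := 67) (r2 := 55) (e6_wact_lt 67 (by simp)) (e6_wact_lt 55 (by simp)) (κ := 31)
    (e6_ord_pair 31 (by decide)).1 wa25 wa26 (e6_ord_pair 31 (by decide)).2.1
    (e6_ord_pair 31 (by decide)).2.2.1 (cP 31 (by decide)) (e6_rhoSt 33 (by decide)) _ hB67
  have hB69 : ∀ t : K, φ t = t → xU hk 69 t ∈ twistedE6 K q :=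
    block1_conj A φ (twistedE6 K q) [2, 4] hw24 hn24 (r := 65) (e6_wact_lt 65 (by simp)) wa27 hB65
  have hB70 : ∀ t : K, φ t = t → xU hk 70 t ∈ twistedE6 K q :=
    block1_conj A φ (twistedE6 K q) [3] hw3 hn3 (r := 69) (e6_wact_lt 69 (by simp)) wa28 hB69
  have hB71 : ∀ t : K, φ t = t → xU hk 71 t ∈ twistedE6 K q :=
    block1_conj A φ (twistedE6 K q) [1] hw1 hn1 (r := 70) (e6_wact_lt 70 (by simp)) wa29 hB70
  -- the parametrised elements lie in the twisted group
  have hmemG : ∀ a b : ℕ → K, (∀ i < 12, φ (a i) = a i) →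
      ordW hk e6Ord (e6Coef φ a b) 0 36 ∈ twistedE6 K q := by
    intro a b ha
    rw [ordW_succ]
    refine mul_mem (hB39 _ (ha 0 (by norm_num))) ?_
    rw [ordW_succ2]
    refine mul_mem (hB42 _) ?_
    rw [ordW_succ]
    refine mul_mem (hB46 _ (ha 1 (by norm_num))) ?_
    rw [ordW_succ2]
    refine mul_mem (hB56 _) ?_
    rw [ordW_succ2]
    refine mul_mem (hB43 _) ?_
    rw [ordW_succ]
    refine mul_mem (hB47 _ (ha 2 (by norm_num))) ?_
    rw [ordW_succ2]
    refine mul_mem (hB57 _) ?_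
    rw [ordW_succ]
    refine mul_mem (hB44 _ (ha 3 (by norm_num))) ?_
    rw [ordW_succ2]
    refine mul_mem (hB50 _) ?_
    rw [ordW_succ2]
    refine mul_mem (hB58 _) ?_
    rw [ordW_succ]
    refine mul_mem (hB51 _ (ha 4 (by norm_num))) ?_
    rw [ordW_succ2]
    refine mul_mem (hB59 _) ?_
    rw [ordW_succ2]
    refine mul_mem (hB61 _) ?_
    rw [ordW_succ]
    refine mul_mem (hB53 _ (ha 5 (by norm_num))) ?_
    rw [ordW_succ]
    refine mul_mem (hB60 _ (ha 6 (by norm_num))) ?_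
    rw [ordW_succ2]
    refine mul_mem (hB62 _) ?_
    rw [ordW_succ]
    refine mul_mem (hB63 _ (ha 7 (by norm_num))) ?_
    rw [ordW_succ2]
    refine mul_mem (hB64 _) ?_
    rw [ordW_succ]
    refine mul_mem (hB65 _ (ha 8 (by norm_num))) ?_
    rw [ordW_succ2]
    refine mul_mem (hB67 _) ?_
    rw [ordW_succ2]
    refine mul_mem (hB68 _) ?_
    rw [ordW_succ]
    refine mul_mem (hB69 _ (ha 9 (by norm_num))) ?_
    rw [ordW_succ]
    refine mul_mem (hB70 _ (ha 10 (by norm_num))) ?_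
    rw [ordW_succ]
    refine mul_mem (hB71 _ (ha 11 (by norm_num))) ?_
    rw [ordW_zero]
    exact one_mem _
  -- every fixed element of `U` is a parametrised element
  have hsurj : ∀ u ∈ chevE6.posUnipotent K, u ∈ twFix hok φ → ∃ a b : ℕ → K,
      (∀ i < 12, φ (a i) = a i) ∧ u = ordW hk e6Ord (e6Coef φ a b) 0 36 := by
    intro u hu hfix
    rw [posU_eq_tord A O] at hu
    obtain ⟨c, rfl⟩ := ordW_surj A O 36 0 (by decide) u hu
    have m : ∀ n κ, κ + n ≤ 36 → ordW hk e6Ord c κ n ∈ vSub hk K (TOrd e6Ord κ) 0 :=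
      fun n κ h => ordW_mem hk c n κ h
    have f0 := hfix
    rw [ordW_succ] at f0
    obtain ⟨q0, f1⟩ := peel_fix1 A hok φ O (κ := 0) (e6_ord_single 0 (by decide)).1
      (e6_ord_single 0 (by decide)).2.1 (e6_ord_single 0 (by decide)).2.2 (e6_rhoSt 1 (by decide))
      (m 35 1 (by norm_num)) f0
    have q0' : φ (c 0) = c 0 := q0
    rw [ordW_succ2] at f1
    obtain ⟨q1, f3⟩ := peel_fix2 A hok φ O (κ := 1) (e6_ord_pair 1 (by decide)).1
      (e6_ord_pair 1 (by decide)).2.1 (e6_ord_pair 1 (by decide)).2.2.1 (cP 1 (by decide))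
      (e6_rhoSt 3 (by decide)) (m 33 3 (by norm_num)) f1
    have q1' : c 2 = ((epsE6.getD 42 1 : ℤ) : K) * φ (c 1) := q1
    rw [ordW_succ] at f3
    obtain ⟨q3, f4⟩ := peel_fix1 A hok φ O (κ := 3) (e6_ord_single 3 (by decide)).1
      (e6_ord_single 3 (by decide)).2.1 (e6_ord_single 3 (by decide)).2.2 (e6_rhoSt 4 (by decide))
      (m 32 4 (by norm_num)) f3
    have q3' : φ (c 3) = c 3 := q3
    rw [ordW_succ2] at f4
    obtain ⟨q4, f6⟩ := peel_fix2 A hok φ O (κ := 4) (e6_ord_pair 4 (by decide)).1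
      (e6_ord_pair 4 (by decide)).2.1 (e6_ord_pair 4 (by decide)).2.2.1 (cP 4 (by decide))
      (e6_rhoSt 6 (by decide)) (m 30 6 (by norm_num)) f4
    have q4' : c 5 = ((epsE6.getD 56 1 : ℤ) : K) * φ (c 4) := q4
    rw [ordW_succ2] at f6
    obtain ⟨q6, f8⟩ := peel_fix2 A hok φ O (κ := 6) (e6_ord_pair 6 (by decide)).1
      (e6_ord_pair 6 (by decide)).2.1 (e6_ord_pair 6 (by decide)).2.2.1 (cP 6 (by decide))
      (e6_rhoSt 8 (by decide)) (m 28 8 (by norm_num)) f6
    have q6' : c 7 = ((epsE6.getD 43 1 : ℤ) : K) * φ (c 6) := q6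
    rw [ordW_succ] at f8
    obtain ⟨q8, f9⟩ := peel_fix1 A hok φ O (κ := 8) (e6_ord_single 8 (by decide)).1
      (e6_ord_single 8 (by decide)).2.1 (e6_ord_single 8 (by decide)).2.2 (e6_rhoSt 9 (by decide))
      (m 27 9 (by norm_num)) f8
    have q8' : φ (c 8) = c 8 := q8
    rw [ordW_succ2] at f9
    obtain ⟨q9, f11⟩ := peel_fix2 A hok φ O (κ := 9) (e6_ord_pair 9 (by decide)).1
      (e6_ord_pair 9 (by decide)).2.1 (e6_ord_pair 9 (by decide)).2.2.1 (cP 9 (by decide))
      (e6_rhoSt 11 (by decide)) (m 25 11 (by norm_num)) f9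
    have q9' : c 10 = ((epsE6.getD 57 1 : ℤ) : K) * φ (c 9) := q9
    rw [ordW_succ] at f11
    obtain ⟨q11, f12⟩ := peel_fix1 A hok φ O (κ := 11) (e6_ord_single 11 (by decide)).1
      (e6_ord_single 11 (by decide)).2.1 (e6_ord_single 11 (by decide)).2.2 (e6_rhoSt 12 (by decide))
      (m 24 12 (by norm_num)) f11
    have q11' : φ (c 11) = c 11 := q11
    rw [ordW_succ2] at f12
    obtain ⟨q12, f14⟩ := peel_fix2 A hok φ O (κ := 12) (e6_ord_pair 12 (by decide)).1
      (e6_ord_pair 12 (by decide)).2.1 (e6_ord_pair 12 (by decide)).2.2.1 (cP 12 (by decide))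
      (e6_rhoSt 14 (by decide)) (m 22 14 (by norm_num)) f12
    have q12' : c 13 = ((epsE6.getD 50 1 : ℤ) : K) * φ (c 12) := q12
    rw [ordW_succ2] at f14
    obtain ⟨q14, f16⟩ := peel_fix2 A hok φ O (κ := 14) (e6_ord_pair 14 (by decide)).1
      (e6_ord_pair 14 (by decide)).2.1 (e6_ord_pair 14 (by decide)).2.2.1 (cP 14 (by decide))
      (e6_rhoSt 16 (by decide)) (m 20 16 (by norm_num)) f14
    have q14' : c 15 = ((epsE6.getD 58 1 : ℤ) : K) * φ (c 14) := q14
    rw [ordW_succ] at f16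
    obtain ⟨q16, f17⟩ := peel_fix1 A hok φ O (κ := 16) (e6_ord_single 16 (by decide)).1
      (e6_ord_single 16 (by decide)).2.1 (e6_ord_single 16 (by decide)).2.2 (e6_rhoSt 17 (by decide))
      (m 19 17 (by norm_num)) f16
    have q16' : φ (c 16) = c 16 := q16
    rw [ordW_succ2] at f17
    obtain ⟨q17, f19⟩ := peel_fix2 A hok φ O (κ := 17) (e6_ord_pair 17 (by decide)).1
      (e6_ord_pair 17 (by decide)).2.1 (e6_ord_pair 17 (by decide)).2.2.1 (cP 17 (by decide))
      (e6_rhoSt 19 (by decide)) (m 17 19 (by norm_num)) f17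
    have q17' : c 18 = ((epsE6.getD 59 1 : ℤ) : K) * φ (c 17) := q17
    rw [ordW_succ2] at f19
    obtain ⟨q19, f21⟩ := peel_fix2 A hok φ O (κ := 19) (e6_ord_pair 19 (by decide)).1
      (e6_ord_pair 19 (by decide)).2.1 (e6_ord_pair 19 (by decide)).2.2.1 (cP 19 (by decide))
      (e6_rhoSt 21 (by decide)) (m 15 21 (by norm_num)) f19
    have q19' : c 20 = ((epsE6.getD 61 1 : ℤ) : K) * φ (c 19) := q19
    rw [ordW_succ] at f21
    obtain ⟨q21, f22⟩ := peel_fix1 A hok φ O (κ := 21) (e6_ord_single 21 (by decide)).1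
      (e6_ord_single 21 (by decide)).2.1 (e6_ord_single 21 (by decide)).2.2 (e6_rhoSt 22 (by decide))
      (m 14 22 (by norm_num)) f21
    have q21' : φ (c 21) = c 21 := q21
    rw [ordW_succ] at f22
    obtain ⟨q22, f23⟩ := peel_fix1 A hok φ O (κ := 22) (e6_ord_single 22 (by decide)).1
      (e6_ord_single 22 (by decide)).2.1 (e6_ord_single 22 (by decide)).2.2 (e6_rhoSt 23 (by decide))
      (m 13 23 (by norm_num)) f22
    have q22' : φ (c 22) = c 22 := q22
    rw [ordW_succ2] at f23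
    obtain ⟨q23, f25⟩ := peel_fix2 A hok φ O (κ := 23) (e6_ord_pair 23 (by decide)).1
      (e6_ord_pair 23 (by decide)).2.1 (e6_ord_pair 23 (by decide)).2.2.1 (cP 23 (by decide))
      (e6_rhoSt 25 (by decide)) (m 11 25 (by norm_num)) f23
    have q23' : c 24 = ((epsE6.getD 62 1 : ℤ) : K) * φ (c 23) := q23
    rw [ordW_succ] at f25
    obtain ⟨q25, f26⟩ := peel_fix1 A hok φ O (κ := 25) (e6_ord_single 25 (by decide)).1
      (e6_ord_single 25 (by decide)).2.1 (e6_ord_single 25 (by decide)).2.2 (e6_rhoSt 26 (by decide))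
      (m 10 26 (by norm_num)) f25
    have q25' : φ (c 25) = c 25 := q25
    rw [ordW_succ2] at f26
    obtain ⟨q26, f28⟩ := peel_fix2 A hok φ O (κ := 26) (e6_ord_pair 26 (by decide)).1
      (e6_ord_pair 26 (by decide)).2.1 (e6_ord_pair 26 (by decide)).2.2.1 (cP 26 (by decide))
      (e6_rhoSt 28 (by decide)) (m 8 28 (by norm_num)) f26
    have q26' : c 27 = ((epsE6.getD 64 1 : ℤ) : K) * φ (c 26) := q26
    rw [ordW_succ] at f28
    obtain ⟨q28, f29⟩ := peel_fix1 A hok φ O (κ := 28) (e6_ord_single 28 (by decide)).1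
      (e6_ord_single 28 (by decide)).2.1 (e6_ord_single 28 (by decide)).2.2 (e6_rhoSt 29 (by decide))
      (m 7 29 (by norm_num)) f28
    have q28' : φ (c 28) = c 28 := q28
    rw [ordW_succ2] at f29
    obtain ⟨q29, f31⟩ := peel_fix2 A hok φ O (κ := 29) (e6_ord_pair 29 (by decide)).1
      (e6_ord_pair 29 (by decide)).2.1 (e6_ord_pair 29 (by decide)).2.2.1 (cP 29 (by decide))
      (e6_rhoSt 31 (by decide)) (m 5 31 (by norm_num)) f29
    have q29' : c 30 = ((epsE6.getD 67 1 : ℤ) : K) * φ (c 29) := q29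
    rw [ordW_succ2] at f31
    obtain ⟨q31, f33⟩ := peel_fix2 A hok φ O (κ := 31) (e6_ord_pair 31 (by decide)).1
      (e6_ord_pair 31 (by decide)).2.1 (e6_ord_pair 31 (by decide)).2.2.1 (cP 31 (by decide))
      (e6_rhoSt 33 (by decide)) (m 3 33 (by norm_num)) f31
    have q31' : c 32 = ((epsE6.getD 68 1 : ℤ) : K) * φ (c 31) := q31
    rw [ordW_succ] at f33
    obtain ⟨q33, f34⟩ := peel_fix1 A hok φ O (κ := 33) (e6_ord_single 33 (by decide)).1
      (e6_ord_single 33 (by decide)).2.1 (e6_ord_single 33 (by decide)).2.2 (e6_rhoSt 34 (by decide))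
      (m 2 34 (by norm_num)) f33
    have q33' : φ (c 33) = c 33 := q33
    rw [ordW_succ] at f34
    obtain ⟨q34, f35⟩ := peel_fix1 A hok φ O (κ := 34) (e6_ord_single 34 (by decide)).1
      (e6_ord_single 34 (by decide)).2.1 (e6_ord_single 34 (by decide)).2.2 (e6_rhoSt 35 (by decide))
      (m 1 35 (by norm_num)) f34
    have q34' : φ (c 34) = c 34 := q34
    rw [ordW_succ] at f35
    obtain ⟨q35, f36⟩ := peel_fix1 A hok φ O (κ := 35) (e6_ord_single 35 (by decide)).1
      (e6_ord_single 35 (by decide)).2.1 (e6_ord_single 35 (by decide)).2.2 (e6_rhoSt 36 (by decide))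
      (m 0 36 (by norm_num)) f35
    have q35' : φ (c 35) = c 35 := q35
    refine ⟨fun i => c (e6SPos.getD i 0), fun i => c (e6PPos.getD i 0), ?_, ?_⟩
    · intro i hi
      interval_cases i
      · exact q0'
      · exact q3'
      · exact q8'
      · exact q11'
      · exact q16'
      · exact q21'
      · exact q22'
      · exact q25'
      · exact q28'
      · exact q33'
      · exact q34'
      · exact q35'
    · apply ordW_congr
      intro j _ hj
      have hj' : j < 36 := by omega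
      interval_cases j
      · rfl
      · rfl
      · exact q1'
      · rfl
      · rfl
      · exact q4'
      · rfl
      · exact q6'
      · rfl
      · rfl
      · exact q9'
      · rfl
      · rfl
      · exact q12'
      · rfl
      · exact q14'
      · rfl
      · rfl
      · exact q17'
      · rfl
      · exact q19'
      · rfl
      · rfl
      · rfl
      · exact q23'
      · rfl
      · rfl
      · exact q26'
      · rfl
      · rfl
      · exact q29'
      · rfl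
      · exact q31'
      · rfl
      · rfl
      · rfl
  -- the count
  have hcard0 : Nat.card {t : K // t ^ q = t} = q := card_frob_fixed hq1 (by norm_num) hK
  have hfix0 : ∀ t : {t : K // t ^ q = t}, φ t.1 = t.1 := fun t => by rw [hφ, t.2]
  let cA : (Fin 12 → {t : K // t ^ q = t}) → ℕ → K := fun p i =>
    if h : i < 12 then (p ⟨i, h⟩).1 else 0
  let cB : (Fin 12 → K) → ℕ → K := fun p i => if h : i < 12 then p ⟨i, h⟩ else 0
  have hcA : ∀ (p : Fin 12 → {t : K // t ^ q = t}) (i : ℕ), i < 12 → φ (cA p i) = cA p i := by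
    intro p i hi
    simp only [cA, dif_pos hi]
    exact hfix0 _
  let Ψ : (Fin 12 → {t : K // t ^ q = t}) × (Fin 12 → K) →
      ↥(chevE6.posUnipotent K ⊓ twistedE6 K q) := fun p =>
    ⟨ordW hk e6Ord (e6Coef φ (cA p.1) (cB p.2)) 0 36,
      by
        rw [posU_eq_tord A O]
        exact ordW_mem hk _ 36 0 (by decide),
      hmemG _ _ (hcA p.1)⟩
  have hΨ : Function.Bijective Ψ := by
    constructor
    · intro p p' h
      have h2 : ordW hk e6Ord (e6Coef φ (cA p.1) (cB p.2)) 0 36 =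
          ordW hk e6Ord (e6Coef φ (cA p'.1) (cB p'.2)) 0 36 := congrArg Subtype.val h
      have h3 := ordW_inj A O 36 0 (by decide) h2
      refine Prod.ext ?_ ?_
      · funext i
        apply Subtype.ext
        obtain ⟨i, hi⟩ := i
        interval_cases i
        · exact h3 0 (by norm_num) (by norm_num)
        · exact h3 3 (by norm_num) (by norm_num)
        · exact h3 8 (by norm_num) (by norm_num)
        · exact h3 11 (by norm_num) (by norm_num)
        · exact h3 16 (by norm_num) (by norm_num)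
        · exact h3 21 (by norm_num) (by norm_num)
        · exact h3 22 (by norm_num) (by norm_num)
        · exact h3 25 (by norm_num) (by norm_num)
        · exact h3 28 (by norm_num) (by norm_num)
        · exact h3 33 (by norm_num) (by norm_num)
        · exact h3 34 (by norm_num) (by norm_num)
        · exact h3 35 (by norm_num) (by norm_num)
      · funext i
        obtain ⟨i, hi⟩ := i
        interval_cases i
        · exact h3 1 (by norm_num) (by norm_num)
        · exact h3 4 (by norm_num) (by norm_num)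
        · exact h3 6 (by norm_num) (by norm_num)
        · exact h3 9 (by norm_num) (by norm_num)
        · exact h3 12 (by norm_num) (by norm_num)
        · exact h3 14 (by norm_num) (by norm_num)
        · exact h3 17 (by norm_num) (by norm_num)
        · exact h3 19 (by norm_num) (by norm_num)
        · exact h3 23 (by norm_num) (by norm_num)
        · exact h3 26 (by norm_num) (by norm_num)
        · exact h3 29 (by norm_num) (by norm_num)
        · exact h3 31 (by norm_num) (by norm_num)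
    · rintro ⟨u, hu⟩
      obtain ⟨a, b, ha, rfl⟩ := hsurj u hu.1 (hGfix hu.2)
      refine ⟨(fun i => ⟨a i.val, by rw [← hφ, ha i.val i.isLt]⟩, fun i => b i.val), ?_⟩
      apply Subtype.ext
      show ordW hk e6Ord (e6Coef φ (cA (fun i => ⟨a i.val, by rw [← hφ, ha i.val i.isLt]⟩))
        (cB (fun i => b i.val))) 0 36 = ordW hk e6Ord (e6Coef φ a b) 0 36
      apply ordW_congr
      intro j _ hj
      have hj' : j < 36 := by omega
      interval_cases j <;> rfl
  refine ⟨φ, hφ, hGfix, fun u hu hf => ?_, hn1, hn3, hn05, hn24, hB46 1 (map_one φ),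
    hB39 1 (map_one φ), ?_, ?_, ?_⟩
  · obtain ⟨a, b, ha, rfl⟩ := hsurj u hu hf
    exact hmemG a b ha
  · have h := e6_pair (K := K) hk q (rs := (e6p1, e6p6)) (by simp) 1
    rw [one_pow] at h
    exact h
  · have h := e6_pair (K := K) hk q (rs := (e6p3, e6p5)) (by simp) 1
    rw [one_pow] at h
    exact h
  rw [← Nat.card_congr (Equiv.ofBijective Ψ hΨ), Nat.card_prod, Nat.card_fun, Nat.card_fun,
    hcard0, Nat.card_eq_fintype_card (α := K), hK, Nat.card_eq_fintype_card, Fintype.card_fin]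
  ring

/-- The order of `U ∩ ²E₆(q)`. -/
theorem twE6_posU_card {q : ℕ} (hq : IsPrimePow q) (hK : Fintype.card K = q ^ 2) :
    Nat.card ↥(chevE6.posUnipotent K ⊓ twistedE6 K q) = q ^ 36 := by
  have hD : chevE6 ∈ [chevG2, chevB2, chevD4, chevF4, chevE6, chevE7, chevE8] := by
    simp only [List.mem_cons, true_or, or_true]
  obtain ⟨φ, -, -, -, -, -, -, -, -, -, -, -, h⟩ := twE6_pack hq hK (allok_cert _ hD)
  exact h

end

end Cfsg.Agent.Lib.Helper9
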