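import Cfsg.Agent.Lib.Helper9.TwBN
import Cfsg.Agent.Lib.Helper9.TwE6U

set_option autoImplicit false

namespace Cfsg.Agent.Lib.Helper9

open Cfsg.Lie
open Cfsg.Agent.Lib.Helper15.ChevGraphEx

/-! ### The `(B, N)`-pair and the simplicity of the twisted group of type `E₆` -/

set_option maxRecDepth 1000000 in
theorem e6_posSt : PosSt chevE6 rhoE6 := by decide +kernel

set_option maxRecDepth 1000000 in
theorem e6_wsq : ∀ w ∈ ([[1], [3], [2, 4], [0, 5]] : List (List ℕ)), ∀ r < chevE6.nroots,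
    wActP (permOf chevE6) (w ++ w) r = r := by decide +kernel

set_option maxRecDepth 1000000 in
theorem e6_wsep : ∀ w ∈ ([[1], [3], [2, 4], [0, 5]] : List (List ℕ)),
    ∀ w' ∈ ([[1], [3], [2, 4], [0, 5]] : List (List ℕ)), w ≠ w' → SepW chevE6 w w' := by
  decide +kernel

set_option maxRecDepth 1000000 in
theorem e6_wsub : ∀ w ∈ ([[1], [3], [2, 4], [0, 5]] : List (List ℕ)), ∀ w' ∈ w.sublists,
    w' ≠ [] → w' ≠ w → SepW chevE6 w' (w'.map fun i => permE6.getD i 0) := by decide +kernel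

set_option maxRecDepth 1000000 in
theorem e6_nc : NcW chevE6 [1] [3] ∧ NcW chevE6 [3] [2, 4] ∧ NcW chevE6 [2, 4] [0, 5] := by
  decide +kernel

set_option maxRecDepth 1000000 in
theorem e6_wact2 : wActP (permOf chevE6) [1] 46 = 25 ∧ wActP (permOf chevE6) [3] 39 = 32 ∧
    wActP (permOf chevE6) [0, 5] 56 = 15 ∧ wActP (permOf chevE6) [0, 5] 36 = 35 ∧
    wActP (permOf chevE6) [2, 4] 42 = 29 ∧ wActP (permOf chevE6) [2, 4] 37 = 34 := by
  decide +kernel

theorem e6_posneg_facts : chevE6.IsPosRoot 46 ∧ chevE6.IsPosRoot 39 ∧ chevE6.IsPosRoot 56 ∧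
    chevE6.IsPosRoot 36 ∧ chevE6.IsPosRoot 42 ∧ chevE6.IsPosRoot 37 ∧ chevE6.IsNegRoot 25 ∧
    chevE6.IsNegRoot 32 ∧ chevE6.IsNegRoot 15 ∧ chevE6.IsNegRoot 35 ∧ chevE6.IsNegRoot 29 ∧
    chevE6.IsNegRoot 34 := by decide +kernel

section

variable {K : Type*} [Field K] [Fintype K]

/-- The twisted group of type `E₆` with its twisted reflections. -/
theorem twE6_twPack {q : ℕ} (hq : IsPrimePow q) (hK : Fintype.card K = q ^ 2)
    (A : ALLOK chevE6) :
    ∃ φ : K →+* K, TwPack A graphOK_E6 φ (twistedE6 K q) [[1], [3], [2, 4], [0, 5]] := by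
  obtain ⟨φ, hφ, hGfix, hfixU, hn1, hn3, hn05, hn24, hx46, hx39, hx56, hx42, -⟩ :=
    twE6_pack hq hK A
  have hk := A.hk
  have O := e6_ordOK
  obtain ⟨wa1, wa3, wa05a, wa05b, wa24a, wa24b⟩ := e6_wact2
  obtain ⟨p46, p39, p56, p36, p42, p37, m25, m32, m15, m35, m29, m34⟩ := e6_posneg_facts
  have hw1 : ∀ i ∈ ([1] : List ℕ), i < chevE6.rank := by decide
  have hw3 : ∀ i ∈ ([3] : List ℕ), i < chevE6.rank := by decide
  have hw05 : ∀ i ∈ ([0, 5] : List ℕ), i < chevE6.rank := by decide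
  have hw24 : ∀ i ∈ ([2, 4] : List ℕ), i < chevE6.rank := by decide
  have hxU : ∀ {r : ℕ}, chevE6.IsPosRoot r → ∀ t : K, xU A.hk r t ∈ chevE6.posUnipotent K :=
    fun {r} hr t => Subgroup.subset_closure ⟨r, t, hr, xU_val A.hk r t⟩
  refine ⟨φ, {
    surj := frob_surj φ
    pos := e6_posSt
    le_fix := hGfix
    fixU := hfixU
    wlt := by decide
    wmem := ?_
    wsq := e6_wsq
    wsep := e6_wsep
    wsub := e6_wsub
    wne := ?_
    gen := ?_ }⟩
  · intro w hw
    simp only [List.mem_cons, List.not_mem_nil, or_false] at hw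
    rcases hw with rfl | rfl | rfl | rfl
    · exact hn1
    · exact hn3
    · exact hn24
    · exact hn05
  · intro w hw
    simp only [List.mem_cons, List.not_mem_nil, or_false] at hw
    rcases hw with rfl | rfl | rfl | rfl
    · refine ⟨xU A.hk 46 1, hx46, hxU p46 1, fun h => one_ne_zero (xU_eq_one A.hk p46.1 h), ?_⟩
      exact nW_conj_neg_mem A hw1 p46.1 (by rw [wa1]; exact m25) 1
    · refine ⟨xU A.hk 39 1, hx39, hxU p39 1, fun h => one_ne_zero (xU_eq_one A.hk p39.1 h), ?_⟩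
      exact nW_conj_neg_mem A hw3 p39.1 (by rw [wa3]; exact m32) 1
    · refine ⟨xU A.hk 42 1 * xU A.hk 37 1, hx42, mul_mem (hxU p42 1) (hxU p37 1),
        fun h => ?_, ?_⟩
      · have e : xU A.hk 42 (1 : K) = (xU A.hk 37 1)⁻¹ := by
          rw [eq_inv_iff_mul_eq_one]
          exact h
        have hmem : xU A.hk (e6Ord.getD 1 0) (1 : K) ∈ vSub A.hk K (TOrd e6Ord (1 + 1)) 0 := by
          show xU A.hk 42 (1 : K) ∈ vSub A.hk K (TOrd e6Ord 2) 0
          rw [e]
          exact inv_mem (xU_mem_tord A.hk (ord := e6Ord) (κ := 2) (j := 2) le_rfl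
            (by decide) 1)
        exact one_ne_zero (tord_zero A O (κ := 1) (by decide) hmem)
      · have e : nW A.hk K [2, 4] * (xU A.hk 42 1 * xU A.hk 37 1) * (nW A.hk K [2, 4])⁻¹ =
            (nW A.hk K [2, 4] * xU A.hk 42 1 * (nW A.hk K [2, 4])⁻¹) *
            (nW A.hk K [2, 4] * xU A.hk 37 1 * (nW A.hk K [2, 4])⁻¹) := by group
        rw [e]
        exact mul_mem (nW_conj_neg_mem A hw24 p42.1 (by rw [wa24a]; exact m29) 1)
          (nW_conj_neg_mem A hw24 p37.1 (by rw [wa24b]; exact m34) 1)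
    · refine ⟨xU A.hk 56 1 * xU A.hk 36 1, hx56, mul_mem (hxU p56 1) (hxU p36 1),
        fun h => ?_, ?_⟩
      · have e : xU A.hk 56 (1 : K) = (xU A.hk 36 1)⁻¹ := by
          rw [eq_inv_iff_mul_eq_one]
          exact h
        have hmem : xU A.hk (e6Ord.getD 4 0) (1 : K) ∈ vSub A.hk K (TOrd e6Ord (4 + 1)) 0 := by
          show xU A.hk 56 (1 : K) ∈ vSub A.hk K (TOrd e6Ord 5) 0
          rw [e]
          exact inv_mem (xU_mem_tord A.hk (ord := e6Ord) (κ := 5) (j := 5) le_rfl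
            (by decide) 1)
        exact one_ne_zero (tord_zero A O (κ := 4) (by decide) hmem)
      · have e : nW A.hk K [0, 5] * (xU A.hk 56 1 * xU A.hk 36 1) * (nW A.hk K [0, 5])⁻¹ =
            (nW A.hk K [0, 5] * xU A.hk 56 1 * (nW A.hk K [0, 5])⁻¹) *
            (nW A.hk K [0, 5] * xU A.hk 36 1 * (nW A.hk K [0, 5])⁻¹) := by group
        rw [e]
        exact mul_mem (nW_conj_neg_mem A hw05 p56.1 (by rw [wa05a]; exact m15) 1)
          (nW_conj_neg_mem A hw05 p36.1 (by rw [wa05b]; exact m35) 1)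
  · show Subgroup.closure {g : GL chevE6.Idx K | ∃ w ∈ e6Words K q,
      (g : Matrix chevE6.Idx chevE6.Idx K) = chevE6.wordMat K w} ≤ _
    rw [Subgroup.closure_le]
    rintro g ⟨w, hw, hg⟩
    have hgG : g ∈ twistedE6 K q := Subgroup.subset_closure ⟨w, hw, hg⟩
    rcases hw with ⟨t, ht, r, hr, rfl⟩ | ⟨t, rs, hrs, rfl⟩
    · have e : g = xU A.hk r t := Units.ext (by rw [hg]; simp [ChevalleyDatum.wordMat, xU_val])
      simp only [List.mem_cons, List.not_mem_nil, or_false] at hr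
      rcases hr with rfl | rfl | rfl | rfl
      · exact mem_gen_of_pos A hgG (by rw [e]; exact hxU p46 t)
      · refine mem_gen_of_conj A (w := [1]) (by simp) hn1 hgG ?_
        rw [e]
        exact nW_inv_conj_mem A hw1 p46 wa1 t
      · exact mem_gen_of_pos A hgG (by rw [e]; exact hxU p39 t)
      · refine mem_gen_of_conj A (w := [3]) (by simp) hn3 hgG ?_
        rw [e]
        exact nW_inv_conj_mem A hw3 p39 wa3 t
    · have e : g = xU A.hk rs.1 t * xU A.hk rs.2 (t ^ q) :=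
        Units.ext (by rw [hg]; simp [ChevalleyDatum.wordMat, xU_val])
      simp only [List.mem_cons, List.not_mem_nil, or_false] at hrs
      rcases hrs with rfl | rfl | rfl | rfl
      · exact mem_gen_of_pos A hgG (by
          rw [e]
          exact mul_mem (hxU p56 _) (hxU p36 _))
      · refine mem_gen_of_conj A (w := [0, 5]) (by simp) hn05 hgG ?_
        rw [e]
        have e2 : (nW A.hk K [0, 5])⁻¹ * (xU A.hk (e6m1, e6m6).1 t *
            xU A.hk (e6m1, e6m6).2 (t ^ q)) * nW A.hk K [0, 5] =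
            ((nW A.hk K [0, 5])⁻¹ * xU A.hk 15 t * nW A.hk K [0, 5]) *
            ((nW A.hk K [0, 5])⁻¹ * xU A.hk 35 (t ^ q) * nW A.hk K [0, 5]) := by
          show (nW A.hk K [0, 5])⁻¹ * (xU A.hk 15 t * xU A.hk 35 (t ^ q)) *
            nW A.hk K [0, 5] = _
          group
        rw [e2]
        exact mul_mem (nW_inv_conj_mem A hw05 p56 wa05a _) (nW_inv_conj_mem A hw05 p36 wa05b _)
      · exact mem_gen_of_pos A hgG (by
          rw [e]
          exact mul_mem (hxU p42 _) (hxU p37 _))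
      · refine mem_gen_of_conj A (w := [2, 4]) (by simp) hn24 hgG ?_
        rw [e]
        have e2 : (nW A.hk K [2, 4])⁻¹ * (xU A.hk (e6m3, e6m5).1 t *
            xU A.hk (e6m3, e6m5).2 (t ^ q)) * nW A.hk K [2, 4] =
            ((nW A.hk K [2, 4])⁻¹ * xU A.hk 29 t * nW A.hk K [2, 4]) *
            ((nW A.hk K [2, 4])⁻¹ * xU A.hk 34 (t ^ q) * nW A.hk K [2, 4]) := by
          show (nW A.hk K [2, 4])⁻¹ * (xU A.hk 29 t * xU A.hk 34 (t ^ q)) *
            nW A.hk K [2, 4] = _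
          group
        rw [e2]
        exact mul_mem (nW_inv_conj_mem A hw24 p42 wa24a _) (nW_inv_conj_mem A hw24 p37 wa24b _)

/-- The `(B, N)`-pair of `²E₆(q)`. -/
theorem twE6_bn_pair {q : ℕ} (hq : IsPrimePow q) (hK : Fintype.card K = q ^ 2) :
    ∃ P : Cfsg.BNPair ↥(twistedE6 K q),
      P.B = (chevE6.borelSubgroup K ⊓ twistedE6 K q).subgroupOf (twistedE6 K q) ∧
      P.N = (chevE6.monomialSubgroup K ⊓ twistedE6 K q).subgroupOf (twistedE6 K q) := by
  have hD : chevE6 ∈ [chevG2, chevB2, chevD4, chevF4, chevE6, chevE7, chevE8] := by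
    simp only [List.mem_cons, true_or, or_true]
  obtain ⟨φ, T⟩ := twE6_twPack hq hK (allok_cert _ hD)
  obtain ⟨P, hB, hN, -⟩ := tw_bn_pair T
  exact ⟨P, hB, hN⟩

/-- `²E₆(q)` is simple. -/
theorem twE6_simple {q : ℕ} (hq : IsPrimePow q) (hK : Fintype.card K = q ^ 2) :
    IsSimpleGroup ↥(twistedE6 K q) ∧ ¬ IsMulCommutative ↥(twistedE6 K q) := by
  have hD : chevE6 ∈ [chevG2, chevB2, chevD4, chevF4, chevE6, chevE7, chevE8] := by
    simp only [List.mem_cons, true_or, or_true]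
  obtain ⟨φ, T⟩ := twE6_twPack hq hK (allok_cert _ hD)
  obtain ⟨nc1, nc2, nc3⟩ := e6_nc
  refine tw_simple T ?_ (by simp) (twE6_perfect hq hK) (twE6_core hK)
  intro j hj
  have hj3 : j < 3 := by
    simp only [List.length_cons, List.length_nil] at hj
    omega
  interval_cases j
  · exact nc1
  · exact nc2
  · exact nc3

end

end Cfsg.Agent.Lib.Helper9
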