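import Cfsg.Agent.Lib.Helper9.TwE6TblA
import Cfsg.Agent.Lib.Helper9.TwE6TblB
import Cfsg.Agent.Lib.Helper9.TwE6TblC

set_option autoImplicit false

namespace Cfsg.Agent.Lib.Helper9

open Cfsg.Lie
open Cfsg.Agent.Lib.Helper4
open Cfsg.Agent.Lib.Helper15.ChevGraphEx

/-! ### The order of the twisted group of type `E₆` -/

theorem wActP_app (Ps u v : List ℕ) (r : ℕ) :
    wActP Ps (u ++ v) r = wActP Ps u (wActP Ps v r) := by
  induction u with
  | nil => rfl
  | cons i u ih => rw [List.cons_append, wActP_cons, wActP_cons, ih]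

theorem e6Blk_lt (b : ℕ) : ∀ i ∈ e6Blk b, i < 6 := by
  rcases b with _ | _ | _ | b <;> simp [e6Blk]

theorem e6Blk_mem (b : ℕ) : e6Blk b ∈ [[1], [3], [2, 4], [0, 5]] := by
  rcases b with _ | _ | _ | b <;> simp [e6Blk]

theorem e6Blk_ne (b : ℕ) : (e6Blk b).length ≠ 0 := by
  rcases b with _ | _ | _ | b <;> simp [e6Blk]

theorem e6Wd_lt (L : List ℕ) : ∀ i ∈ e6Wd L, i < 6 := by
  intro i hi
  unfold e6Wd at hi
  obtain ⟨blk, hblk, hi'⟩ := List.mem_flatten.mp hi
  obtain ⟨b, -, rfl⟩ := List.mem_map.mp hblk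
  exact e6Blk_lt b i hi'

theorem e6_act_lt : ∀ w : List ℕ, (∀ i ∈ w, i < 6) → ∀ r < 72,
    wActP (permOf chevE6) w r < 72
  | [], _, r, hr => hr
  | i :: w, hw, r, hr => by
    rw [wActP_cons]
    exact (e6_refl_facts i (hw i (by simp)) _
      (e6_act_lt w (fun j hj => hw j (List.mem_cons_of_mem _ hj)) r hr)).1

theorem e6_act_rev : ∀ w : List ℕ, (∀ i ∈ w, i < 6) → ∀ r < 72,
    wActP (permOf chevE6) w.reverse (wActP (permOf chevE6) w r) = r
  | [], _, r, _ => rfl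
  | i :: w, hw, r, hr => by
    have hw' : ∀ j ∈ w, j < 6 := fun j hj => hw j (List.mem_cons_of_mem _ hj)
    rw [List.reverse_cons, wActP_app]
    show wActP (permOf chevE6) w.reverse (digitAt 256 (getN (permOf chevE6) i)
      (digitAt 256 (getN (permOf chevE6) i) (wActP (permOf chevE6) w r))) = r
    rw [(e6_refl_facts i (hw i (by simp)) _ (e6_act_lt w hw' r hr)).2]
    exact e6_act_rev w hw' r hr

theorem sgnF_eq_of_iff {g g' : ℕ → ℕ} : ∀ n, (∀ r < n, (g r < 36 ↔ g' r < 36)) →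
    sgnF g n = sgnF g' n
  | 0, _ => rfl
  | n + 1, h => by
    rw [sgnF, sgnF, sgnF_eq_of_iff n (fun r hr => h r (by omega))]
    congr 1
    exact if_congr (h n (by omega)) rfl rfl

theorem incB_aux : ∀ (l : List ℕ) (a : ℕ), incB (a :: l) = true → (∀ x ∈ l, a < x) ∧ l.Nodup
  | [], a, _ => ⟨by simp, List.nodup_nil⟩
  | b :: l, a, h => by
    rw [incB, Bool.and_eq_true, decide_eq_true_eq] at h
    obtain ⟨hab, h'⟩ := h
    obtain ⟨h1, h2⟩ := incB_aux l b h'
    refine ⟨?_, ?_⟩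
    · intro x hx
      rcases List.mem_cons.mp hx with rfl | hx
      · exact hab
      · exact lt_trans hab (h1 x hx)
    · rw [List.nodup_cons]
      exact ⟨fun hb => lt_irrefl _ (h1 b hb), h2⟩

theorem incB_nodup : ∀ l : List ℕ, incB l = true → l.Nodup
  | [], _ => List.nodup_nil
  | a :: l, h => by
    obtain ⟨h1, h2⟩ := incB_aux l a h
    rw [List.nodup_cons]
    exact ⟨fun ha => lt_irrefl _ (h1 a ha), h2⟩

theorem e6_data_nodup : (e6Data.map fun p => p.2.2.1).Nodup := incB_nodup _ e6_data_inc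

theorem e6_tbl_lt6 : ∀ w ∈ e6Tbl, ∀ i ∈ w, i < 6 := by
  intro w hw i hi
  obtain ⟨p, -, rfl⟩ := List.mem_map.mp hw
  exact e6Wd_lt p.1 i hi

theorem e6_tbl_lt : ∀ w ∈ e6Tbl, ∀ i ∈ w, i < chevE6.rank := e6_tbl_lt6

theorem e6_sig_nodup : (e6Tbl.map fun w => sgnF (wActP (permOf chevE6) w) 72).Nodup := by
  have h := e6_data_nodup
  have e : (e6Tbl.map fun w => sgnF (wActP (permOf chevE6) w) 72) =
      e6Data.map fun p => p.2.2.1 := by
    unfold e6Tbl
    rw [List.map_map]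
    apply List.map_congr_left
    intro p hp
    show sgnF (wActP (permOf chevE6) (e6Wd p.1)) 72 = p.2.2.1
    rw [e6_data_sgn p hp]
    exact sgnF_eq_of_iff 72 (fun r hr => by rw [e6_data_act p hp r hr])
  rw [e]
  exact h

theorem e6_tbl_nodup : e6Tbl.Nodup := List.Nodup.of_map _ e6_sig_nodup

theorem e6_tbl_sep : ∀ w ∈ e6Tbl, ∀ w' ∈ e6Tbl, w ≠ w' → SepW chevE6 w w' := by
  intro w hw w' hw' hne
  have hsig : sgnF (wActP (permOf chevE6) w) 72 ≠ sgnF (wActP (permOf chevE6) w') 72 := by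
    intro h
    exact hne (List.inj_on_of_nodup_map e6_sig_nodup hw hw' h)
  by_contra hsep
  apply hsig
  apply sgnF_eq_of_iff
  intro r hr
  have a := e6_act_lt w (e6_tbl_lt6 w hw) r hr
  have a' := e6_act_lt w' (e6_tbl_lt6 w' hw') r hr
  obtain ⟨n1, p1⟩ := e6_sign_facts _ a
  obtain ⟨n2, p2⟩ := e6_sign_facts _ a'
  constructor
  · intro h
    by_contra h'
    exact hsep ⟨r, hr, Or.inr ⟨n1.mpr h, p2.mpr (by omega)⟩⟩
  · intro h
    by_contra h'
    exact hsep ⟨r, hr, Or.inl ⟨p1.mpr (by omega), n2.mpr h⟩⟩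

theorem e6_data_getD_mem {j : ℕ} (hj : j < 1152) : e6Data.getD j e6Dflt ∈ e6Data := by
  have hlen : j < e6Data.length := by rw [e6_data_length]; exact hj
  rw [List.getD_eq_getElem _ _ hlen]
  exact List.getElem_mem _

theorem e6_tbl_closed : TblClosed chevE6 [[1], [3], [2, 4], [0, 5]] e6Tbl := by
  unfold TblClosed
  intro s hs w hw
  obtain ⟨p, hp, rfl⟩ := List.mem_map.mp hw
  obtain ⟨k, hk, rfl⟩ : ∃ k < 4, s = e6Blk k := by
    simp only [List.mem_cons, List.not_mem_nil, or_false] at hs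
    rcases hs with rfl | rfl | rfl | rfl
    · exact ⟨0, by norm_num, rfl⟩
    · exact ⟨1, by norm_num, rfl⟩
    · exact ⟨2, by norm_num, rfl⟩
    · exact ⟨3, by norm_num, rfl⟩
  obtain ⟨hj, hact⟩ := e6_data_close p hp k hk
  have hmem := e6_data_getD_mem hj
  refine ⟨e6Wd (e6Data.getD (p.2.2.2.2.getD k 0) e6Dflt).1, List.mem_map.mpr ⟨_, hmem, rfl⟩, ?_⟩
  intro r hr
  have hr72 : r < 72 := hr
  rw [wActP_app, wActP_app, ← e6_data_act p hp r hr72, ← hact r hr72,
    e6_data_act _ hmem r hr72]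
  exact e6_act_rev _ (e6Wd_lt _) r hr72

set_option maxRecDepth 10000000 in
theorem e6_tbl_nil : [] ∈ e6Tbl := by decide +kernel

/-- The numbers of fixed points in the subgroups `U_w⁻` along the table. -/
theorem e6_count_induct (f : List ℕ → ℕ) (h0 : f [] = 1)
    (hstep : ∀ b : ℕ, ∀ w ∈ e6Tbl, lenAddB chevE6 (e6Blk b) w = true → e6Blk b ++ w ∈ e6Tbl →
      f (e6Blk b ++ w) = f (e6Blk b) * f w) :
    ∀ w ∈ e6Tbl, f w = f [1] ^ w.count 1 * f [3] ^ w.count 3 * f [2, 4] ^ w.count 2 *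
      f [0, 5] ^ w.count 0 := by
  have key : ∀ n, ∀ p ∈ e6Data, p.1.length = n →
      f (e6Wd p.1) = f [1] ^ (e6Wd p.1).count 1 * f [3] ^ (e6Wd p.1).count 3 *
        f [2, 4] ^ (e6Wd p.1).count 2 * f [0, 5] ^ (e6Wd p.1).count 0 := by
    intro n
    induction n with
    | zero =>
      intro p hp hlen
      have e : p.1 = [] := List.length_eq_zero_iff.mp hlen
      rw [e]
      show f [] = f [1] ^ ([] : List ℕ).count 1 * f [3] ^ ([] : List ℕ).count 3 *
        f [2, 4] ^ ([] : List ℕ).count 2 * f [0, 5] ^ ([] : List ℕ).count 0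
      rw [h0]
      simp
    | succ n ih =>
      intro p hp hlen
      rcases e6_data_step p hp with h | ⟨ht, htail, hadd⟩
      · rw [h] at hlen
        simp at hlen
      · obtain ⟨b, L, hbL⟩ : ∃ b L, p.1 = b :: L := by
          cases h : p.1 with
          | nil =>
            rw [h] at hlen
            simp at hlen
          | cons b L => exact ⟨b, L, rfl⟩
        rw [hbL] at htail hadd hlen
        rw [hbL]
        simp only [List.tail_cons, List.headD_cons] at htail hadd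
        have hmem := e6_data_getD_mem ht
        have hL : L.length = n := by simpa using hlen
        have ih' := ih _ hmem (by rw [htail]; exact hL)
        rw [htail] at ih'
        have hw'' : e6Wd L ∈ e6Tbl := List.mem_map.mpr ⟨_, hmem, by
          show e6Wd _ = e6Wd L
          rw [htail]⟩
        have hw : e6Blk b ++ e6Wd L ∈ e6Tbl := List.mem_map.mpr ⟨p, hp, by
          show e6Wd p.1 = _
          rw [hbL]
          rfl⟩
        have e : e6Wd (b :: L) = e6Blk b ++ e6Wd L := rfl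
        rw [e, hstep b _ hw'' hadd hw, ih']
        generalize e6Wd L = v
        rcases b with _ | _ | _ | b
        · show f [1] * _ = f [1] ^ ([1] ++ v).count 1 * f [3] ^ ([1] ++ v).count 3 *
            f [2, 4] ^ ([1] ++ v).count 2 * f [0, 5] ^ ([1] ++ v).count 0
          simp only [List.count_append, List.count_singleton]
          simp
          ring
        · show f [3] * _ = f [1] ^ ([3] ++ v).count 1 * f [3] ^ ([3] ++ v).count 3 *
            f [2, 4] ^ ([3] ++ v).count 2 * f [0, 5] ^ ([3] ++ v).count 0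
          simp only [List.count_append, List.count_singleton]
          simp
          ring
        · show f [2, 4] * _ = f [1] ^ ([2, 4] ++ v).count 1 * f [3] ^ ([2, 4] ++ v).count 3 *
            f [2, 4] ^ ([2, 4] ++ v).count 2 * f [0, 5] ^ ([2, 4] ++ v).count 0
          simp only [List.count_append, List.count_cons, List.count_nil]
          simp
          ring
        · show f [0, 5] * _ = f [1] ^ ([0, 5] ++ v).count 1 * f [3] ^ ([0, 5] ++ v).count 3 *
            f [2, 4] ^ ([0, 5] ++ v).count 2 * f [0, 5] ^ ([0, 5] ++ v).count 0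
          simp only [List.count_append, List.count_cons, List.count_nil]
          simp
          ring
  intro w hw
  obtain ⟨p, hp, rfl⟩ := List.mem_map.mp hw
  exact key _ p hp rfl

/-- The value of a polynomial with given coefficients. -/
def polyEval (cs : List ℕ) (q : ℕ) : ℕ := cs.foldr (fun c acc => c + q * acc) 0

theorem polyEval_addAt (q : ℕ) : ∀ (k : ℕ) (cs : List ℕ),
    polyEval (addAt k cs) q = q ^ k + polyEval cs q
  | 0, [] => by
    show 1 + q * 0 = q ^ 0 + 0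
    norm_num
  | 0, c :: cs => by
    show (c + 1) + q * polyEval cs q = q ^ 0 + (c + q * polyEval cs q)
    ring
  | k + 1, [] => by
    show 0 + q * polyEval (addAt k []) q = q ^ (k + 1) + 0
    rw [polyEval_addAt q k []]
    show 0 + q * (q ^ k + 0) = q ^ (k + 1) + 0
    ring
  | k + 1, c :: cs => by
    show c + q * polyEval (addAt k cs) q = q ^ (k + 1) + (c + q * polyEval cs q)
    rw [polyEval_addAt q k cs]
    ring

theorem sum_pow_hist (q : ℕ) : ∀ L : List ℕ, (L.map fun k => q ^ k).sum = polyEval (histL L) q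
  | [] => rfl
  | k :: L => by
    rw [List.map_cons, List.sum_cons, sum_pow_hist q L]
    show _ = polyEval (addAt k (histL L)) q
    rw [polyEval_addAt]

/-- The order polynomial of the Weyl group of the twisted group. -/
theorem e6_core_poly {q : ℕ} (h1 : 1 ≤ q) :
    (q - 1) ^ 4 * (q + 1) ^ 2 * polyEval [1, 2, 4, 6, 9, 13, 17, 22, 26, 32, 37, 43, 47, 51, 55, 58, 61, 61, 62, 61, 61, 58, 55, 51, 47, 43, 37, 32, 26, 22, 17, 13, 9, 6, 4, 2, 1] q =
      (q ^ 2 - 1) * (q ^ 5 + 1) * (q ^ 6 - 1) * (q ^ 8 - 1) * (q ^ 9 + 1) * (q ^ 12 - 1) := by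
  have h2 : 1 ≤ q ^ 2 := Nat.one_le_pow _ _ h1
  have h6 : 1 ≤ q ^ 6 := Nat.one_le_pow _ _ h1
  have h8 : 1 ≤ q ^ 8 := Nat.one_le_pow _ _ h1
  have h12 : 1 ≤ q ^ 12 := Nat.one_le_pow _ _ h1
  simp only [polyEval, List.foldr_cons, List.foldr_nil]
  zify [h1, h2, h6, h8, h12]
  ring

/-- The word of the longest element. -/
def e6W0 : List ℕ := [0, 5, 2, 4, 3, 2, 4, 1, 3, 2, 4, 0, 5, 2, 4, 3, 2, 4, 1, 3, 2, 4, 0, 5, 2, 4, 3, 2, 4, 1, 3, 2, 4, 1, 3, 1]

set_option maxRecDepth 10000000 in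
theorem e6_w0_mem : e6W0 ∈ e6Tbl := by decide +kernel

theorem e6_w0_counts : e6W0.count 1 = 5 ∧ e6W0.count 3 = 7 ∧ e6W0.count 2 = 9 ∧
    e6W0.count 0 = 3 := by decide

set_option maxRecDepth 10000000 in
theorem e6_w0_fact : ∀ r < chevE6.nroots, chevE6.IsPosRoot r →
    chevE6.IsNegRoot (wActP (permOf chevE6) e6W0 r) := by
  decide +kernel

set_option maxRecDepth 10000000 in
theorem e6_a_fact : (∀ r < chevE6.nroots, chevE6.IsPosRoot r →
    chevE6.IsNegRoot (wActP (permOf chevE6) [1] r) → r = 46) ∧ chevE6.IsPosRoot 46 ∧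
    chevE6.IsNegRoot (wActP (permOf chevE6) [1] 46) := by
  decide +kernel

set_option maxRecDepth 10000000 in
theorem e6_b_fact : (∀ r < chevE6.nroots, chevE6.IsPosRoot r →
    chevE6.IsNegRoot (wActP (permOf chevE6) [3] r) → r = 39) ∧ chevE6.IsPosRoot 39 ∧
    chevE6.IsNegRoot (wActP (permOf chevE6) [3] 39) := by
  decide +kernel

set_option maxRecDepth 10000000 in
theorem e6_braid_mem : [2, 4, 0, 5, 2, 4] ∈ e6Tbl ∧ [2, 4, 0, 5] ∈ e6Tbl := by decide +kernel

set_option maxRecDepth 10000000 in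
theorem e6_braid_facts : lenAddB chevE6 [0, 5] [2, 4, 0, 5] = true ∧
    SepW chevE6 ([0, 5] ++ [2, 4, 0, 5]) [2, 4, 0, 5] ∧
    ∀ r < chevE6.nroots, wActP (permOf chevE6)
      (([2, 4, 0, 5, 2, 4] : List ℕ).reverse ++ [0, 5, 2, 4, 0, 5]) r = r := by
  decide +kernel

theorem dcSet_congr {G : Type*} [Group G] (B : Subgroup G) {x y : G} (h : x⁻¹ * y ∈ B) :
    dcSet B x = dcSet B y := by
  ext g
  constructor
  · rintro ⟨b1, hb1, b2, hb2, rfl⟩
    refine ⟨b1, hb1, (x⁻¹ * y)⁻¹ * b2, mul_mem (inv_mem h) hb2, ?_⟩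
    group
  · rintro ⟨b1, hb1, b2, hb2, rfl⟩
    refine ⟨b1, hb1, (x⁻¹ * y) * b2, mul_mem h hb2, ?_⟩
    group

section

variable {K : Type*} [Field K] [Fintype K]

/-- The fixed points in `U_w⁻` for a reflection in a fundamental root fixed by the twist. -/
theorem e6_uneg_single {q : ℕ} (hq : IsPrimePow q) (hK : Fintype.card K = q ^ 2)
    (A : ALLOK chevE6) {i r0 : ℕ} (hi : i < chevE6.rank)
    (hfact : (∀ r < chevE6.nroots, chevE6.IsPosRoot r →
      chevE6.IsNegRoot (wActP (permOf chevE6) [i] r) → r = r0) ∧ chevE6.IsPosRoot r0 ∧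
      chevE6.IsNegRoot (wActP (permOf chevE6) [i] r0))
    (hgen : (r0, r0) ∈ [((46 : ℕ), (46 : ℕ)), (25, 25), (39, 39), (32, 32), (56, 36), (36, 56),
      (15, 35), (35, 15), (42, 37), (37, 42), (29, 34), (34, 29)])
    (hsing : r0 ∈ [e6p2, e6m2, e6p4, e6m4]) :
    Nat.card ↥(unegSub chevE6 K (nW A.hk K [i]) ⊓ twistedE6 K q) = q := by
  obtain ⟨φ, hφ, hle, -⟩ := twE6_pack hq hK A
  obtain ⟨hone, hp0, hn0⟩ := hfact
  have hw1 : ∀ j ∈ ([i] : List ℕ), j < chevE6.rank := by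
    intro j hj
    rw [List.mem_singleton] at hj
    rw [hj]
    exact hi
  obtain ⟨g1, g2, g3⟩ := e6_gen_facts (r0, r0) hgen
  have g1' : r0 < chevE6.nroots := g1
  have g2' : rhoE6.getD r0 0 = r0 := g2
  have g3' : epsE6.getD r0 1 = 1 := g3
  have hform : ∀ g ∈ unegSub chevE6 K (nW A.hk K [i]), ∃ t : K, g = xU A.hk r0 t := by
    intro g hg
    unfold unegSub at hg
    induction hg using Subgroup.closure_induction with
    | mem x hx =>
      obtain ⟨r, t, hr, hle', hx⟩ := hx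
      obtain ⟨hlt, η, hη, h2⟩ := nW_conj (F := K) A.hk A.nk A.xk [i] hw1 r hr.1
      have hneg := neg_of_map_le A.hk A.wk A.lk A.ak hr.1 hlt hle' h2
      have h14 := hone r hr.1 hr hneg
      rw [h14] at hx
      exact ⟨t, eq_xU A.hk hx⟩
    | one => exact ⟨0, (xU_zero A.hk r0).symm⟩
    | mul a b _ _ iha ihb =>
      obtain ⟨t, rfl⟩ := iha
      obtain ⟨u, rfl⟩ := ihb
      exact ⟨t + u, xU_mul A.hk r0 t u⟩
    | inv a _ iha =>
      obtain ⟨t, rfl⟩ := iha
      exact ⟨-t, xU_inv A.hk r0 t⟩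
  have hmem : ∀ t : K, xU A.hk r0 t ∈ unegSub chevE6 K (nW A.hk K [i]) := by
    intro t
    obtain ⟨hlt, η, hη, h2⟩ := nW_conj (F := K) A.hk A.nk A.xk [i] hw1 r0 hp0.1
    exact xU_mem_uneg A.hk (η : K) hp0 hn0 h2 t
  refine Eq.trans ?_ (card_frob_fixed hq.one_lt (by norm_num : (2 : ℕ) ≠ 0) hK)
  symm
  apply Nat.card_congr
  refine Equiv.ofBijective (fun t : {t : K // t ^ q = t} =>
    (⟨xU A.hk r0 (t : K), Subgroup.mem_inf.mpr ⟨hmem t, e6_single A.hk q hsing t.2⟩⟩ :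
      ↥(unegSub chevE6 K (nW A.hk K [i]) ⊓ twistedE6 K q))) ⟨?_, ?_⟩
  · intro t t' e
    exact Subtype.ext (xU_inj_of A.hk hp0.1 (congrArg Subtype.val e))
  · rintro ⟨g, hg⟩
    obtain ⟨hg1, hg2⟩ := Subgroup.mem_inf.mp hg
    obtain ⟨t, rfl⟩ := hform g hg1
    have hfix : twS graphOK_E6 φ (xU A.hk r0 t) = xU A.hk r0 t := hle hg2
    rw [twS_xU A.hk graphOK_E6 φ g1', g2', g3', Int.cast_one, one_mul] at hfix
    have ht : φ t = t := xU_inj_of A.hk hp0.1 hfix
    rw [hφ] at ht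
    exact ⟨⟨t, ht⟩, rfl⟩

omit [Fintype K] in
/-- The subgroup `U_w⁻` of the longest element is `U`. -/
theorem e6_unegW0 (A : ALLOK chevE6) :
    unegSub chevE6 K (nW A.hk K e6W0) = chevE6.posUnipotent K := by
  apply le_antisymm (uneg_le_pos _)
  have hw : ∀ i ∈ e6W0, i < chevE6.rank := by decide
  unfold ChevalleyDatum.posUnipotent
  rw [Subgroup.closure_le]
  rintro g ⟨r, t, hr, hg⟩
  rw [eq_xU A.hk hg]
  obtain ⟨hlt, η, hη, h2⟩ := nW_conj (F := K) A.hk A.nk A.xk _ hw r hr.1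
  exact xU_mem_uneg A.hk (η : K) hr (e6_w0_fact r hr.1 hr) h2 t

/-- `gcd(3, q + 1) · |²E₆(q)| = q³⁶ (q² - 1)(q⁵ + 1)(q⁶ - 1)(q⁸ - 1)(q⁹ + 1)(q¹² - 1)`. -/
theorem twE6_card {q : ℕ} (hq : IsPrimePow q) (hK : Fintype.card K = q ^ 2) :
    Nat.gcd 3 (q + 1) * Nat.card ↥(twistedE6 K q) =
      q ^ 36 * (q ^ 2 - 1) * (q ^ 5 + 1) * (q ^ 6 - 1) * (q ^ 8 - 1) * (q ^ 9 + 1) *
        (q ^ 12 - 1) := by
  have hD : chevE6 ∈ [chevG2, chevB2, chevD4, chevF4, chevE6, chevE7, chevE8] := by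
    simp only [List.mem_cons, true_or, or_true]
  have A := allok_cert _ hD
  obtain ⟨φ, T⟩ := twE6_twPack hq hK A
  have hq1 : 1 < q := hq.one_lt
  have hq0 : 0 < q := by omega
  have hβ : Nat.card ↥(chevE6.borelSubgroup K ⊓ twistedE6 K q) =
      q ^ 36 * Nat.card ↥(chevE6.diagonalSubgroup K ⊓ twistedE6 K q) := by
    rw [T.card_borel, twE6_posU_card hq hK]
  have hβpos : 0 < Nat.card ↥(chevE6.borelSubgroup K ⊓ twistedE6 K q) := Nat.card_pos
  have htG : ∀ w ∈ e6Tbl, nW A.hk K w ∈ twistedE6 K q := by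
    intro w hw
    obtain ⟨p, -, rfl⟩ := List.mem_map.mp hw
    exact nW_flatten_mem A.hk _ _ (fun blk hblk => by
      obtain ⟨b, -, rfl⟩ := List.mem_map.mp hblk
      exact T.wmem _ (e6Blk_mem b))
  have hcard := T.card_eq e6_tbl_nodup e6_tbl_nil e6_tbl_lt htG e6_tbl_closed e6_tbl_sep
  obtain ⟨f, hf⟩ : ∃ f : List ℕ → ℕ, ∀ w,
      f w = Nat.card ↥(unegSub chevE6 K (nW A.hk K w) ⊓ twistedE6 K q) := ⟨_, fun _ => rfl⟩
  have hdc : ∀ w : List ℕ, (∀ i ∈ w, i < chevE6.rank) → nW A.hk K w ∈ twistedE6 K q →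
      Nat.card (dcSet (chevE6.borelSubgroup K ⊓ twistedE6 K q) (nW A.hk K w)) =
        Nat.card ↥(chevE6.borelSubgroup K ⊓ twistedE6 K q) * f w := by
    intro w hw hG
    rw [hf]
    exact T.dc_card (nW_mem A.hk w hw) hG
  have i0 : f [] = 1 := by
    have h := hdc [] (by simp) (htG [] e6_tbl_nil)
    have e1 : nW A.hk K [] = 1 := by simp [nW]
    have e2 : Nat.card (dcSet (chevE6.borelSubgroup K ⊓ twistedE6 K q) (nW A.hk K [])) =
        Nat.card ↥(chevE6.borelSubgroup K ⊓ twistedE6 K q) := by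
      rw [e1, dcSet_one]
      rfl
    rw [e2] at h
    exact (Nat.eq_of_mul_eq_mul_left hβpos (by rw [mul_one]; exact h)).symm
  have hstep : ∀ b : ℕ, ∀ w ∈ e6Tbl, lenAddB chevE6 (e6Blk b) w = true →
      e6Blk b ++ w ∈ e6Tbl → f (e6Blk b ++ w) = f (e6Blk b) * f w := by
    intro b w hw hadd hmem
    have hne : e6Blk b ++ w ≠ w := by
      intro h
      have h' := congrArg List.length h
      rw [List.length_append] at h'
      have := e6Blk_ne b
      omega
    rw [hf, hf, hf]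
    exact (T.uneg_card_mul (e6Blk_mem b) (e6_tbl_lt w hw) (htG w hw) hadd
      (e6_tbl_sep _ hmem _ hw hne)).symm
  have hall := e6_count_induct f i0 hstep
  have ia : f [1] = q := by
    rw [hf]
    exact e6_uneg_single hq hK A (by decide) e6_a_fact (by simp) (by simp [e6p2])
  have ib : f [3] = q := by
    rw [hf]
    exact e6_uneg_single hq hK A (by decide) e6_b_fact (by simp) (by simp [e6p4])
  have iw0 : f e6W0 = q ^ 36 := by
    rw [hf, e6_unegW0 A, twE6_posU_card hq hK]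
  have hx0 : 0 < f [2, 4] := by
    rw [hf]
    exact Nat.card_pos
  have hy0 : 0 < f [0, 5] := by
    rw [hf]
    exact Nat.card_pos
  have hb1 : f [2, 4, 0, 5, 2, 4] = f [2, 4] ^ 2 * f [0, 5] := by
    have h := hall [2, 4, 0, 5, 2, 4] e6_braid_mem.1
    rw [show ([2, 4, 0, 5, 2, 4] : List ℕ).count 1 = 0 from by decide,
      show ([2, 4, 0, 5, 2, 4] : List ℕ).count 3 = 0 from by decide,
      show ([2, 4, 0, 5, 2, 4] : List ℕ).count 2 = 2 from by decide,
      show ([2, 4, 0, 5, 2, 4] : List ℕ).count 0 = 1 from by decide] at h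
    rw [h]
    ring
  have hb2 : f [2, 4, 0, 5] = f [2, 4] * f [0, 5] := by
    have h := hall [2, 4, 0, 5] e6_braid_mem.2
    rw [show ([2, 4, 0, 5] : List ℕ).count 1 = 0 from by decide,
      show ([2, 4, 0, 5] : List ℕ).count 3 = 0 from by decide,
      show ([2, 4, 0, 5] : List ℕ).count 2 = 1 from by decide,
      show ([2, 4, 0, 5] : List ℕ).count 0 = 1 from by decide] at h
    rw [h]
    ring
  have hl1 : ∀ i ∈ ([2, 4, 0, 5, 2, 4] : List ℕ), i < chevE6.rank := by decide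
  have hl2 : ∀ i ∈ ([0, 5, 2, 4, 0, 5] : List ℕ), i < chevE6.rank := by decide
  have hl3 : ∀ i ∈ ([2, 4, 0, 5] : List ℕ), i < chevE6.rank := by decide
  have hG1 := htG _ e6_braid_mem.1
  have hG3 := htG _ e6_braid_mem.2
  have hG2 : nW A.hk K [0, 5, 2, 4, 0, 5] ∈ twistedE6 K q :=
    nW_flatten_mem A.hk (twistedE6 K q) [[0, 5], [2, 4], [0, 5]] (fun blk hblk => T.wmem blk (by
      simp only [List.mem_cons, List.not_mem_nil, or_false] at hblk ⊢
      tauto))
  have hw2 : f [0, 5, 2, 4, 0, 5] = f [0, 5] * (f [2, 4] * f [0, 5]) := by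
    rw [← hb2, hf, hf, hf]
    exact (T.uneg_card_mul (s := [0, 5]) (by simp) hl3 hG3 e6_braid_facts.1
      e6_braid_facts.2.1).symm
  have heq : f [2, 4, 0, 5, 2, 4] = f [0, 5, 2, 4, 0, 5] := by
    have hH := nW_congr_of_fix (K := K) A hl1 hl2 e6_braid_facts.2.2
    have hB : (nW A.hk K [2, 4, 0, 5, 2, 4])⁻¹ * nW A.hk K [0, 5, 2, 4, 0, 5] ∈
        chevE6.borelSubgroup K ⊓ twistedE6 K q :=
      Subgroup.mem_inf.mpr ⟨diag_le_borel hH, mul_mem (inv_mem hG1) hG2⟩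
    have e := dcSet_congr _ hB
    have d1 := hdc _ hl1 hG1
    have d2 := hdc _ hl2 hG2
    rw [e] at d1
    exact Nat.eq_of_mul_eq_mul_left hβpos (d1.symm.trans d2)
  have hxy : f [2, 4] = f [0, 5] := by
    have h : f [2, 4] * (f [2, 4] * f [0, 5]) = f [0, 5] * (f [2, 4] * f [0, 5]) := by
      rw [← hw2, ← heq, hb1]
      ring
    exact Nat.eq_of_mul_eq_mul_right (Nat.mul_pos hx0 hy0) h
  have hx : f [2, 4] = q ^ 2 := by
    have h := hall e6W0 e6_w0_mem
    rw [e6_w0_counts.1, e6_w0_counts.2.1, e6_w0_counts.2.2.1, e6_w0_counts.2.2.2, iw0, ia, ib,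
      ← hxy] at h
    generalize f [2, 4] = x at h
    have h' : x ^ 12 * q ^ 12 = (q ^ 2) ^ 12 * q ^ 12 := by
      calc x ^ 12 * q ^ 12 = q ^ 5 * q ^ 7 * x ^ 9 * x ^ 3 := by ring
        _ = q ^ 36 := h.symm
        _ = _ := by ring
    exact Nat.pow_left_injective (by norm_num : (12 : ℕ) ≠ 0)
      (Nat.eq_of_mul_eq_mul_right (pow_pos hq0 12) h')
  have hsum : (e6Tbl.map fun w => Nat.card (dcSet (chevE6.borelSubgroup K ⊓ twistedE6 K q)
      (nW A.hk K w))).sum = Nat.card ↥(chevE6.borelSubgroup K ⊓ twistedE6 K q) *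
        (e6Tbl.map fun w => q ^ e6Exp w).sum := by
    rw [← List.sum_map_mul_left]
    congr 1
    apply List.map_congr_left
    intro w hw
    rw [hdc w (e6_tbl_lt w hw) (htG w hw), hall w hw, ia, ib, ← hxy, hx]
    unfold e6Exp
    ring
  have hpoly := sum_pow_hist q (e6Tbl.map e6Exp)
  rw [List.map_map, e6_hist] at hpoly
  have hpoly' : (e6Tbl.map fun w => q ^ e6Exp w).sum = polyEval [1, 2, 4, 6, 9, 13, 17, 22, 26, 32, 37, 43, 47, 51, 55, 58, 61, 61, 62, 61, 61, 58, 55, 51, 47, 43, 37, 32, 26, 22, 17, 13, 9, 6, 4, 2, 1] q := hpoly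
  rw [hcard, hsum, hpoly', hβ]
  have hH := twE6_card_diag hq hK
  have hcore := e6_core_poly (q := q) (by omega)
  calc Nat.gcd 3 (q + 1) * (q ^ 36 * Nat.card ↥(chevE6.diagonalSubgroup K ⊓ twistedE6 K q) *
        polyEval [1, 2, 4, 6, 9, 13, 17, 22, 26, 32, 37, 43, 47, 51, 55, 58, 61, 61, 62, 61, 61, 58, 55, 51, 47, 43, 37, 32, 26, 22, 17, 13, 9, 6, 4, 2, 1] q)
      = q ^ 36 * ((Nat.gcd 3 (q + 1) * Nat.card ↥(chevE6.diagonalSubgroup K ⊓ twistedE6 K q)) *
        polyEval [1, 2, 4, 6, 9, 13, 17, 22, 26, 32, 37, 43, 47, 51, 55, 58, 61, 61, 62, 61, 61, 58, 55, 51, 47, 43, 37, 32, 26, 22, 17, 13, 9, 6, 4, 2, 1] q) := by ring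
    _ = q ^ 36 * ((q ^ 2 - 1) * (q ^ 5 + 1) * (q ^ 6 - 1) * (q ^ 8 - 1) * (q ^ 9 + 1) *
        (q ^ 12 - 1)) := by rw [hH, hcore]
    _ = _ := by ring

end

end Cfsg.Agent.Lib.Helper9
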