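import Cfsg.Agent.Lib.Helper9.TwCox
import Cfsg.Agent.Lib.Helper9.TwE6BN

set_option autoImplicit false

namespace Cfsg.Agent.Lib.Helper9

open Cfsg.Lie
open Cfsg.Agent.Lib.Helper15.ChevGraphEx

/-! ### The Weyl group of the twisted group of type `E₆` -/

set_option maxRecDepth 1000000 in
theorem e6_ordW : OrdW chevE6 [1] [3] 3 ∧ OrdW chevE6 [1] [2, 4] 2 ∧ OrdW chevE6 [1] [0, 5] 2 ∧
    OrdW chevE6 [3] [1] 3 ∧ OrdW chevE6 [3] [2, 4] 4 ∧ OrdW chevE6 [3] [0, 5] 2 ∧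
    OrdW chevE6 [2, 4] [1] 2 ∧ OrdW chevE6 [2, 4] [3] 4 ∧ OrdW chevE6 [2, 4] [0, 5] 3 ∧
    OrdW chevE6 [0, 5] [1] 2 ∧ OrdW chevE6 [0, 5] [3] 2 ∧ OrdW chevE6 [0, 5] [2, 4] 3 := by
  decide +kernel

section

variable {K : Type*} [Field K] [Fintype K]

/-- `N¹ / H¹` is the Coxeter group of type `F₄` for `²E₆(q)`. -/
theorem twE6_weyl {q : ℕ} (hq : IsPrimePow q) (hK : Fintype.card K = q ^ 2) :
    ∃ ψ : ↥(chevE6.monomialSubgroup K ⊓ twistedE6 K q) →* (CoxeterMatrix.F₄).Group,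
      Function.Surjective ψ ∧
      ψ.ker = (chevE6.diagonalSubgroup K ⊓ twistedE6 K q).subgroupOf
        (chevE6.monomialSubgroup K ⊓ twistedE6 K q) := by
  have hD : chevE6 ∈ [chevG2, chevB2, chevD4, chevF4, chevE6, chevE7, chevE8] := by
    simp only [List.mem_cons, true_or, or_true]
  obtain ⟨φ, T⟩ := twE6_twPack hq hK (allok_cert _ hD)
  obtain ⟨o01, o02, o03, o10, o12, o13, o20, o21, o23, o30, o31, o32⟩ := e6_ordW
  refine tw_weyl_iso T (by decide) (n := 4) rfl CoxeterMatrix.F₄ ?_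
  intro i j hij
  fin_cases i <;> fin_cases j
  · exact absurd rfl hij
  · exact o01
  · exact o02
  · exact o03
  · exact o10
  · exact absurd rfl hij
  · exact o12
  · exact o13
  · exact o20
  · exact o21
  · exact absurd rfl hij
  · exact o23
  · exact o30
  · exact o31
  · exact o32
  · exact absurd rfl hij

end

end Cfsg.Agent.Lib.Helper9
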