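import Cfsg.Agent.Lib.Helper9.TwD4H
import Cfsg.Agent.Lib.Helper9.TwE6BN

set_option autoImplicit false

namespace Cfsg.Agent.Lib.Helper9

open Cfsg.Lie
open Cfsg.Agent.Lib.Helper15.ChevGraphEx

/-! ### The diagonal subgroup of the twisted group of type `E₆` -/

section general

variable {D : ChevalleyDatum} {K : Type*} [Field K]

/-- The diagonal element of a family of units supported at one fundamental root. -/
theorem chiHom_mulSingle (hk : HOK D) (i : Fin D.rank) (a : Kˣ) :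
    chiHom D K (Pi.mulSingle i a) = nrU hk (D.simple i) (a : K) * nrU hk (D.simple i) (-1) := by
  apply Units.ext
  rw [hMat_eq_nrU, hMat_cert' hk i.2 (a : K) a.ne_zero]
  show chiMat D (extU D (Pi.mulSingle i a)) = _
  unfold chiMat
  congr 1
  funext col
  rw [chiN_extU]
  unfold chiV
  rw [Finset.prod_eq_single i]
  · rw [Pi.mulSingle_eq_same, Units.val_zpow_eq_zpow_val]
  · intro j _ hj
    rw [Pi.mulSingle_eq_of_ne hj, one_zpow]
  · intro h
    exact absurd (Finset.mem_univ i) h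

theorem mul2_comm {G : Type*} [Group G] {a1 a2 b1 b2 : G} (h : Commute a2 b1) :
    (a1 * a2) * (b1 * b2) = (a1 * b1) * (a2 * b2) := by
  calc (a1 * a2) * (b1 * b2) = a1 * (a2 * b1) * b2 := by group
    _ = a1 * (b1 * a2) * b2 := by rw [h.eq]
    _ = _ := by group

/-- The arithmetic of the kernel of the Cartan map of type `E₆`. -/
theorem e6_ker_arith {d0 d1 d2 d3 d4 d5 : K} (h0 : d0 ≠ 0) (h5 : d5 ≠ 0)
    (e0 : d0 ^ 2 = d2) (e1 : d1 ^ 2 = d3) (e2 : d2 ^ 2 = d0 * d3) (e3 : d3 ^ 2 = d1 * d2 * d4)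
    (e4 : d4 ^ 2 = d3 * d5) (e5 : d5 ^ 2 = d4) :
    d0 ^ 3 = 1 ∧ d1 = 1 ∧ d2 = d0 ^ 2 ∧ d3 = 1 ∧ d4 = d0 ∧ d5 = d0 ^ 2 := by
  have a : d3 = d0 ^ 3 := by
    apply mul_left_cancel₀ h0
    rw [← e2, ← e0]
    ring
  have b : d3 = d5 ^ 3 := by
    apply mul_right_cancel₀ h5
    rw [← e4, ← e5]
    ring
  have c : d1 ^ 2 = d0 ^ 3 := e1.trans a
  have d : d0 ^ 4 = d1 * d5 ^ 2 := by
    apply mul_left_cancel₀ (pow_ne_zero 2 h0)
    calc d0 ^ 2 * d0 ^ 4 = d3 ^ 2 := by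
          rw [a]
          ring
      _ = d1 * d2 * d4 := e3
      _ = d0 ^ 2 * (d1 * d5 ^ 2) := by
          rw [← e0, ← e5]
          ring
  have e : d0 ^ 5 = d5 ^ 4 := by
    apply mul_left_cancel₀ (pow_ne_zero 3 h0)
    calc d0 ^ 3 * d0 ^ 5 = (d0 ^ 4) ^ 2 := by ring
      _ = (d1 * d5 ^ 2) ^ 2 := by rw [d]
      _ = d1 ^ 2 * d5 ^ 4 := by ring
      _ = d0 ^ 3 * d5 ^ 4 := by rw [c]
  have f : d5 ^ 3 = d0 ^ 3 := b.symm.trans a
  have g : d5 = d0 ^ 2 := by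
    apply mul_left_cancel₀ (pow_ne_zero 3 h0)
    calc d0 ^ 3 * d5 = d5 ^ 3 * d5 := by rw [f]
      _ = d5 ^ 4 := by ring
      _ = d0 ^ 5 := e.symm
      _ = d0 ^ 3 * d0 ^ 2 := by ring
  have h : d0 ^ 3 = 1 := by
    apply mul_left_cancel₀ (pow_ne_zero 3 h0)
    calc d0 ^ 3 * d0 ^ 3 = (d0 ^ 2) ^ 3 := by ring
      _ = d5 ^ 3 := by rw [g]
      _ = d0 ^ 3 := f
      _ = d0 ^ 3 * 1 := by ring
  have i4 : d4 = d0 := by
    calc d4 = d5 ^ 2 := e5.symm
      _ = (d0 ^ 2) ^ 2 := by rw [g]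
      _ = d0 ^ 3 * d0 := by ring
      _ = d0 := by rw [h, one_mul]
  have j : d1 = 1 := by
    have h4 : d0 ^ 4 ≠ 0 := pow_ne_zero 4 h0
    apply mul_right_cancel₀ h4
    calc d1 * d0 ^ 4 = d1 * d5 ^ 2 := by
          rw [g]
          ring
      _ = d0 ^ 4 := d.symm
      _ = 1 * d0 ^ 4 := by ring
  exact ⟨h, j, e0.symm, a.trans h, i4, g⟩

end general

/-- The Cartan matrix of type `E₆`. -/
def e6Cartan : Fin 6 → Fin 6 → ℤ :=
  ![![2, 0, -1, 0, 0, 0], ![0, 2, 0, -1, 0, 0], ![-1, 0, 2, -1, 0, 0], ![0, -1, -1, 2, -1, 0],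
    ![0, 0, 0, -1, 2, -1], ![0, 0, 0, 0, -1, 2]]

set_option maxRecDepth 1000000 in
theorem e6_cartan_facts : ∀ i j : Fin 6,
    cartanExp chevE6 (i : ℕ) (Nat.add chevE6.rank (chevE6.simple (j : ℕ))) = e6Cartan i j := by
  decide +kernel

section

variable {K : Type*} [Field K]

theorem e6_chiV (c : Fin 6 → Kˣ) (j : Fin 6) :
    chiV chevE6 c (Nat.add chevE6.rank (chevE6.simple (j : ℕ))) =
      ∏ i : Fin 6, c i ^ e6Cartan i j := by
  unfold chiV
  apply Finset.prod_congr rfl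
  intro i _
  rw [e6_cartan_facts i j]

/-- The values of the character of a family of units at the fundamental roots of `E₆`. -/
theorem e6_chiV_all (c : Fin 6 → Kˣ) :
    chiV chevE6 c (Nat.add chevE6.rank (chevE6.simple 0)) = c 0 ^ 2 * (c 2)⁻¹ ∧
    chiV chevE6 c (Nat.add chevE6.rank (chevE6.simple 1)) = c 1 ^ 2 * (c 3)⁻¹ ∧
    chiV chevE6 c (Nat.add chevE6.rank (chevE6.simple 2)) = c 2 ^ 2 * (c 0 * c 3)⁻¹ ∧
    chiV chevE6 c (Nat.add chevE6.rank (chevE6.simple 3)) = c 3 ^ 2 * (c 1 * c 2 * c 4)⁻¹ ∧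
    chiV chevE6 c (Nat.add chevE6.rank (chevE6.simple 4)) = c 4 ^ 2 * (c 3 * c 5)⁻¹ ∧
    chiV chevE6 c (Nat.add chevE6.rank (chevE6.simple 5)) = c 5 ^ 2 * (c 4)⁻¹ := by
  refine ⟨?_, ?_, ?_, ?_, ?_, ?_⟩
  · refine (e6_chiV c 0).trans ?_
    rw [Fin.prod_univ_six]
    simp [e6Cartan]
  · refine (e6_chiV c 1).trans ?_
    rw [Fin.prod_univ_six]
    simp [e6Cartan]
  · refine (e6_chiV c 2).trans ?_
    rw [Fin.prod_univ_six]
    simp [e6Cartan]
    ac_rfl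
  · refine (e6_chiV c 3).trans ?_
    rw [Fin.prod_univ_six]
    simp [e6Cartan]
    ac_rfl
  · refine (e6_chiV c 4).trans ?_
    rw [Fin.prod_univ_six]
    simp [e6Cartan]
    ac_rfl
  · refine (e6_chiV c 5).trans ?_
    rw [Fin.prod_univ_six]
    simp [e6Cartan]
    ac_rfl

/-- A diagonal element is trivial when its character is trivial on the fundamental roots. -/
theorem e6_one_iff (A : ALLOK chevE6) (c : Fin 6 → Kˣ) :
    chiHom chevE6 K c = 1 ↔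
      ∀ j < 6, chiV chevE6 c (Nat.add chevE6.rank (chevE6.simple j)) = 1 := by
  have hsimp : ∀ j < 6, chevE6.simple j < chevE6.nroots := by decide
  have key0 := chiHom_eq_one_iff (D := chevE6) (F := K) c
  constructor
  · intro h j hj
    exact key0.mp h _ (hsimp j hj)
  · intro h
    apply key0.mpr
    intro s hs
    exact chiV_all A.hk A.nk A.xk A.ok A.uk c (fun j hj => h j hj) _ s hs rfl

/-- The kernel of the Cartan map of type `E₆`. -/
theorem e6_ker_iff (A : ALLOK chevE6) (c : Fin 6 → Kˣ) :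
    chiHom chevE6 K c = 1 ↔
      (c 0 ^ 3 = 1 ∧ c 1 = 1 ∧ c 2 = c 0 ^ 2 ∧ c 3 = 1 ∧ c 4 = c 0 ∧ c 5 = c 0 ^ 2) := by
  obtain ⟨f0, f1, f2, f3, f4, f5⟩ := e6_chiV_all c
  rw [e6_one_iff A c]
  constructor
  · intro h
    have e0 := h 0 (by norm_num)
    have e1 := h 1 (by norm_num)
    have e2 := h 2 (by norm_num)
    have e3 := h 3 (by norm_num)
    have e4 := h 4 (by norm_num)
    have e5 := h 5 (by norm_num)
    rw [f0, mul_inv_eq_one] at e0
    rw [f1, mul_inv_eq_one] at e1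
    rw [f2, mul_inv_eq_one] at e2
    rw [f3, mul_inv_eq_one] at e3
    rw [f4, mul_inv_eq_one] at e4
    rw [f5, mul_inv_eq_one] at e5
    have E0 : ((c 0 : Kˣ) : K) ^ 2 = c 2 := by exact_mod_cast congrArg Units.val e0
    have E1 : ((c 1 : Kˣ) : K) ^ 2 = c 3 := by exact_mod_cast congrArg Units.val e1
    have E2 : ((c 2 : Kˣ) : K) ^ 2 = c 0 * c 3 := by exact_mod_cast congrArg Units.val e2
    have E3 : ((c 3 : Kˣ) : K) ^ 2 = c 1 * c 2 * c 4 := by
      exact_mod_cast congrArg Units.val e3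
    have E4 : ((c 4 : Kˣ) : K) ^ 2 = c 3 * c 5 := by exact_mod_cast congrArg Units.val e4
    have E5 : ((c 5 : Kˣ) : K) ^ 2 = c 4 := by exact_mod_cast congrArg Units.val e5
    obtain ⟨r0, r1, r2, r3, r4, r5⟩ :=
      e6_ker_arith (c 0).ne_zero (c 5).ne_zero E0 E1 E2 E3 E4 E5
    refine ⟨?_, ?_, ?_, ?_, ?_, ?_⟩
    · exact Units.ext (by rw [Units.val_pow_eq_pow_val, Units.val_one]; exact r0)
    · exact Units.ext (by rw [Units.val_one]; exact r1)
    · exact Units.ext (by rw [Units.val_pow_eq_pow_val]; exact r2)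
    · exact Units.ext (by rw [Units.val_one]; exact r3)
    · exact Units.ext r4
    · exact Units.ext (by rw [Units.val_pow_eq_pow_val]; exact r5)
  · rintro ⟨r0, r1, r2, r3, r4, r5⟩ j hj
    have R0 : ((c 0 : Kˣ) : K) ^ 3 = 1 := by
      rw [← Units.val_pow_eq_pow_val, r0, Units.val_one]
    interval_cases j
    · rw [f0, mul_inv_eq_one, r2]
    · rw [f1, mul_inv_eq_one, r1, r3, one_pow]
    · rw [f2, mul_inv_eq_one, r2, r3]
      apply Units.ext
      push_cast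
      linear_combination ((c 0 : Kˣ) : K) * R0
    · rw [f3, mul_inv_eq_one, r1, r2, r3, r4]
      apply Units.ext
      push_cast
      linear_combination -R0
    · rw [f4, mul_inv_eq_one, r3, r4, r5]
      apply Units.ext
      push_cast
      ring
    · rw [f5, mul_inv_eq_one, r4, r5]
      apply Units.ext
      push_cast
      linear_combination ((c 0 : Kˣ) : K) * R0

end

section

variable {K : Type*} [Field K]

/-- The units fixed by the Frobenius map. -/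
theorem mem_powker_iff {q : ℕ} (hq : 0 < q) (y : Kˣ) :
    y ∈ (powMonoidHom (q - 1) : Kˣ →* Kˣ).ker ↔ (y : K) ^ q = y := by
  rw [MonoidHom.mem_ker, powMonoidHom_apply]
  have e : (y : K) ^ q = (y : K) ^ (q - 1) * y := by
    rw [← pow_succ]
    congr 1
    omega
  rw [e]
  constructor
  · intro h
    rw [← Units.val_pow_eq_pow_val, h, Units.val_one, one_mul]
  · intro h
    apply Units.ext
    rw [Units.val_pow_eq_pow_val, Units.val_one]
    exact mul_right_cancel₀ y.ne_zero (by rw [h, one_mul])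

/-- The families of units fixed by the twist, in terms of four parameters. -/
def e6E (φ : K →+* K) (q : ℕ) :
    Kˣ × Kˣ × ↥(powMonoidHom (q - 1) : Kˣ →* Kˣ).ker × ↥(powMonoidHom (q - 1) : Kˣ →* Kˣ).ker →*
      (Fin 6 → Kˣ) where
  toFun p := ![p.1, (p.2.2.1 : Kˣ), p.2.1, (p.2.2.2 : Kˣ), Units.map (φ : K →* K) p.2.1,
    Units.map (φ : K →* K) p.1]
  map_one' := by
    funext i
    fin_cases i <;> simp
  map_mul' a b := by
    funext i
    fin_cases i <;> simp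

theorem e6E_apply (φ : K →+* K) (q : ℕ)
    (p : Kˣ × Kˣ × ↥(powMonoidHom (q - 1) : Kˣ →* Kˣ).ker ×
      ↥(powMonoidHom (q - 1) : Kˣ →* Kˣ).ker) :
    e6E φ q p = ![p.1, (p.2.2.1 : Kˣ), p.2.1, (p.2.2.2 : Kˣ), Units.map (φ : K →* K) p.2.1,
      Units.map (φ : K →* K) p.1] := rfl

end

section

variable {K : Type*} [Field K] [Fintype K]

/-- The diagonal elements with parameters fixed by the twist lie in the twisted group. -/
theorem e6Theta_mem {q : ℕ} (hK : Fintype.card K = q ^ 2) (A : ALLOK chevE6) (φ : K →+* K)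
    (hφ : ∀ t, φ t = t ^ q)
    (p : Kˣ × Kˣ × ↥(powMonoidHom (q - 1) : Kˣ →* Kˣ).ker ×
      ↥(powMonoidHom (q - 1) : Kˣ →* Kˣ).ker) (hq : 0 < q) :
    chiHom chevE6 K (e6E φ q p) ∈ chevE6.diagonalSubgroup K ⊓ twistedE6 K q := by
  have hk := A.hk
  have hm1 : (-1 : K) ^ q = -1 := neg_one_pow_card (n := 2) (by norm_num) hK
  obtain ⟨s0, s1, s2, s3, s4, s5⟩ := e6_simple_eq
  obtain ⟨n0, n1, n2, n3, n4, n5⟩ := e6_negsimple_eq
  have np1 : chevE6.neg e6p1 = e6m1 := by rw [← s0]; exact n0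
  have np2 : chevE6.neg e6p2 = e6m2 := by rw [← s1]; exact n1
  have np3 : chevE6.neg e6p3 = e6m3 := by rw [← s2]; exact n2
  have np4 : chevE6.neg e6p4 = e6m4 := by rw [← s3]; exact n3
  have np5 : chevE6.neg e6p5 = e6m5 := by rw [← s4]; exact n4
  have np6 : chevE6.neg e6p6 = e6m6 := by rw [← s5]; exact n5
  have c16 : ∀ a b : K, Commute (xU hk e6p1 a) (xU hk e6p6 b) :=
    fun a b => e6_commute hk (by simp) a b
  have cm16 : ∀ a b : K, Commute (xU hk e6m1 a) (xU hk e6p6 b) :=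
    fun a b => e6_commute hk (by simp) a b
  have c1m6 : ∀ a b : K, Commute (xU hk e6p1 a) (xU hk e6m6 b) :=
    fun a b => e6_commute hk (by simp) a b
  have c35 : ∀ a b : K, Commute (xU hk e6p3 a) (xU hk e6p5 b) :=
    fun a b => e6_commute hk (by simp) a b
  have cm35 : ∀ a b : K, Commute (xU hk e6m3 a) (xU hk e6p5 b) :=
    fun a b => e6_commute hk (by simp) a b
  have c3m5 : ∀ a b : K, Commute (xU hk e6p3 a) (xU hk e6m5 b) :=
    fun a b => e6_commute hk (by simp) a b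
  have cm1m6 : ∀ a b : K, Commute (xU hk e6m1 a) (xU hk e6m6 b) := by
    intro a b
    obtain ⟨h1, h2, h3, h4, h5⟩ := e6_comm_facts2 (e6m1, e6m6) (by simp)
    exact comm_of_terms_nil hk h1 h2 h3 h4 h5 a b
  have cm3m5 : ∀ a b : K, Commute (xU hk e6m3 a) (xU hk e6m5 b) := by
    intro a b
    obtain ⟨h1, h2, h3, h4, h5⟩ := e6_comm_facts2 (e6m3, e6m5) (by simp)
    exact comm_of_terms_nil hk h1 h2 h3 h4 h5 a b
  have hblock16 : ∀ a : K, nrU hk e6p1 a * nrU hk e6p6 (a ^ q) ∈ twistedE6 K q := by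
    intro a
    apply nr_block2 hk _ c16 (by rw [np1]; exact cm16) (by rw [np6]; exact c1m6)
    · exact e6_pair hk q (rs := (e6p1, e6p6)) (by simp) a
    · rw [np1, np6]
      have h := e6_pair (K := K) hk q (rs := (e6m1, e6m6)) (by simp) (-a⁻¹)
      have e : (-a⁻¹) ^ q = -(a ^ q)⁻¹ := by
        rw [neg_pow, hm1, inv_pow]
        ring
      rwa [e] at h
  have hblock35 : ∀ a : K, nrU hk e6p3 a * nrU hk e6p5 (a ^ q) ∈ twistedE6 K q := by
    intro a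
    apply nr_block2 hk _ c35 (by rw [np3]; exact cm35) (by rw [np5]; exact c3m5)
    · exact e6_pair hk q (rs := (e6p3, e6p5)) (by simp) a
    · rw [np3, np5]
      have h := e6_pair (K := K) hk q (rs := (e6m3, e6m5)) (by simp) (-a⁻¹)
      have e : (-a⁻¹) ^ q = -(a ^ q)⁻¹ := by
        rw [neg_pow, hm1, inv_pow]
        ring
      rwa [e] at h
  have hN16 : ∀ a b : K, Commute (nrU hk e6p1 a) (nrU hk e6p6 b) :=
    nrU_commute hk c16 (by rw [np1]; exact cm16) (by rw [np6]; exact c1m6)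
      (by rw [np1, np6]; exact cm1m6)
  have hN35 : ∀ a b : K, Commute (nrU hk e6p3 a) (nrU hk e6p5 b) :=
    nrU_commute hk c35 (by rw [np3]; exact cm35) (by rw [np5]; exact c3m5)
      (by rw [np3, np5]; exact cm3m5)
  have pair16 : ∀ a : K, (nrU hk e6p1 a * nrU hk e6p1 (-1)) *
      (nrU hk e6p6 (a ^ q) * nrU hk e6p6 (-1)) ∈ twistedE6 K q := by
    intro a
    rw [mul2_comm (hN16 (-1) (a ^ q))]
    apply mul_mem (hblock16 a)
    have h := hblock16 (-1)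
    rwa [hm1] at h
  have pair35 : ∀ a : K, (nrU hk e6p3 a * nrU hk e6p3 (-1)) *
      (nrU hk e6p5 (a ^ q) * nrU hk e6p5 (-1)) ∈ twistedE6 K q := by
    intro a
    rw [mul2_comm (hN35 (-1) (a ^ q))]
    apply mul_mem (hblock35 a)
    have h := hblock35 (-1)
    rwa [hm1] at h
  have single2 : ∀ t : K, t ^ q = t → nrU hk e6p2 t ∈ twistedE6 K q := by
    intro t ht
    unfold nrU
    rw [np2]
    have e : (-t⁻¹) ^ q = -t⁻¹ := by
      rw [neg_pow, hm1, inv_pow, ht]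
      ring
    exact mul_mem (mul_mem (e6_single hk q (by simp) ht) (e6_single hk q (by simp) e))
      (e6_single hk q (by simp) ht)
  have single4 : ∀ t : K, t ^ q = t → nrU hk e6p4 t ∈ twistedE6 K q := by
    intro t ht
    unfold nrU
    rw [np4]
    have e : (-t⁻¹) ^ q = -t⁻¹ := by
      rw [neg_pow, hm1, inv_pow, ht]
      ring
    exact mul_mem (mul_mem (e6_single hk q (by simp) ht) (e6_single hk q (by simp) e))
      (e6_single hk q (by simp) ht)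
  rw [Subgroup.mem_inf]
  constructor
  · have h1 : chiHom chevE6 K (e6E φ q p) ∈ (chiHom chevE6 K).range := ⟨_, rfl⟩
    rwa [chiHom_range hk A.ak] at h1
  · obtain ⟨A0, hA0⟩ : ∃ A0 : Fin 6 → Kˣ, A0 = Pi.mulSingle (0 : Fin 6) p.1 := ⟨_, rfl⟩
    obtain ⟨A5, hA5⟩ : ∃ A5 : Fin 6 → Kˣ,
        A5 = Pi.mulSingle (5 : Fin 6) (Units.map (φ : K →* K) p.1) := ⟨_, rfl⟩
    obtain ⟨A2, hA2⟩ : ∃ A2 : Fin 6 → Kˣ, A2 = Pi.mulSingle (2 : Fin 6) p.2.1 := ⟨_, rfl⟩
    obtain ⟨A4, hA4⟩ : ∃ A4 : Fin 6 → Kˣ,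
        A4 = Pi.mulSingle (4 : Fin 6) (Units.map (φ : K →* K) p.2.1) := ⟨_, rfl⟩
    obtain ⟨A1, hA1⟩ : ∃ A1 : Fin 6 → Kˣ, A1 = Pi.mulSingle (1 : Fin 6) (p.2.2.1 : Kˣ) :=
      ⟨_, rfl⟩
    obtain ⟨A3, hA3⟩ : ∃ A3 : Fin 6 → Kˣ, A3 = Pi.mulSingle (3 : Fin 6) (p.2.2.2 : Kˣ) :=
      ⟨_, rfl⟩
    have hdec : e6E φ q p = A0 * A5 * (A2 * A4) * A1 * A3 := by
      rw [e6E_apply, hA0, hA5, hA2, hA4, hA1, hA3]
      funext i
      fin_cases i <;> simp
    have h0 : chiHom chevE6 K A0 = nrU hk e6p1 (p.1 : K) * nrU hk e6p1 (-1) := by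
      rw [hA0]
      exact chiHom_mulSingle (D := chevE6) hk (0 : Fin 6) p.1
    have h5 : chiHom chevE6 K A5 = nrU hk e6p6 ((p.1 : K) ^ q) * nrU hk e6p6 (-1) := by
      rw [hA5]
      have h := chiHom_mulSingle (D := chevE6) hk (5 : Fin 6) (Units.map (φ : K →* K) p.1)
      rw [Units.coe_map] at h
      rw [← hφ]
      exact h
    have h2 : chiHom chevE6 K A2 = nrU hk e6p3 (p.2.1 : K) * nrU hk e6p3 (-1) := by
      rw [hA2]
      exact chiHom_mulSingle (D := chevE6) hk (2 : Fin 6) p.2.1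
    have h4 : chiHom chevE6 K A4 = nrU hk e6p5 ((p.2.1 : K) ^ q) * nrU hk e6p5 (-1) := by
      rw [hA4]
      have h := chiHom_mulSingle (D := chevE6) hk (4 : Fin 6) (Units.map (φ : K →* K) p.2.1)
      rw [Units.coe_map] at h
      rw [← hφ]
      exact h
    have h1 : chiHom chevE6 K A1 =
        nrU hk e6p2 ((p.2.2.1 : Kˣ) : K) * nrU hk e6p2 (-1) := by
      rw [hA1]
      exact chiHom_mulSingle (D := chevE6) hk (1 : Fin 6) (p.2.2.1 : Kˣ)
    have h3 : chiHom chevE6 K A3 =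
        nrU hk e6p4 ((p.2.2.2 : Kˣ) : K) * nrU hk e6p4 (-1) := by
      rw [hA3]
      exact chiHom_mulSingle (D := chevE6) hk (3 : Fin 6) (p.2.2.2 : Kˣ)
    have hmul : ∀ a b : Fin 6 → Kˣ,
        chiHom chevE6 K (a * b) = chiHom chevE6 K a * chiHom chevE6 K b :=
      fun a b => map_mul (chiHom chevE6 K) a b
    rw [hdec, hmul, hmul, hmul, hmul, hmul, h0, h5, h2, h4, h1, h3]
    exact mul_mem (mul_mem (mul_mem (pair16 _) (pair35 _))
      (mul_mem (single2 _ ((mem_powker_iff hq _).mp p.2.2.1.2)) (single2 _ hm1)))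
      (mul_mem (single4 _ ((mem_powker_iff hq _).mp p.2.2.2.2)) (single4 _ hm1))

end

section

variable {K : Type*} [Field K] [Fintype K]

theorem ext6 {α : Type*} {f g : Fin 6 → α} (h0 : f 0 = g 0) (h1 : f 1 = g 1) (h2 : f 2 = g 2)
    (h3 : f 3 = g 3) (h4 : f 4 = g 4) (h5 : f 5 = g 5) : f = g := by
  funext i
  fin_cases i <;> assumption

/-- Every diagonal element fixed by the twist has parameters fixed by the twist. -/
theorem e6Theta_surj {q : ℕ} (hK : Fintype.card K = q ^ 2) (A : ALLOK chevE6) (φ : K →+* K)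
    (hφ : ∀ t, φ t = t ^ q) (hq : 0 < q) {h : GL chevE6.Idx K}
    (hH : h ∈ chevE6.diagonalSubgroup K) (hfix : h ∈ twFix graphOK_E6 φ) :
    ∃ p : Kˣ × Kˣ × ↥(powMonoidHom (q - 1) : Kˣ →* Kˣ).ker ×
      ↥(powMonoidHom (q - 1) : Kˣ →* Kˣ).ker, chiHom chevE6 K (e6E φ q p) = h := by
  have hk := A.hk
  obtain ⟨c, rfl⟩ : ∃ c : Fin 6 → Kˣ, chiHom chevE6 K c = h := by
    have h1 : h ∈ (chiHom chevE6 K).range := by
      rw [chiHom_range hk A.ak]
      exact hH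
    exact h1
  obtain ⟨f0, f1, f2, f3, f4, f5⟩ := e6_chiV_all c
  obtain ⟨s0, s1, s2, s3, s4, s5⟩ := e6_simple_eq
  rw [s0] at f0
  rw [s1] at f1
  rw [s2] at f2
  rw [s3] at f3
  rw [s4] at f4
  rw [s5] at f5
  have hφφ : ∀ t : K, φ (φ t) = t := by
    intro t
    rw [hφ, hφ, ← pow_mul, ← pow_two, ← hK]
    exact FiniteField.pow_card t
  have hFF : ∀ u : Kˣ, Units.map (φ : K →* K) (Units.map (φ : K →* K) u) = u := by
    intro u
    apply Units.ext
    rw [Units.coe_map, Units.coe_map]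
    exact hφφ u
  have g46 := chi_tw_fix hk A.wk graphOK_E6 φ c hfix (e6_gen_facts (46, 46) (by simp)).1
    (e6_gen_facts (46, 46) (by simp)).2.2
  have g39 := chi_tw_fix hk A.wk graphOK_E6 φ c hfix (e6_gen_facts (39, 39) (by simp)).1
    (e6_gen_facts (39, 39) (by simp)).2.2
  have g56 := chi_tw_fix hk A.wk graphOK_E6 φ c hfix (e6_gen_facts (56, 36) (by simp)).1
    (e6_gen_facts (56, 36) (by simp)).2.2
  have g36 := chi_tw_fix hk A.wk graphOK_E6 φ c hfix (e6_gen_facts (36, 56) (by simp)).1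
    (e6_gen_facts (36, 56) (by simp)).2.2
  have g42 := chi_tw_fix hk A.wk graphOK_E6 φ c hfix (e6_gen_facts (42, 37) (by simp)).1
    (e6_gen_facts (42, 37) (by simp)).2.2
  have g37 := chi_tw_fix hk A.wk graphOK_E6 φ c hfix (e6_gen_facts (37, 42) (by simp)).1
    (e6_gen_facts (37, 42) (by simp)).2.2
  rw [(e6_gen_facts (46, 46) (by simp)).2.1] at g46
  rw [(e6_gen_facts (39, 39) (by simp)).2.1] at g39
  rw [(e6_gen_facts (56, 36) (by simp)).2.1] at g56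
  rw [(e6_gen_facts (36, 56) (by simp)).2.1] at g36
  rw [(e6_gen_facts (42, 37) (by simp)).2.1] at g42
  rw [(e6_gen_facts (37, 42) (by simp)).2.1] at g37
  have R46 : c 1 ^ 2 * (c 3)⁻¹ = Units.map (φ : K →* K) (c 1 ^ 2 * (c 3)⁻¹) := by
    rw [← f1]
    exact Units.ext (by rw [Units.coe_map]; exact g46)
  have R39 : c 3 ^ 2 * (c 1 * c 2 * c 4)⁻¹ =
      Units.map (φ : K →* K) (c 3 ^ 2 * (c 1 * c 2 * c 4)⁻¹) := by
    rw [← f3]
    exact Units.ext (by rw [Units.coe_map]; exact g39)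
  have R56 : c 5 ^ 2 * (c 4)⁻¹ = Units.map (φ : K →* K) (c 0 ^ 2 * (c 2)⁻¹) := by
    rw [← f5, ← f0]
    exact Units.ext (by rw [Units.coe_map]; exact g56)
  have R36 : c 0 ^ 2 * (c 2)⁻¹ = Units.map (φ : K →* K) (c 5 ^ 2 * (c 4)⁻¹) := by
    rw [← f5, ← f0]
    exact Units.ext (by rw [Units.coe_map]; exact g36)
  have R42 : c 4 ^ 2 * (c 3 * c 5)⁻¹ = Units.map (φ : K →* K) (c 2 ^ 2 * (c 0 * c 3)⁻¹) := by
    rw [← f4, ← f2]
    exact Units.ext (by rw [Units.coe_map]; exact g42)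
  have R37 : c 2 ^ 2 * (c 0 * c 3)⁻¹ = Units.map (φ : K →* K) (c 4 ^ 2 * (c 3 * c 5)⁻¹) := by
    rw [← f4, ← f2]
    exact Units.ext (by rw [Units.coe_map]; exact g37)
  obtain ⟨σc, h0', h1', h2', h3', h4', h5'⟩ : ∃ σc : Fin 6 → Kˣ,
      σc 0 = Units.map (φ : K →* K) (c 5) ∧ σc 1 = Units.map (φ : K →* K) (c 1) ∧
      σc 2 = Units.map (φ : K →* K) (c 4) ∧ σc 3 = Units.map (φ : K →* K) (c 3) ∧
      σc 4 = Units.map (φ : K →* K) (c 2) ∧ σc 5 = Units.map (φ : K →* K) (c 0) :=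
    ⟨![Units.map (φ : K →* K) (c 5), Units.map (φ : K →* K) (c 1),
      Units.map (φ : K →* K) (c 4), Units.map (φ : K →* K) (c 3),
      Units.map (φ : K →* K) (c 2), Units.map (φ : K →* K) (c 0)], rfl, rfl, rfl, rfl, rfl, rfl⟩
  obtain ⟨t0, t1, t2, t3, t4, t5⟩ := e6_chiV_all σc
  rw [s0] at t0
  rw [s1] at t1
  rw [s2] at t2
  rw [s3] at t3
  rw [s4] at t4
  rw [s5] at t5
  have e0 : chiV chevE6 σc (Nat.add chevE6.rank e6p1) = chiV chevE6 c (Nat.add chevE6.rank e6p1) := by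
    rw [t0, f0, h0', h2', R36]
    simp only [map_mul, map_pow, map_inv]
  have e1 : chiV chevE6 σc (Nat.add chevE6.rank e6p2) = chiV chevE6 c (Nat.add chevE6.rank e6p2) := by
    rw [t1, f1, h1', h3', R46]
    simp only [map_mul, map_pow, map_inv]
  have e2 : chiV chevE6 σc (Nat.add chevE6.rank e6p3) = chiV chevE6 c (Nat.add chevE6.rank e6p3) := by
    rw [t2, f2, h2', h0', h3', R37]
    simp only [map_mul, map_pow, map_inv, mul_inv]
    ac_rfl
  have e3 : chiV chevE6 σc (Nat.add chevE6.rank e6p4) = chiV chevE6 c (Nat.add chevE6.rank e6p4) := by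
    rw [t3, f3, h3', h1', h2', h4', R39]
    simp only [map_mul, map_pow, map_inv, mul_inv]
    ac_rfl
  have e4 : chiV chevE6 σc (Nat.add chevE6.rank e6p5) = chiV chevE6 c (Nat.add chevE6.rank e6p5) := by
    rw [t4, f4, h4', h3', h5', R42]
    simp only [map_mul, map_pow, map_inv, mul_inv]
    ac_rfl
  have e5 : chiV chevE6 σc (Nat.add chevE6.rank e6p6) = chiV chevE6 c (Nat.add chevE6.rank e6p6) := by
    rw [t5, f5, h5', h4', R56]
    simp only [map_mul, map_pow, map_inv]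
  have hd : chiHom chevE6 K (σc / c) = 1 := by
    apply (e6_one_iff A (σc / c)).mpr
    intro j hj
    interval_cases j
    · rw [s0]
      exact (chiV_div (D := chevE6) σc c _).trans (by rw [e0, div_self'])
    · rw [s1]
      exact (chiV_div (D := chevE6) σc c _).trans (by rw [e1, div_self'])
    · rw [s2]
      exact (chiV_div (D := chevE6) σc c _).trans (by rw [e2, div_self'])
    · rw [s3]
      exact (chiV_div (D := chevE6) σc c _).trans (by rw [e3, div_self'])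
    · rw [s4]
      exact (chiV_div (D := chevE6) σc c _).trans (by rw [e4, div_self'])
    · rw [s5]
      exact (chiV_div (D := chevE6) σc c _).trans (by rw [e5, div_self'])
  obtain ⟨w3, d1, d2, d3, d4, d5⟩ := (e6_ker_iff A (σc / c)).mp hd
  simp only [Pi.div_apply] at w3 d1 d2 d3 d4 d5
  rw [h0'] at w3 d2 d4 d5
  rw [h1', div_eq_one] at d1
  rw [h3', div_eq_one] at d3
  rw [h2', div_eq_iff_eq_mul] at d2
  rw [h4', div_eq_iff_eq_mul] at d4
  rw [h5', div_eq_iff_eq_mul] at d5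
  obtain ⟨ω, hω0⟩ : ∃ ω : Kˣ, ω = Units.map (φ : K →* K) (c 5) / c 0 := ⟨_, rfl⟩
  rw [← hω0] at w3 d2 d4 d5
  have k0 : Units.map (φ : K →* K) (c 5) = ω * c 0 := by
    rw [hω0, div_mul_cancel]
  have e3' : ω * ω ^ 2 = 1 := by
    rw [← pow_succ']
    exact w3
  have hω : Units.map (φ : K →* K) ω = ω := by
    have h1 : Units.map (φ : K →* K) ω * ω ^ 2 * c 5 = ω * ω ^ 2 * c 5 := by
      calc Units.map (φ : K →* K) ω * ω ^ 2 * c 5
          = Units.map (φ : K →* K) ω * (ω ^ 2 * c 5) := mul_assoc _ _ _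
        _ = Units.map (φ : K →* K) ω * Units.map (φ : K →* K) (c 0) := by rw [d5]
        _ = Units.map (φ : K →* K) (ω * c 0) := (map_mul _ _ _).symm
        _ = Units.map (φ : K →* K) (Units.map (φ : K →* K) (c 5)) := by rw [k0]
        _ = c 5 := hFF _
        _ = ω * ω ^ 2 * c 5 := by rw [e3', one_mul]
    exact mul_right_cancel (mul_right_cancel h1)
  have hω4 : ω ^ 2 * ω ^ 2 = ω := by
    calc ω ^ 2 * ω ^ 2 = ω * ω ^ 2 * ω := by
          rw [pow_two]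
          simp only [mul_assoc]
      _ = ω := by rw [e3', one_mul]
  have m1 : c 1 ∈ (powMonoidHom (q - 1) : Kˣ →* Kˣ).ker := by
    rw [mem_powker_iff hq, ← hφ]
    have := congrArg Units.val d1
    rw [Units.coe_map] at this
    exact this
  have m3 : c 3 ∈ (powMonoidHom (q - 1) : Kˣ →* Kˣ).ker := by
    rw [mem_powker_iff hq, ← hφ]
    have := congrArg Units.val d3
    rw [Units.coe_map] at this
    exact this
  obtain ⟨ζ, z0, z1, z2, z3, z4, z5⟩ : ∃ ζ : Fin 6 → Kˣ,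
      ζ 0 = ω ^ 2 ∧ ζ 1 = 1 ∧ ζ 2 = ω ∧ ζ 3 = 1 ∧ ζ 4 = ω ^ 2 ∧ ζ 5 = ω :=
    ⟨![ω ^ 2, 1, ω, 1, ω ^ 2, ω], rfl, rfl, rfl, rfl, rfl, rfl⟩
  have hζ : chiHom chevE6 K ζ = 1 := by
    apply (e6_ker_iff A ζ).mpr
    refine ⟨?_, z1, ?_, z3, ?_, ?_⟩
    · rw [z0]
      calc (ω ^ 2) ^ 3 = ω ^ 2 * ω ^ 2 * ω ^ 2 := by
            rw [pow_succ, pow_two (ω ^ 2)]
        _ = ω * ω ^ 2 := by rw [hω4]
        _ = 1 := e3'
    · rw [z2, z0, pow_two (ω ^ 2), hω4]
    · rw [z4, z0]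
    · rw [z5, z0, pow_two (ω ^ 2), hω4]
  refine ⟨(c 0 * ω ^ 2, c 2 * ω, ⟨c 1, m1⟩, ⟨c 3, m3⟩), ?_⟩
  have hE : e6E φ q (c 0 * ω ^ 2, c 2 * ω, ⟨c 1, m1⟩, ⟨c 3, m3⟩) = c * ζ := by
    rw [e6E_apply]
    apply ext6
    · show c 0 * ω ^ 2 = c 0 * ζ 0
      rw [z0]
    · show c 1 = c 1 * ζ 1
      rw [z1, mul_one]
    · show c 2 * ω = c 2 * ζ 2
      rw [z2]
    · show c 3 = c 3 * ζ 3
      rw [z3, mul_one]
    · show Units.map (φ : K →* K) (c 2 * ω) = c 4 * ζ 4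
      rw [z4, map_mul, d4, hω, pow_two, mul_comm ω (c 4), mul_assoc]
    · show Units.map (φ : K →* K) (c 0 * ω ^ 2) = c 5 * ζ 5
      rw [z5, map_mul, map_pow, d5, hω]
      calc ω ^ 2 * c 5 * ω ^ 2 = c 5 * (ω ^ 2 * ω ^ 2) := by
            rw [mul_comm (ω ^ 2) (c 5), mul_assoc]
        _ = c 5 * ω := by rw [hω4]
  rw [hE]
  have hmul : chiHom chevE6 K (c * ζ) = chiHom chevE6 K c * chiHom chevE6 K ζ :=
    map_mul (chiHom chevE6 K) c ζ
  rw [hmul, hζ, mul_one]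

omit [Fintype K] in
/-- The parameters giving the trivial diagonal element. -/
theorem e6Theta_ker_iff {q : ℕ} (A : ALLOK chevE6) (φ : K →+* K) (hφ : ∀ t, φ t = t ^ q)
    (p : Kˣ × Kˣ × ↥(powMonoidHom (q - 1) : Kˣ →* Kˣ).ker ×
      ↥(powMonoidHom (q - 1) : Kˣ →* Kˣ).ker) :
    chiHom chevE6 K (e6E φ q p) = 1 ↔
      (p.1 ^ 3 = 1 ∧ p.1 ^ (q + 1) = 1 ∧ p.2.1 = p.1 ^ 2 ∧ p.2.2.1 = 1 ∧ p.2.2.2 = 1) := by
  rw [e6_ker_iff A (e6E φ q p)]
  have hF : ∀ u : Kˣ, Units.map (φ : K →* K) u = u ^ q := by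
    intro u
    apply Units.ext
    rw [Units.coe_map, Units.val_pow_eq_pow_val]
    exact hφ u
  have c0 : e6E φ q p 0 = p.1 := rfl
  have c1 : e6E φ q p 1 = (p.2.2.1 : Kˣ) := rfl
  have c2 : e6E φ q p 2 = p.2.1 := rfl
  have c3 : e6E φ q p 3 = (p.2.2.2 : Kˣ) := rfl
  have c4 : e6E φ q p 4 = p.2.1 ^ q := hF _
  have c5 : e6E φ q p 5 = p.1 ^ q := hF _
  rw [c0, c1, c2, c3, c4, c5]
  constructor
  · rintro ⟨h0, h1, h2, h3, h4, h5⟩
    refine ⟨h0, ?_, h2, Subtype.ext h1, Subtype.ext h3⟩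
    rw [pow_succ, h5, ← pow_succ]
    exact h0
  · rintro ⟨h0, hq1, h2, h1, h3⟩
    have h5 : p.1 ^ q = p.1 ^ 2 := by
      apply mul_right_cancel (b := p.1)
      rw [← pow_succ, ← pow_succ, hq1, h0]
    refine ⟨h0, by rw [h1]; rfl, h2, by rw [h3]; rfl, ?_, h5⟩
    rw [h2, ← pow_mul, mul_comm, pow_mul, h5, ← pow_mul]
    calc p.1 ^ (2 * 2) = p.1 ^ 3 * p.1 := by rw [← pow_succ]
      _ = p.1 := by rw [h0, one_mul]

/-- The order of the diagonal subgroup of the twisted group of type `E₆`. -/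
theorem twE6_card_diag {q : ℕ} (hq : IsPrimePow q) (hK : Fintype.card K = q ^ 2) :
    Nat.gcd 3 (q + 1) * Nat.card ↥(chevE6.diagonalSubgroup K ⊓ twistedE6 K q) =
      (q - 1) ^ 4 * (q + 1) ^ 2 := by
  classical
  have hD : chevE6 ∈ [chevG2, chevB2, chevD4, chevF4, chevE6, chevE7, chevE8] := by
    simp only [List.mem_cons, true_or, or_true]
  have A := allok_cert _ hD
  have hk := A.hk
  obtain ⟨φ, hφ, hle, -⟩ := twE6_pack hq hK A
  have hq1 : 1 < q := hq.one_lt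
  have hq0 : 0 < q := by omega
  have hsq : q ^ 2 - 1 = (q - 1) * (q + 1) := by
    obtain ⟨m, rfl⟩ : ∃ m, q = m + 1 := ⟨q - 1, by omega⟩
    have e : (m + 1) ^ 2 = m * (m + 1 + 1) + 1 := by ring
    rw [e]
    rfl
  have hKq : Nat.card (powMonoidHom (q - 1) : Kˣ →* Kˣ).ker = q - 1 := by
    rw [IsCyclic.card_powMonoidHom_ker, Nat.card_units, Nat.card_eq_fintype_card, hK]
    apply Nat.gcd_eq_right
    exact Nat.sub_one_dvd_pow_sub_one q 2
  have hKd : Nat.card (powMonoidHom (Nat.gcd 3 (q + 1)) : Kˣ →* Kˣ).ker = Nat.gcd 3 (q + 1) := by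
    rw [IsCyclic.card_powMonoidHom_ker, Nat.card_units, Nat.card_eq_fintype_card, hK]
    apply Nat.gcd_eq_right
    rw [hsq]
    exact Dvd.dvd.mul_left (Nat.gcd_dvd_right 3 (q + 1)) _
  have hP : Nat.card (Kˣ × Kˣ × ↥(powMonoidHom (q - 1) : Kˣ →* Kˣ).ker ×
      ↥(powMonoidHom (q - 1) : Kˣ →* Kˣ).ker) =
        (q ^ 2 - 1) * ((q ^ 2 - 1) * ((q - 1) * (q - 1))) := by
    rw [Nat.card_prod, Nat.card_prod, Nat.card_prod, hKq, Nat.card_units,
      Nat.card_eq_fintype_card, hK]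
  obtain ⟨Θ, hΘ⟩ : ∃ Θ : Kˣ × Kˣ × ↥(powMonoidHom (q - 1) : Kˣ →* Kˣ).ker ×
      ↥(powMonoidHom (q - 1) : Kˣ →* Kˣ).ker →* GL chevE6.Idx K,
      ∀ p, Θ p = chiHom chevE6 K (e6E φ q p) :=
    ⟨(chiHom chevE6 K).comp (e6E φ q), fun _ => rfl⟩
  have hrange : Θ.range = chevE6.diagonalSubgroup K ⊓ twistedE6 K q := by
    apply le_antisymm
    · rintro _ ⟨p, rfl⟩
      rw [hΘ]
      exact e6Theta_mem hK A φ hφ p hq0
    · intro h hh
      obtain ⟨p, hp⟩ := e6Theta_surj hK A φ hφ hq0 (Subgroup.mem_inf.mp hh).1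
        (hle (Subgroup.mem_inf.mp hh).2)
      exact ⟨p, (hΘ p).trans hp⟩
  have hmem : ∀ p, p ∈ Θ.ker ↔
      (p.1 ^ 3 = 1 ∧ p.1 ^ (q + 1) = 1 ∧ p.2.1 = p.1 ^ 2 ∧ p.2.2.1 = 1 ∧ p.2.2.2 = 1) := by
    intro p
    rw [MonoidHom.mem_ker, hΘ]
    exact e6Theta_ker_iff A φ hφ p
  have hker : Nat.card ↥Θ.ker = Nat.gcd 3 (q + 1) := by
    rw [← hKd]
    apply Nat.card_congr
    refine Equiv.ofBijective
      (fun p => ⟨p.1.1, ?_⟩) ⟨?_, ?_⟩
    · rw [MonoidHom.mem_ker, powMonoidHom_apply]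
      obtain ⟨h0, h1, -⟩ := (hmem p.1).mp p.2
      exact pow_gcd_eq_one.mpr ⟨h0, h1⟩
    · rintro ⟨⟨a1, a2, a3, a4⟩, ha⟩ ⟨⟨b1, b2, b3, b4⟩, hb⟩ hab
      obtain ⟨-, -, x2, x3, x4⟩ := (hmem _).mp ha
      obtain ⟨-, -, y2, y3, y4⟩ := (hmem _).mp hb
      have e1 : a1 = b1 := congrArg Subtype.val hab
      simp only at x2 x3 x4 y2 y3 y4
      apply Subtype.ext
      show (a1, a2, a3, a4) = (b1, b2, b3, b4)
      rw [x2, x3, x4, y2, y3, y4, e1]
    · rintro ⟨w, hw⟩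
      rw [MonoidHom.mem_ker, powMonoidHom_apply] at hw
      have w3 : w ^ 3 = 1 := by
        obtain ⟨k, hk3⟩ := Nat.gcd_dvd_left 3 (q + 1)
        rw [hk3, pow_mul, hw, one_pow]
      have wq : w ^ (q + 1) = 1 := by
        obtain ⟨k, hk3⟩ := Nat.gcd_dvd_right 3 (q + 1)
        rw [hk3, pow_mul, hw, one_pow]
      exact ⟨⟨(w, w ^ 2, 1, 1), (hmem _).mpr ⟨w3, wq, rfl, rfl, rfl⟩⟩, rfl⟩
  have h1 := Subgroup.card_mul_index Θ.ker
  rw [Subgroup.index_ker, hrange, hker, hP, hsq] at h1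
  rw [h1]
  ring

end

end Cfsg.Agent.Lib.Helper9
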