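import Cfsg.Agent.Lib.Helper9.ThmTw3
import Cfsg.Agent.Lib.Helper9.ThmTwPerf
import Cfsg.Agent.Lib.Helper9.ThmOrder
import Cfsg.Agent.Lib.Helper9.CertF4Sz
import Cfsg.Agent.Lib.Helper9.ChevIds
import Cfsg.Agent.Lib.Helper9.TabF4
import Cfsg.Agent.Lib.Helper9.PermTabF4
import Cfsg.Prelude.Def_LieTwisted

set_option autoImplicit false

namespace Cfsg.Agent.Lib.Helper9

open Cfsg.Lie

/-- A word of the longest element of the Weyl group of `chevF4` made of blocks belonging to the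
twisted group. -/
def twW0F4 : List ℕ :=
  [0, 3, 1, 2, 1, 2, 0, 3, 1, 2, 1, 2, 0, 3, 1, 2, 1, 2, 0, 3, 1, 2, 1, 2]

/-- The reversed word. -/
def twW0RevF4 : List ℕ :=
  [2, 1, 2, 1, 3, 0, 2, 1, 2, 1, 3, 0, 2, 1, 2, 1, 3, 0, 2, 1, 2, 1, 3, 0]

/-- The blocks of the word. -/
def twBlkF4 : List (List ℕ) :=
  [[0, 3], [1, 2, 1, 2], [0, 3], [1, 2, 1, 2], [0, 3], [1, 2, 1, 2], [0, 3], [1, 2, 1, 2]]

set_option maxRecDepth 1000000 in
theorem twW0F4_ok : w0B chevF4 permLitF4 twW0F4 twW0RevF4 = true := by decide +kernel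

theorem twW0F4_lt : ∀ i ∈ twW0F4, i < chevF4.rank := by decide

theorem twBlkF4_flatten : twBlkF4.flatten = twW0F4 := by decide

theorem twBlkF4_mem : ∀ blk ∈ twBlkF4, blk = [0, 3] ∨ blk = [1, 2, 1, 2] := by
  decide

theorem f4_idx_facts : chevF4.simple 0 = 33 ∧ chevF4.simple 1 = 27 ∧ chevF4.simple 2 = 25 ∧
    chevF4.simple 3 = 24 ∧ chevF4.neg 33 = 14 ∧ chevF4.neg 27 = 20 ∧ chevF4.neg 25 = 22 ∧
    chevF4.neg 24 = 23 ∧ chevF4.rank = 4 ∧ chevF4.nroots = 48 := by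
  decide +kernel

set_option maxRecDepth 1000000 in
theorem f4_comm_facts : ∀ p ∈ [((33 : ℕ), (24 : ℕ)), (14, 24), (33, 23)],
    p.1 < chevF4.nroots ∧ p.2 < chevF4.nroots ∧ p.2 ≠ chevF4.neg p.1 ∧
      commB chevF4 (litsOf chevF4) p.1 p.2 = true ∧ chevF4.commTerms p.1 p.2 = [] := by
  decide +kernel

theorem f4_vh_facts : chevF4.IsNegRoot 19 ∧
    ∀ j < chevF4.rank, 19 ≠ chevF4.neg (chevF4.simple j) := by
  decide +kernel

theorem f4_sz_lt : (∀ p ∈ szW, p.1 < chevF4.nroots) ∧ (∀ p ∈ szN, p.1 < chevF4.nroots) := by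
  decide +kernel

section

variable {K : Type*} [Field K]

theorem f4_commute (hk : HOK chevF4) {r s : ℕ}
    (h : (r, s) ∈ [((33 : ℕ), (24 : ℕ)), (14, 24), (33, 23)]) (t u : K) :
    Commute (xU hk r t) (xU hk s u) := by
  obtain ⟨h1, h2, h3, h4, h5⟩ := f4_comm_facts (r, s) h
  exact comm_of_terms_nil hk h1 h2 h3 h4 h5 t u

theorem f4_word_mem (e : ℕ) (g : GL chevF4.Idx K) (w : List (ℕ × K))
    (hw : w ∈ f4Words K e) (hg : (g : Matrix chevF4.Idx chevF4.Idx K) = chevF4.wordMat K w) :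
    g ∈ twistedF4 K e :=
  Subgroup.subset_closure ⟨w, hw, hg⟩

theorem f4_pair_pos (hk : HOK chevF4) (e : ℕ) :
    xU hk 33 (1 : K) * xU hk 24 1 ∈ twistedF4 K e := by
  apply f4_word_mem e _ (f4PairWord e f4p1 f4p4 1) (Or.inl ⟨1, Or.inl rfl⟩)
  simp [f4PairWord, ChevalleyDatum.wordMat, xU_val, f4p1, f4p4]

theorem f4_pair_neg (hk : HOK chevF4) (e : ℕ) :
    xU hk 14 (1 : K) * xU hk 23 1 ∈ twistedF4 K e := by
  apply f4_word_mem e _ (f4PairWord e f4m1 f4m4 1) (Or.inl ⟨1, Or.inr rfl⟩)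
  simp [f4PairWord, ChevalleyDatum.wordMat, xU_val, f4m1, f4m4]

theorem f4_cls_u1 (hk : HOK chevF4) {e : ℕ} (he : e ≠ 0) :
    wordU hk [(27, (1 : K)), (25, 1), (28, 1)] ∈ twistedF4 K e := by
  apply f4_word_mem e _ (b2ClassWord e f4a f4b f4ab f4aab 1 0) (Or.inr ⟨1, 0, Or.inl rfl⟩)
  simp [b2ClassWord, ChevalleyDatum.wordMat, wordU_val, he, x_zero, f4a, f4b, f4ab, f4aab]

theorem f4_cls_v2 (hk : HOK chevF4) {e : ℕ} (he : e ≠ 0) :
    wordU hk [(19, (1 : K)), (17, 1)] ∈ twistedF4 K e := by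
  apply f4_word_mem e _ (b2ClassWord e f4ma f4mb f4mab f4maab 0 1) (Or.inr ⟨0, 1, Or.inr rfl⟩)
  simp [b2ClassWord, ChevalleyDatum.wordMat, wordU_val, he, x_zero, f4ma, f4mb, f4mab, f4maab]

theorem f4_cls_u3 (hk : HOK chevF4) (h2 : (2 : K) = 0) (e : ℕ) :
    wordU hk [(27, (1 : K)), (25, 1), (30, 1)] ∈ twistedF4 K e := by
  apply f4_word_mem e _ (b2ClassWord e f4a f4b f4ab f4aab 1 1) (Or.inr ⟨1, 1, Or.inl rfl⟩)
  have h11 : (1 : K) + 1 = 0 := by rw [one_add_one_eq_two, h2]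
  simp [b2ClassWord, ChevalleyDatum.wordMat, wordU_val, h11, x_zero, f4a, f4b, f4ab, f4aab]

theorem f4_cls_gen (hk : HOK chevF4) {e : ℕ} (he : e ≠ 0) :
    wordU hk (negL chevF4 [(1, (1 : K)), (2, 1)]) * xU hk 19 1 ∈ twistedF4 K e := by
  apply f4_word_mem e _ (b2ClassWord e f4ma f4mb f4mab f4maab 1 0) (Or.inr ⟨1, 0, Or.inr rfl⟩)
  obtain ⟨s0, s1, s2, s3, m0, m1, m2, m3, -⟩ := f4_idx_facts
  simp [b2ClassWord, ChevalleyDatum.wordMat, wordU, negL, xU_val, he, x_zero, f4ma, f4mb, f4mab,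
    f4maab, s1, s2, m1, m2, mul_assoc]

theorem f4_pair_gen (hk : HOK chevF4) (e : ℕ) :
    wordU hk (negL chevF4 [(0, (1 : K)), (3, 1)]) * 1 ∈ twistedF4 K e := by
  obtain ⟨s0, s1, s2, s3, m0, m1, m2, m3, -⟩ := f4_idx_facts
  have h := f4_pair_neg (K := K) hk e
  have e1 : wordU hk (negL chevF4 [(0, (1 : K)), (3, 1)]) * 1 = xU hk 14 (1 : K) * xU hk 23 1 := by
    simp [wordU, negL, s0, s3, m0, m3]
  rw [e1]
  exact h

/-- In characteristic two a product of three generators of the twisted group is the element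
`n_a n_b n_a n_b` of `N`. -/
theorem f4_sz_eq (hk : HOK chevF4) (h2 : (2 : K) = 0) :
    wordU hk [(27, (1 : K)), (25, 1), (28, 1)] * wordU hk [(19, (1 : K)), (17, 1)] *
      wordU hk [(27, (1 : K)), (25, 1), (30, 1)] = nW hk K [1, 2, 1, 2] := by
  obtain ⟨s0, s1, s2, s3, m0, m1, m2, m3, hrank, hnr⟩ := f4_idx_facts
  have hρ : StdVal (stdρ (fun _ => (0 : K))) := stdVal_stdρ _
  have key := wordMat_eq_of_pcolEq2 chevF4 hk.hN hρ h2 (litsOf chevF4) hk.xok szW szN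
    f4_sz_lt.1 f4_sz_lt.2 (fun c hc => allB_spec f4_sz_cert (by rw [hrank, hnr] at hc; exact hc))
  simp only [szW, szN, List.map_cons, List.map_nil, evalMono_one, evalMono_seven hρ,
    ChevalleyDatum.wordMat, List.prod_cons, List.prod_nil, mul_one] at key
  apply Units.ext
  simp only [nW, List.map_cons, List.map_nil, List.prod_cons, List.prod_nil, mul_one,
    nU_eq_three, s1, s2, m1, m2, wordU, Units.val_mul, xU_val, mul_assoc]
  exact key

/-- The normal core of `B ∩ G¹` in the twisted group of type `F₄` is trivial. -/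
theorem twF4_core (h2 : (2 : K) = 0) {e : ℕ} (he : e ≠ 0) :
    ((chevF4.borelSubgroup K ⊓ twistedF4 K e).subgroupOf (twistedF4 K e)).normalCore = ⊥ := by
  have hD : chevF4 ∈ [chevG2, chevB2, chevD4, chevF4, chevE6, chevE7, chevE8] := by
    simp only [List.mem_cons, true_or, or_true]
  have A := allok_all chevF4 hD
  have hk := A.hk
  obtain ⟨s0, s1, s2, s3, m0, m1, m2, m3, hrank, hnr⟩ := f4_idx_facts
  have hm1 : (-1 : K) = 1 := by
    have : (-1 : K) = 1 - 2 := by ring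
    rw [this, h2, sub_zero]
  have hg₀ : nW hk K twW0F4 ∈ twistedF4 K e := by
    rw [← twBlkF4_flatten]
    apply nW_flatten_mem
    intro blk hblk
    rcases twBlkF4_mem blk hblk with rfl | rfl
    · rw [nW_two]
      apply block2 hk
      · rw [s0, s3]; exact f4_commute hk (by simp) _ _
      · rw [s0, m0, s3]; exact f4_commute hk (by simp) _ _
      · rw [s0, s3, m3]; exact f4_commute hk (by simp) _ _
      · rw [s0, s3]; exact f4_pair_pos hk e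
      · rw [s0, s3, m0, m3, hm1]; exact f4_pair_neg hk e
    · rw [← f4_sz_eq hk h2]
      exact mul_mem (mul_mem (f4_cls_u1 hk he) (f4_cls_v2 hk he)) (f4_cls_u3 hk h2 e)
  have hN : nW hk K twW0F4 ∈ chevF4.monomialSubgroup K := nW_mem hk _ twW0F4_lt
  have hU : ∀ u ∈ chevF4.posUnipotent K,
      nW hk K twW0F4 * u * (nW hk K twW0F4)⁻¹ ∈ chevF4.negUnipotent K := by
    intro u hu
    rw [← w0_conj hk A.nk A.xk twW0F4 twW0RevF4 twW0F4_lt twW0F4_ok]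
    exact ⟨u, hu, rfl⟩
  refine tw_core2 A (twistedF4 K e) _ hg₀ hN hU ?_
  intro i hi
  rw [hrank] at hi
  have h0 : (0 : ℕ) < chevF4.rank := by rw [hrank]; norm_num
  have h1 : (1 : ℕ) < chevF4.rank := by rw [hrank]; norm_num
  have h2' : (2 : ℕ) < chevF4.rank := by rw [hrank]; norm_num
  have h3 : (3 : ℕ) < chevF4.rank := by rw [hrank]; norm_num
  have hA : ∃ (L : List (ℕ × K)) (R : GL chevF4.Idx K), (∀ p ∈ L, p.1 < chevF4.rank) ∧
      (L.map Prod.fst).Nodup ∧ (∃ a : K, a ≠ 0 ∧ ((0, a) ∈ L ∧ (3, a) ∈ L)) ∧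
      R ∈ vhSub chevF4 K ∧ wordU A.hk (negL chevF4 L) * R ∈ twistedF4 K e := by
    refine ⟨[(0, (1 : K)), (3, 1)], 1, ?_, ?_, ⟨1, one_ne_zero, by simp, by simp⟩, one_mem _,
      f4_pair_gen hk e⟩
    · intro p hp
      simp only [List.mem_cons, List.not_mem_nil, or_false] at hp
      rcases hp with rfl | rfl
      · exact h0
      · exact h3
    · simp
  have hB : ∃ (L : List (ℕ × K)) (R : GL chevF4.Idx K), (∀ p ∈ L, p.1 < chevF4.rank) ∧
      (L.map Prod.fst).Nodup ∧ (∃ a : K, a ≠ 0 ∧ ((1, a) ∈ L ∧ (2, a) ∈ L)) ∧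
      R ∈ vhSub chevF4 K ∧ wordU A.hk (negL chevF4 L) * R ∈ twistedF4 K e := by
    refine ⟨[(1, (1 : K)), (2, 1)], xU hk 19 1, ?_, ?_, ⟨1, one_ne_zero, by simp, by simp⟩,
      xU_mem_vhSub hk f4_vh_facts.1 f4_vh_facts.2 _, f4_cls_gen hk he⟩
    · intro p hp
      simp only [List.mem_cons, List.not_mem_nil, or_false] at hp
      rcases hp with rfl | rfl
      · exact h1
      · exact h2'
    · simp
  interval_cases i
  · obtain ⟨L, R, a1, a2, ⟨a, ha, h03⟩, a4, a5⟩ := hA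
    exact ⟨L, R, a1, a2, ⟨a, ha, h03.1⟩, a4, a5⟩
  · obtain ⟨L, R, a1, a2, ⟨a, ha, h12⟩, a4, a5⟩ := hB
    exact ⟨L, R, a1, a2, ⟨a, ha, h12.1⟩, a4, a5⟩
  · obtain ⟨L, R, a1, a2, ⟨a, ha, h12⟩, a4, a5⟩ := hB
    exact ⟨L, R, a1, a2, ⟨a, ha, h12.2⟩, a4, a5⟩
  · obtain ⟨L, R, a1, a2, ⟨a, ha, h03⟩, a4, a5⟩ := hA
    exact ⟨L, R, a1, a2, ⟨a, ha, h03.2⟩, a4, a5⟩

end

end Cfsg.Agent.Lib.Helper9
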