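import Cfsg.Agent.Lib.Helper9.ThmFieldMap
import Cfsg.Agent.Lib.Helper9.ThmU3
import Cfsg.Agent.Lib.Helper9.ThmWeylPerm
import Cfsg.Agent.Lib.Helper15.ChevGraphEx

set_option autoImplicit false

namespace Cfsg.Agent.Lib.Helper9

open Cfsg.Lie
open Cfsg.Agent.Lib.Helper15.ChevGraphEx

/-! ### Elements of `U` fixed by a graph automorphism composed with a field endomorphism -/

section order

variable {D : ChevalleyDatum}

/-- The weighted height of a root. -/
def htW (D : ChevalleyDatum) (Wt : List ℕ) (r : ℕ) : ℤ := lamF D Wt (Nat.add D.rank r)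

theorem htW_comb (Wt : List ℕ) {γ r s : ℕ} (h : Comb D γ r s) :
    ∃ a b : ℕ, 1 ≤ a ∧ 1 ≤ b ∧ htW D Wt γ = (a : ℤ) * htW D Wt r + (b : ℤ) * htW D Wt s := by
  obtain ⟨_, a, b, ha, hb, hc⟩ := h
  exact ⟨a, b, ha, hb, lamN_lin D Wt hc D.rank le_rfl⟩

/-- A list of the positive roots in an order of non-decreasing height. -/
structure OrdOK (D : ChevalleyDatum) (Wt : List ℕ) (ord : List ℕ) : Prop where
  mem : ∀ s < D.nroots, D.IsPosRoot s → s ∈ ord
  pos : ∀ s ∈ ord, D.IsPosRoot s ∧ 0 < htW D Wt s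
  sorted : ∀ j' < ord.length, ∀ j < j', htW D Wt (ord.getD j 0) ≤ htW D Wt (ord.getD j' 0)
  nodup : ord.Nodup

/-- The roots at the positions from `κ` on. -/
def TOrd (ord : List ℕ) (κ : ℕ) (s : ℕ) : Prop := ∃ j, κ ≤ j ∧ j < ord.length ∧ ord.getD j 0 = s

theorem getD_mem_of_lt {ord : List ℕ} {j : ℕ} (hj : j < ord.length) : ord.getD j 0 ∈ ord := by
  rw [List.getD_eq_getElem _ _ hj]
  exact List.getElem_mem hj

theorem tord_mem {ord : List ℕ} {κ s : ℕ} (h : TOrd ord κ s) : s ∈ ord := by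
  obtain ⟨j, _, hj, rfl⟩ := h
  exact getD_mem_of_lt hj

theorem tord_of_mem {ord : List ℕ} {s : ℕ} (h : s ∈ ord) : TOrd ord 0 s := by
  obtain ⟨j, hj, e⟩ := List.getElem_of_mem h
  exact ⟨j, Nat.zero_le _, hj, by rw [List.getD_eq_getElem _ _ hj, e]⟩

theorem tord_anti {ord : List ℕ} {κ κ' s : ℕ} (hκ : κ ≤ κ') (h : TOrd ord κ' s) : TOrd ord κ s := by
  obtain ⟨j, h1, h2, h3⟩ := h
  exact ⟨j, le_trans hκ h1, h2, h3⟩

theorem tord_self {ord : List ℕ} {κ : ℕ} (hκ : κ < ord.length) : TOrd ord κ (ord.getD κ 0) :=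
  ⟨κ, le_rfl, hκ, rfl⟩

theorem getD_inj_of_nodup {ord : List ℕ} (hnd : ord.Nodup) {i j : ℕ} (hi : i < ord.length)
    (hj : j < ord.length) (h : ord.getD i 0 = ord.getD j 0) : i = j := by
  rw [List.getD_eq_getElem _ _ hi, List.getD_eq_getElem _ _ hj] at h
  exact (List.Nodup.getElem_inj_iff hnd).mp h

theorem not_tord_succ {ord : List ℕ} (hnd : ord.Nodup) {κ : ℕ} (hκ : κ < ord.length) :
    ¬ TOrd ord (κ + 1) (ord.getD κ 0) := by
  rintro ⟨j, h1, h2, h3⟩
  have := getD_inj_of_nodup hnd h2 hκ h3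
  omega

variable {Wt ord : List ℕ}

theorem tord_pos (O : OrdOK D Wt ord) {κ s : ℕ} (h : TOrd ord κ s) : D.IsPosRoot s :=
  (O.pos s (tord_mem h)).1

/-- The roots from a position on form an ideal of the positive roots. -/
theorem tord_comb (hk : HOK D) (uk : UOK D) (O : OrdOK D Wt ord) {κ γ r s : ℕ}
    (hr : D.IsPosRoot r) (hs : TOrd ord κ s) (h : Comb D γ r s) : TOrd ord κ γ := by
  have hps := tord_pos O hs
  have hpγ := (comb_pos hk uk hr hps h).1
  obtain ⟨jγ, -, hjγ, eγ⟩ := tord_of_mem (O.mem γ hpγ.1 hpγ)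
  obtain ⟨js, hκs, hjs, es⟩ := hs
  refine ⟨jγ, ?_, hjγ, eγ⟩
  by_contra hcon
  have hlt : jγ < js := by omega
  have h1 := O.sorted js hjs jγ hlt
  rw [eγ, es] at h1
  obtain ⟨a, b, ha, hb, e⟩ := htW_comb Wt h
  have h2 := (O.pos r (O.mem r hr.1 hr)).2
  have h3 := (O.pos s (O.mem s hps.1 hps)).2
  have h4 : (1 : ℤ) ≤ (a : ℤ) := by exact_mod_cast ha
  have h5 : (1 : ℤ) ≤ (b : ℤ) := by exact_mod_cast hb
  nlinarith

theorem closed_tord (hk : HOK D) (uk : UOK D) (O : OrdOK D Wt ord) (κ : ℕ) :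
    ClosedSet D (TOrd ord κ) :=
  ⟨fun _ h => tord_pos O h, fun r _ γ hr hs h => tord_comb hk uk O (tord_pos O hr) hs h⟩

end order

section peel

variable {D : ChevalleyDatum} {K : Type*} [Field K] {Wt ord : List ℕ}

theorem pos_ne_neg (A : ALLOK D) {r s : ℕ} (hr : D.IsPosRoot r) (hs : D.IsPosRoot s) :
    s ≠ D.neg r := by
  intro e
  have h1 := lamR_pos A.uk hs
  rw [e, lamR_neg A.uk hr.1] at h1
  have h2 := lamR_pos A.uk hr
  omega

/-- Conjugating a root element of the ideal by a positive root element. -/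
theorem xU_conj_tord (A : ALLOK D) (O : OrdOK D Wt ord) (κ : ℕ) {r s : ℕ} (hr : D.IsPosRoot r)
    (hs : TOrd ord κ s) (t u : K) :
    (xU A.hk r t)⁻¹ * xU A.hk s u * xU A.hk r t ∈ vSub A.hk K (TOrd ord κ) 0 := by
  by_cases e : s = r
  · subst e
    rw [xU_inv, xU_mul, xU_mul]
    exact xU_mem_vSub A.hk hs (Nat.zero_le _) _
  · have hps := tord_pos O hs
    obtain ⟨L, hL, e2⟩ := comm_all A.hk A.nk A.xk A.ck A.ok A.uk _ r hr.1 rfl s hps.1 e
      (pos_ne_neg A hr hps) t u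
    have e3 : (xU A.hk r t)⁻¹ * xU A.hk s u * xU A.hk r t = xU A.hk s u * wordU A.hk L := by
      rw [mul_assoc, e2]
      group
    rw [e3]
    apply mul_mem (xU_mem_vSub A.hk hs (Nat.zero_le _) u)
    apply wordU_mem
    intro p hp
    exact xU_mem_vSub A.hk (tord_comb A.hk A.uk O hr hs (hL p hp)) (Nat.zero_le _) _

theorem xU_normalizer_tord (A : ALLOK D) (O : OrdOK D Wt ord) (κ : ℕ) {r : ℕ}
    (hr : D.IsPosRoot r) (t : K) :
    xU A.hk r t ∈ Subgroup.normalizer (vSub A.hk K (TOrd ord κ) 0 : Set (GL D.Idx K)) := by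
  apply mem_normalizer_closure
  · rintro y ⟨s, u, hs, -, rfl⟩
    have h := xU_conj_tord A O κ hr hs (-t) u
    rwa [← xU_inv, inv_inv] at h
  · rintro y ⟨s, u, hs, -, rfl⟩
    exact xU_conj_tord A O κ hr hs t u

/-- Every element of the group of the roots from the position `κ` on is `x_r(t) v` with `r` the
root at the position `κ` and `v` in the group of the later roots. -/
theorem tord_split (A : ALLOK D) (O : OrdOK D Wt ord) {κ : ℕ} (hκ : κ < ord.length)
    (g : GL D.Idx K) (hg : g ∈ vSub A.hk K (TOrd ord κ) 0) :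
    ∃ (t : K) (v : GL D.Idx K), v ∈ vSub A.hk K (TOrd ord (κ + 1)) 0 ∧
      g = xU A.hk (ord.getD κ 0) t * v := by
  have hpr : D.IsPosRoot (ord.getD κ 0) := tord_pos O (tord_self hκ)
  have hnorm : ∀ (t : K) (v : GL D.Idx K), v ∈ vSub A.hk K (TOrd ord (κ + 1)) 0 →
      (xU A.hk (ord.getD κ 0) t)⁻¹ * v * xU A.hk (ord.getD κ 0) t ∈
        vSub A.hk K (TOrd ord (κ + 1)) 0 := by
    intro t v hv
    have h1 := xU_normalizer_tord (K := K) A O (κ + 1) hpr (-t)
    have h2 := (Subgroup.mem_normalizer_iff.mp h1 v).mp hv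
    rwa [← xU_inv, inv_inv] at h2
  induction hg using Subgroup.closure_induction with
  | mem x hx =>
    obtain ⟨s, u, ⟨j, hj1, hj2, hj3⟩, -, rfl⟩ := hx
    by_cases e : j = κ
    · rw [e] at hj3
      exact ⟨u, 1, one_mem _, by rw [mul_one, hj3]⟩
    · exact ⟨0, xU A.hk s u, xU_mem_vSub A.hk ⟨j, by omega, hj2, hj3⟩ (Nat.zero_le _) u,
        by rw [xU_zero, one_mul]⟩
  | one => exact ⟨0, 1, one_mem _, by rw [xU_zero, one_mul]⟩
  | mul x y _ _ hx hy =>
    obtain ⟨t₁, v₁, hv₁, rfl⟩ := hx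
    obtain ⟨t₂, v₂, hv₂, rfl⟩ := hy
    refine ⟨t₁ + t₂, (xU A.hk (ord.getD κ 0) t₂)⁻¹ * v₁ * xU A.hk (ord.getD κ 0) t₂ * v₂,
      mul_mem (hnorm t₂ v₁ hv₁) hv₂, ?_⟩
    rw [← xU_mul]
    group
  | inv x _ hx =>
    obtain ⟨t₁, v₁, hv₁, rfl⟩ := hx
    refine ⟨-t₁, (xU A.hk (ord.getD κ 0) (-t₁))⁻¹ * v₁⁻¹ * xU A.hk (ord.getD κ 0) (-t₁),
      hnorm (-t₁) v₁⁻¹ (inv_mem hv₁), ?_⟩
    rw [mul_inv_rev, xU_inv]
    group

theorem wordU_filter_ext (hk : HOK D) {S S' : ℕ → Prop} [DecidablePred S] [DecidablePred S']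
    (hSS : ∀ s, S s → S' s) (c : ℕ → K) (L : List ℕ) :
    wordU hk ((L.filter (fun r => decide (S' r))).map (fun r => (r, if S r then c r else 0))) =
      wordU hk ((L.filter (fun r => decide (S r))).map (fun r => (r, c r))) := by
  induction L with
  | nil => rfl
  | cons s L ih =>
    by_cases h1 : S s
    · have h2 := hSS s h1
      rw [List.filter_cons_of_pos (by simpa using h2), List.filter_cons_of_pos (by simpa using h1),
        List.map_cons, List.map_cons, wordU_cons, wordU_cons, ih]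
      simp only [if_pos h1]
    · by_cases h2 : S' s
      · rw [List.filter_cons_of_pos (by simpa using h2),
          List.filter_cons_of_neg (by simpa using h1), List.map_cons, wordU_cons, ih]
        simp only [if_neg h1, xU_zero, one_mul]
      · rw [List.filter_cons_of_neg (by simpa using h2),
          List.filter_cons_of_neg (by simpa using h1), ih]

theorem wordU_single (hk : HOK D) {S' : ℕ → Prop} [DecidablePred S'] {r : ℕ} (hr : S' r) (t : K)
    (L : List ℕ) (hnd : L.Nodup) :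
    wordU hk ((L.filter (fun s => decide (S' s))).map (fun s => (s, if s = r then t else 0))) =
      if r ∈ L then xU hk r t else 1 := by
  induction L with
  | nil => simp [wordU]
  | cons s L ih =>
    have hnd' := List.nodup_cons.mp hnd
    by_cases e : s = r
    · subst e
      rw [List.filter_cons_of_pos (by simpa using hr), List.map_cons, wordU_cons, ih hnd'.2,
        if_neg hnd'.1, if_pos List.mem_cons_self]
      simp
    · have hmem : (r ∈ s :: L) ↔ r ∈ L := by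
        rw [List.mem_cons]
        constructor
        · rintro (h | h)
          · exact absurd h.symm e
          · exact h
        · exact Or.inr
      by_cases h2 : S' s
      · rw [List.filter_cons_of_pos (by simpa using h2), List.map_cons, wordU_cons, ih hnd'.2]
        simp only [if_neg e, xU_zero, one_mul, hmem]
      · rw [List.filter_cons_of_neg (by simpa using h2), ih hnd'.2]
        simp only [hmem]

/-- The root subgroup at the position `κ` meets the group of the later roots trivially. -/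
theorem tord_zero (A : ALLOK D) (O : OrdOK D Wt ord) {κ : ℕ} (hκ : κ < ord.length) {t : K}
    (h : xU A.hk (ord.getD κ 0) t ∈ vSub A.hk K (TOrd ord (κ + 1)) 0) : t = 0 := by
  classical
  have hS := closed_tord A.hk A.uk O (κ + 1)
  have hS' := closed_tord A.hk A.uk O κ
  have hr' : TOrd ord κ (ord.getD κ 0) := tord_self hκ
  have hnr : ¬ TOrd ord (κ + 1) (ord.getD κ 0) := not_tord_succ O.nodup hκ
  have hrN : ord.getD κ 0 < D.nroots := (tord_pos O hr').1
  obtain ⟨c, hc⟩ := vSub_word A.hk A.nk A.xk A.ck A.ok A.uk hS D.nroots 0 (by simp) _ h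
  have e1 := wordU_filter_ext (K := K) A.hk (S := TOrd ord (κ + 1)) (S' := TOrd ord κ)
    (fun s hs => tord_anti (Nat.le_succ κ) hs) c (List.range' 0 D.nroots)
  have e2 := wordU_single (K := K) A.hk (S' := TOrd ord κ) hr' t (List.range' 0 D.nroots)
    (List.nodup_range' ..)
  rw [if_pos (by rw [List.mem_range'_1]; omega)] at e2
  have e3 := vSub_word_inj A.hk A.wk A.uk hS' D.nroots 0 (by simp) _ _
    (e1.trans (hc.symm.trans e2.symm)) (ord.getD κ 0) hr' (Nat.zero_le _)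
  simp only [if_neg hnr, if_true] at e3
  exact e3.symm

theorem tord_unique (A : ALLOK D) (O : OrdOK D Wt ord) {κ : ℕ} (hκ : κ < ord.length) {t t' : K}
    {v v' : GL D.Idx K} (hv : v ∈ vSub A.hk K (TOrd ord (κ + 1)) 0)
    (hv' : v' ∈ vSub A.hk K (TOrd ord (κ + 1)) 0)
    (h : xU A.hk (ord.getD κ 0) t * v = xU A.hk (ord.getD κ 0) t' * v') : t = t' ∧ v = v' := by
  have e : xU A.hk (ord.getD κ 0) (-t' + t) = v' * v⁻¹ := by
    rw [← xU_mul, ← xU_inv, eq_mul_inv_iff_mul_eq, mul_assoc, h]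
    group
  have h0 : -t' + t = 0 := tord_zero A O hκ (by rw [e]; exact mul_mem hv' (inv_mem hv))
  have htt : t = t' := by linear_combination h0
  subst htt
  exact ⟨rfl, mul_left_cancel h⟩

theorem vSub_tord_anti (hk : HOK D) {κ κ' : ℕ} (h : κ ≤ κ') :
    vSub hk K (TOrd ord κ') 0 ≤ vSub hk K (TOrd ord κ) 0 := by
  unfold vSub
  apply Subgroup.closure_mono
  rintro y ⟨r, t, hr, hkr, rfl⟩
  exact ⟨r, t, tord_anti h hr, hkr, rfl⟩

theorem vSub_tord_top (hk : HOK D) {κ : ℕ} (h : ord.length ≤ κ) {g : GL D.Idx K}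
    (hg : g ∈ vSub hk K (TOrd ord κ) 0) : g = 1 := by
  have hle : vSub hk K (TOrd ord κ) 0 ≤ ⊥ := by
    unfold vSub
    rw [Subgroup.closure_le]
    rintro y ⟨r, t, ⟨j, h1, h2, _⟩, _, rfl⟩
    omega
  exact Subgroup.mem_bot.mp (hle hg)

theorem posU_eq_tord (A : ALLOK D) (O : OrdOK D Wt ord) :
    D.posUnipotent K = vSub A.hk K (TOrd ord 0) 0 := by
  rw [posU_eq_vSub A.hk]
  have e : D.IsPosRoot = TOrd ord 0 := by
    funext s
    apply propext
    exact ⟨fun h => tord_of_mem (O.mem s h.1 h), fun h => tord_pos O h⟩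
  rw [e]

theorem xU_mem_tord (hk : HOK D) {κ j : ℕ} (h1 : κ ≤ j) (h2 : j < ord.length) (t : K) :
    xU hk (ord.getD j 0) t ∈ vSub hk K (TOrd ord κ) 0 :=
  xU_mem_vSub hk ⟨j, h1, h2, rfl⟩ (Nat.zero_le _) t

end peel

section twist

variable {D : ChevalleyDatum} {K : Type*} [Field K] {Wt ord : List ℕ}
  {perm permInv rho rhoInv : List ℕ} {eps : List ℤ}

/-- The graph automorphism composed with the entrywise field endomorphism. -/
def twS (hok : GraphOK D perm permInv rho rhoInv eps) (φ : K →+* K) :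
    GL D.Idx K →* GL D.Idx K :=
  (graphGL (F := K) hok).toMonoidHom.comp (glMap D φ)

theorem twS_xU (hk : HOK D) (hok : GraphOK D perm permInv rho rhoInv eps) (φ : K →+* K) {r : ℕ}
    (hr : r < D.nroots) (t : K) :
    twS hok φ (xU hk r t) = xU hk (rho.getD r 0) (((eps.getD r 1 : ℤ) : K) * φ t) := by
  have e1 : twS hok φ (xU hk r t) = graphGL (F := K) hok (xU hk r (φ t)) := by
    show graphGL (F := K) hok (glMap D φ (xU hk r t)) = _
    rw [glMap_xU]
  rw [e1]
  apply Units.ext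
  rw [graphGL_val, xU_val, xU_val, x_eq_xMat D r hr, graphMul_xMat hok,
    x_eq_xMat D (rho.getD r 0) (hok.c1 r hr).1]
  rfl

/-- The elements fixed by the twisting endomorphism. -/
def twFix (hok : GraphOK D perm permInv rho rhoInv eps) (φ : K →+* K) :
    Subgroup (GL D.Idx K) where
  carrier := {g | twS hok φ g = g}
  mul_mem' := by
    intro a b ha hb
    show twS hok φ (a * b) = a * b
    rw [map_mul, show twS hok φ a = a from ha, show twS hok φ b = b from hb]
  one_mem' := map_one _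
  inv_mem' := by
    intro a ha
    show twS hok φ a⁻¹ = a⁻¹
    rw [map_inv, show twS hok φ a = a from ha]

theorem mem_twFix (hok : GraphOK D perm permInv rho rhoInv eps) (φ : K →+* K) (g : GL D.Idx K) :
    g ∈ twFix hok φ ↔ twS hok φ g = g := Iff.rfl

/-- The roots from the position `κ` on are permuted by the graph automorphism. -/
def RhoSt (ord rho : List ℕ) (κ : ℕ) : Prop :=
  ∀ j < ord.length, κ ≤ j → ∃ j' < ord.length, κ ≤ j' ∧ ord.getD j' 0 = rho.getD (ord.getD j 0) 0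

instance (ord rho : List ℕ) (κ : ℕ) : Decidable (RhoSt ord rho κ) := by
  unfold RhoSt
  infer_instance

theorem twS_vSub (A : ALLOK D) (hok : GraphOK D perm permInv rho rhoInv eps) (φ : K →+* K)
    (O : OrdOK D Wt ord) {κ : ℕ} (hst : RhoSt ord rho κ) {g : GL D.Idx K}
    (hg : g ∈ vSub A.hk K (TOrd ord κ) 0) : twS hok φ g ∈ vSub A.hk K (TOrd ord κ) 0 := by
  have hle : (vSub A.hk K (TOrd ord κ) 0).map (twS hok φ) ≤ vSub A.hk K (TOrd ord κ) 0 := by
    unfold vSub
    apply map_closure_le_of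
    rintro y ⟨s, u, ⟨j, hj1, hj2, hj3⟩, -, rfl⟩
    have hs : s < D.nroots := (tord_pos O ⟨j, hj1, hj2, hj3⟩).1
    rw [twS_xU A.hk hok φ hs]
    obtain ⟨j', hj'1, hj'2, hj'3⟩ := hst j hj2 hj1
    rw [hj3] at hj'3
    exact Subgroup.subset_closure ⟨_, _, ⟨j', hj'2, hj'1, hj'3⟩, Nat.zero_le _, rfl⟩
  exact hle (Subgroup.mem_map_of_mem _ hg)

/-- Peeling off a root fixed by the graph automorphism. -/
theorem peel_fix1 (A : ALLOK D) (hok : GraphOK D perm permInv rho rhoInv eps) (φ : K →+* K)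
    (O : OrdOK D Wt ord) {κ : ℕ} (hκ : κ < ord.length)
    (hρ : rho.getD (ord.getD κ 0) 0 = ord.getD κ 0) (hε : eps.getD (ord.getD κ 0) 1 = 1)
    (hst : RhoSt ord rho (κ + 1)) {t : K} {v : GL D.Idx K}
    (hv : v ∈ vSub A.hk K (TOrd ord (κ + 1)) 0)
    (hfix : xU A.hk (ord.getD κ 0) t * v ∈ twFix hok φ) : φ t = t ∧ v ∈ twFix hok φ := by
  have hr : ord.getD κ 0 < D.nroots := (tord_pos O (tord_self hκ)).1
  have h1 : twS hok φ (xU A.hk (ord.getD κ 0) t * v) = xU A.hk (ord.getD κ 0) t * v := hfix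
  rw [map_mul, twS_xU A.hk hok φ hr, hρ, hε, Int.cast_one, one_mul] at h1
  exact tord_unique A O hκ (twS_vSub A hok φ O hst hv) hv h1

/-- Peeling off two roots interchanged by the graph automorphism. -/
theorem peel_fix2 (A : ALLOK D) (hok : GraphOK D perm permInv rho rhoInv eps) (φ : K →+* K)
    (O : OrdOK D Wt ord) {κ : ℕ} (hκ : κ + 1 < ord.length)
    (h1 : rho.getD (ord.getD κ 0) 0 = ord.getD (κ + 1) 0)
    (h2 : rho.getD (ord.getD (κ + 1) 0) 0 = ord.getD κ 0)
    (c12 : ∀ a b : K, Commute (xU A.hk (ord.getD κ 0) a) (xU A.hk (ord.getD (κ + 1) 0) b))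
    (hst : RhoSt ord rho (κ + 2)) {a b : K} {v : GL D.Idx K}
    (hv : v ∈ vSub A.hk K (TOrd ord (κ + 2)) 0)
    (hfix : xU A.hk (ord.getD κ 0) a * xU A.hk (ord.getD (κ + 1) 0) b * v ∈ twFix hok φ) :
    b = ((eps.getD (ord.getD κ 0) 1 : ℤ) : K) * φ a ∧ v ∈ twFix hok φ := by
  have hr1 : ord.getD κ 0 < D.nroots := (tord_pos O (tord_self (by omega))).1
  have hr2 : ord.getD (κ + 1) 0 < D.nroots := (tord_pos O (tord_self hκ)).1
  have hsv := twS_vSub A hok φ O hst hv
  have hf : twS hok φ (xU A.hk (ord.getD κ 0) a * xU A.hk (ord.getD (κ + 1) 0) b * v) =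
      xU A.hk (ord.getD κ 0) a * xU A.hk (ord.getD (κ + 1) 0) b * v := hfix
  rw [map_mul, map_mul, twS_xU A.hk hok φ hr1, twS_xU A.hk hok φ hr2, h1, h2, (c12 _ _).symm.eq,
    mul_assoc, mul_assoc] at hf
  have m1 : ∀ (x : K) (w : GL D.Idx K), w ∈ vSub A.hk K (TOrd ord (κ + 2)) 0 →
      xU A.hk (ord.getD (κ + 1) 0) x * w ∈ vSub A.hk K (TOrd ord (κ + 1)) 0 := fun x w hw =>
    mul_mem (xU_mem_tord A.hk le_rfl hκ x) (vSub_tord_anti A.hk (Nat.le_succ _) hw)
  obtain ⟨-, k2⟩ := tord_unique A O (by omega) (m1 _ _ hsv) (m1 _ _ hv) hf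
  obtain ⟨k3, k4⟩ := tord_unique A O hκ hsv hv k2
  exact ⟨k3.symm, k4⟩

/-- Peeling off three roots permuted cyclically by the graph automorphism. -/
theorem peel_fix3 (A : ALLOK D) (hok : GraphOK D perm permInv rho rhoInv eps) (φ : K →+* K)
    (O : OrdOK D Wt ord) {κ : ℕ} (hκ : κ + 2 < ord.length)
    (h1 : rho.getD (ord.getD κ 0) 0 = ord.getD (κ + 1) 0)
    (h2 : rho.getD (ord.getD (κ + 1) 0) 0 = ord.getD (κ + 2) 0)
    (h3 : rho.getD (ord.getD (κ + 2) 0) 0 = ord.getD κ 0)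
    (c12 : ∀ a b : K, Commute (xU A.hk (ord.getD κ 0) a) (xU A.hk (ord.getD (κ + 1) 0) b))
    (c13 : ∀ a b : K, Commute (xU A.hk (ord.getD κ 0) a) (xU A.hk (ord.getD (κ + 2) 0) b))
    (hst : RhoSt ord rho (κ + 3)) {a b c : K} {v : GL D.Idx K}
    (hv : v ∈ vSub A.hk K (TOrd ord (κ + 3)) 0)
    (hfix : xU A.hk (ord.getD κ 0) a * xU A.hk (ord.getD (κ + 1) 0) b *
      xU A.hk (ord.getD (κ + 2) 0) c * v ∈ twFix hok φ) :
    b = ((eps.getD (ord.getD κ 0) 1 : ℤ) : K) * φ a ∧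
      c = ((eps.getD (ord.getD (κ + 1) 0) 1 : ℤ) : K) * φ b ∧ v ∈ twFix hok φ := by
  have hr1 : ord.getD κ 0 < D.nroots := (tord_pos O (tord_self (by omega))).1
  have hr2 : ord.getD (κ + 1) 0 < D.nroots := (tord_pos O (tord_self (by omega))).1
  have hr3 : ord.getD (κ + 2) 0 < D.nroots := (tord_pos O (tord_self hκ)).1
  have hsv := twS_vSub A hok φ O hst hv
  have hf : twS hok φ (xU A.hk (ord.getD κ 0) a * xU A.hk (ord.getD (κ + 1) 0) b *
      xU A.hk (ord.getD (κ + 2) 0) c * v) =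
      xU A.hk (ord.getD κ 0) a * xU A.hk (ord.getD (κ + 1) 0) b *
        xU A.hk (ord.getD (κ + 2) 0) c * v := hfix
  rw [map_mul, map_mul, map_mul, twS_xU A.hk hok φ hr1, twS_xU A.hk hok φ hr2,
    twS_xU A.hk hok φ hr3, h1, h2, h3] at hf
  have comm3 : ∀ x y z : K, xU A.hk (ord.getD (κ + 1) 0) x * xU A.hk (ord.getD (κ + 2) 0) y *
      xU A.hk (ord.getD κ 0) z = xU A.hk (ord.getD κ 0) z *
        (xU A.hk (ord.getD (κ + 1) 0) x * xU A.hk (ord.getD (κ + 2) 0) y) := fun x y z =>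
    (((c12 z x).mul_right (c13 z y)).eq).symm
  rw [comm3, mul_assoc, mul_assoc, mul_assoc (xU A.hk (ord.getD κ 0) a),
    mul_assoc (xU A.hk (ord.getD κ 0) a), mul_assoc (xU A.hk (ord.getD (κ + 1) 0) b)] at hf
  have m2 : ∀ (x : K) (w : GL D.Idx K), w ∈ vSub A.hk K (TOrd ord (κ + 3)) 0 →
      xU A.hk (ord.getD (κ + 2) 0) x * w ∈ vSub A.hk K (TOrd ord (κ + 2)) 0 := fun x w hw =>
    mul_mem (xU_mem_tord A.hk le_rfl hκ x) (vSub_tord_anti A.hk (Nat.le_succ _) hw)
  have m1 : ∀ (x y : K) (w : GL D.Idx K), w ∈ vSub A.hk K (TOrd ord (κ + 3)) 0 →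
      xU A.hk (ord.getD (κ + 1) 0) x * (xU A.hk (ord.getD (κ + 2) 0) y * w) ∈
        vSub A.hk K (TOrd ord (κ + 1)) 0 := fun x y w hw =>
    mul_mem (xU_mem_tord A.hk le_rfl (by omega) x)
      (vSub_tord_anti A.hk (Nat.le_succ _) (m2 y w hw))
  obtain ⟨-, k2⟩ := tord_unique A O (by omega) (m1 _ _ _ hsv) (m1 _ _ _ hv) hf
  obtain ⟨k3, k4⟩ := tord_unique A O (by omega) (m2 _ _ hsv) (m2 _ _ hv) k2
  obtain ⟨k5, k6⟩ := tord_unique A O hκ hsv hv k4
  exact ⟨k3.symm, k5.symm, k6⟩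

end twist

section ordw

variable {D : ChevalleyDatum} {K : Type*} [Field K] {Wt ord : List ℕ}

/-- The product of the root elements at the positions `κ, …, κ + n - 1` with the coefficients
given by `c`. -/
def ordW (hk : HOK D) (ord : List ℕ) (c : ℕ → K) : ℕ → ℕ → GL D.Idx K
  | _, 0 => 1
  | κ, n + 1 => xU hk (ord.getD κ 0) (c κ) * ordW hk ord c (κ + 1) n

theorem ordW_zero (hk : HOK D) (c : ℕ → K) (κ : ℕ) : ordW hk ord c κ 0 = 1 := by
  rw [ordW]

theorem ordW_succ (hk : HOK D) (c : ℕ → K) (κ n : ℕ) :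
    ordW hk ord c κ (n + 1) = xU hk (ord.getD κ 0) (c κ) * ordW hk ord c (κ + 1) n := by
  rw [ordW]

theorem ordW_mem (hk : HOK D) (c : ℕ → K) : ∀ (n κ : ℕ), κ + n ≤ ord.length →
    ordW hk ord c κ n ∈ vSub hk K (TOrd ord κ) 0
  | 0, κ, _ => by rw [ordW_zero]; exact one_mem _
  | n + 1, κ, h => by
    rw [ordW_succ]
    exact mul_mem (xU_mem_tord hk le_rfl (by omega) _)
      (vSub_tord_anti hk (Nat.le_succ κ) (ordW_mem hk c n (κ + 1) (by omega)))

theorem ordW_congr (hk : HOK D) {c c' : ℕ → K} : ∀ (n κ : ℕ),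
    (∀ j, κ ≤ j → j < κ + n → c j = c' j) → ordW hk ord c κ n = ordW hk ord c' κ n
  | 0, κ, _ => by rw [ordW_zero, ordW_zero]
  | n + 1, κ, h => by
    rw [ordW_succ, ordW_succ, h κ le_rfl (by omega),
      ordW_congr hk n (κ + 1) (fun j h1 h2 => h j (by omega) (by omega))]

theorem ordW_inj (A : ALLOK D) (O : OrdOK D Wt ord) {c c' : ℕ → K} : ∀ (n κ : ℕ),
    κ + n ≤ ord.length → ordW A.hk ord c κ n = ordW A.hk ord c' κ n →
      ∀ j, κ ≤ j → j < κ + n → c j = c' j
  | 0, κ, _, _, j, h1, h2 => by omega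
  | n + 1, κ, hle, h, j, h1, h2 => by
    rw [ordW_succ, ordW_succ] at h
    obtain ⟨e1, e2⟩ := tord_unique A O (by omega) (ordW_mem A.hk c n (κ + 1) (by omega))
      (ordW_mem A.hk c' n (κ + 1) (by omega)) h
    by_cases e : j = κ
    · rw [e]
      exact e1
    · exact ordW_inj A O n (κ + 1) (by omega) e2 j (by omega) (by omega)

theorem ordW_surj (A : ALLOK D) (O : OrdOK D Wt ord) : ∀ (n κ : ℕ), κ + n = ord.length →
    ∀ g ∈ vSub A.hk K (TOrd ord κ) 0, ∃ c : ℕ → K, g = ordW A.hk ord c κ n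
  | 0, κ, h, g, hg => ⟨fun _ => 0, by rw [ordW_zero]; exact vSub_tord_top A.hk (by omega) hg⟩
  | n + 1, κ, h, g, hg => by
    obtain ⟨t, v, hv, rfl⟩ := tord_split A O (by omega) g hg
    obtain ⟨c, rfl⟩ := ordW_surj A O n (κ + 1) (by omega) v hv
    refine ⟨Function.update c κ t, ?_⟩
    rw [ordW_succ, Function.update_self]
    congr 1
    exact ordW_congr A.hk n (κ + 1) (fun j h1 _ => by rw [Function.update_of_ne (by omega)])

end ordw

section field

/-- The map `x ↦ x ^ q` as a ring endomorphism of a finite field whose order is a power of the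
prime power `q`. -/
theorem frob_hom {K : Type*} [Field K] [Fintype K] {q n : ℕ} (hq : IsPrimePow q)
    (hK : Fintype.card K = q ^ n) (hn : n ≠ 0) : ∃ φ : K →+* K, ∀ t, φ t = t ^ q := by
  obtain ⟨p, hchar⟩ := CharP.exists K
  have := hchar
  obtain ⟨m, hp, hm⟩ := FiniteField.card K p
  obtain ⟨p', k, hp', hk, rfl⟩ := hq
  have hp'' : p'.Prime := Nat.prime_iff.mpr hp'
  have hdvd : p' ∣ p ^ (m : ℕ) := by
    rw [← hm, hK]
    exact dvd_pow (dvd_pow_self p' hk.ne') hn
  have hpp : p' = p := (Nat.prime_dvd_prime_iff_eq hp'' hp).mp (hp''.dvd_of_dvd_pow hdvd)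
  subst hpp
  haveI : Fact p'.Prime := ⟨hp⟩
  exact ⟨iterateFrobenius K p' k, fun t => by rw [iterateFrobenius_def]⟩

/-- The number of the elements of a finite field of order `q ^ n` fixed by `x ↦ x ^ q`. -/
theorem card_frob_fixed {K : Type*} [Field K] [Fintype K] {q n : ℕ} (hq : 1 < q) (hn : n ≠ 0)
    (hK : Fintype.card K = q ^ n) : Nat.card {t : K // t ^ q = t} = q := by
  classical
  have hker : Nat.card (powMonoidHom (q - 1) : Kˣ →* Kˣ).ker = q - 1 := by
    rw [IsCyclic.card_powMonoidHom_ker, Nat.card_units, Nat.card_eq_fintype_card, hK]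
    apply Nat.gcd_eq_right
    exact Nat.sub_one_dvd_pow_sub_one q n
  have hq1 : q - 1 + 1 = q := by omega
  have key : ∀ t : K, t ≠ 0 → (t ^ q = t ↔ t ^ (q - 1) = 1) := by
    intro t ht
    constructor
    · intro h
      have h2 : t ^ (q - 1) * t = 1 * t := by rw [← pow_succ, hq1, h, one_mul]
      exact mul_right_cancel₀ ht h2
    · intro h
      rw [← hq1, pow_succ, h, one_mul]
  let f : {t : K // t ^ q = t} → Option ↥(powMonoidHom (q - 1) : Kˣ →* Kˣ).ker := fun t =>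
    if h : t.1 = 0 then none else some ⟨Units.mk0 t.1 h, by
      rw [MonoidHom.mem_ker, powMonoidHom_apply]
      apply Units.ext
      rw [Units.val_pow_eq_pow_val, Units.val_mk0, Units.val_one]
      exact (key t.1 h).mp t.2⟩
  have hf : Function.Bijective f := by
    constructor
    · intro a b hab
      simp only [f] at hab
      by_cases ha : a.1 = 0
      · by_cases hb : b.1 = 0
        · exact Subtype.ext (ha.trans hb.symm)
        · rw [dif_pos ha, dif_neg hb] at hab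
          exact absurd hab (by simp)
      · by_cases hb : b.1 = 0
        · rw [dif_neg ha, dif_pos hb] at hab
          exact absurd hab (by simp)
        · rw [dif_neg ha, dif_neg hb] at hab
          have h2 := congrArg (fun u : ↥(powMonoidHom (q - 1) : Kˣ →* Kˣ).ker => ((u : Kˣ) : K))
            (Option.some.inj hab)
          exact Subtype.ext h2
    · intro o
      rcases o with _ | u
      · refine ⟨⟨0, zero_pow (by omega)⟩, ?_⟩
        simp [f]
      · have hu : ((u : Kˣ) : K) ≠ 0 := Units.ne_zero _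
        have hu1 : ((u : Kˣ) : K) ^ (q - 1) = 1 := by
          have h := u.2
          rw [MonoidHom.mem_ker, powMonoidHom_apply] at h
          have h2 := congrArg Units.val h
          rwa [Units.val_pow_eq_pow_val, Units.val_one] at h2
        refine ⟨⟨((u : Kˣ) : K), (key _ hu).mpr hu1⟩, ?_⟩
        simp only [f]
        rw [dif_neg hu]
        congr 1
        apply Subtype.ext
        apply Units.ext
        rfl
  rw [Nat.card_congr (Equiv.ofBijective f hf), Nat.card_eq_fintype_card, Fintype.card_option,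
    ← Nat.card_eq_fintype_card, hker]
  exact hq1

end field

end Cfsg.Agent.Lib.Helper9
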