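import Cfsg.Agent.Lib.Helper9.TwFix
import Cfsg.Agent.Lib.Helper9.ThmTwPerf

set_option autoImplicit false

namespace Cfsg.Agent.Lib.Helper9

open Cfsg.Lie
open Cfsg.Agent.Lib.Helper15.ChevGraphEx

/-! ### Blocks of root elements fixed by the twisting endomorphism -/

section blocks

variable {D : ChevalleyDatum} {K : Type*} [Field K] {Wt ord : List ℕ}
  {perm permInv rho rhoInv : List ℕ} {eps : List ℤ}

theorem twS_single_fix (hk : HOK D) (hok : GraphOK D perm permInv rho rhoInv eps) (φ : K →+* K)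
    {r : ℕ} (hr : r < D.nroots) (h1 : rho.getD r 0 = r) (e1 : eps.getD r 1 = 1) {a : K}
    (ha : φ a = a) : xU hk r a ∈ twFix hok φ := by
  show twS hok φ (xU hk r a) = xU hk r a
  rw [twS_xU hk hok φ hr, h1, e1, Int.cast_one, one_mul, ha]

theorem twS_pair_fix (hk : HOK D) (hok : GraphOK D perm permInv rho rhoInv eps) (φ : K →+* K)
    {r1 r2 : ℕ} (hr1 : r1 < D.nroots) (hr2 : r2 < D.nroots)
    (h1 : rho.getD r1 0 = r2) (h2 : rho.getD r2 0 = r1)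
    (e1 : eps.getD r1 1 = 1) (e2 : eps.getD r2 1 = 1)
    (c12 : ∀ a b : K, Commute (xU hk r1 a) (xU hk r2 b)) {a : K} (ha : φ (φ a) = a) :
    xU hk r1 a * xU hk r2 (φ a) ∈ twFix hok φ := by
  show twS hok φ (xU hk r1 a * xU hk r2 (φ a)) = _
  rw [map_mul, twS_xU hk hok φ hr1, twS_xU hk hok φ hr2, h1, h2, e1, e2, Int.cast_one, one_mul,
    one_mul, ha]
  exact ((c12 a _).eq).symm

theorem twS_triple_fix (hk : HOK D) (hok : GraphOK D perm permInv rho rhoInv eps) (φ : K →+* K)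
    {r1 r2 r3 : ℕ} (hr1 : r1 < D.nroots) (hr2 : r2 < D.nroots) (hr3 : r3 < D.nroots)
    (h1 : rho.getD r1 0 = r2) (h2 : rho.getD r2 0 = r3) (h3 : rho.getD r3 0 = r1)
    (e1 : eps.getD r1 1 = 1) (e2 : eps.getD r2 1 = 1) (e3 : eps.getD r3 1 = 1)
    (c12 : ∀ a b : K, Commute (xU hk r1 a) (xU hk r2 b))
    (c13 : ∀ a b : K, Commute (xU hk r1 a) (xU hk r3 b)) {a : K} (ha : φ (φ (φ a)) = a) :
    xU hk r1 a * xU hk r2 (φ a) * xU hk r3 (φ (φ a)) ∈ twFix hok φ := by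
  show twS hok φ (xU hk r1 a * xU hk r2 (φ a) * xU hk r3 (φ (φ a))) = _
  rw [map_mul, map_mul, twS_xU hk hok φ hr1, twS_xU hk hok φ hr2, twS_xU hk hok φ hr3, h1, h2,
    h3, e1, e2, e3, Int.cast_one, one_mul, one_mul, one_mul, ha, mul_assoc (xU hk r1 a)]
  exact (((c12 a _).mul_right (c13 a _)).eq).symm

theorem etaK_sq_tw {η : ℤ} (h : η = 1 ∨ η = -1) (c : K) : (η : K) * ((η : K) * c) = c := by
  rcases h with rfl | rfl <;> simp

/-- Conjugating the root elements of a fixed root with parameters in the fixed field. -/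
theorem block1_conj (A : ALLOK D) (φ : K →+* K) (G1 : Subgroup (GL D.Idx K)) (w : List ℕ)
    (hw : ∀ i ∈ w, i < D.rank) (hn : nW A.hk K w ∈ G1) {r s : ℕ} (hr : r < D.nroots)
    (e1 : wActP (permOf D) w r = s) (hsrc : ∀ t : K, φ t = t → xU A.hk r t ∈ G1) :
    ∀ t : K, φ t = t → xU A.hk s t ∈ G1 := by
  have h := nW_conj_mem A.hk A.nk A.xk G1 w hw hn hr {t : K | φ t = t}
    (fun t ht => by
      show φ (-t) = -t
      rw [map_neg, show φ t = t from ht]) hsrc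
  rw [e1] at h
  exact h

/-- Conjugating a block of two root elements. -/
theorem block2_conj (A : ALLOK D) (hok : GraphOK D perm permInv rho rhoInv eps) (φ : K →+* K)
    (O : OrdOK D Wt ord) (G1 : Subgroup (GL D.Idx K)) (hG1 : G1 ≤ twFix hok φ)
    (w : List ℕ) (hw : ∀ i ∈ w, i < D.rank) (hn : nW A.hk K w ∈ G1)
    {r1 r2 : ℕ} (hr1 : r1 < D.nroots) (hr2 : r2 < D.nroots)
    {κ : ℕ} (hκ : κ + 1 < ord.length)
    (e1 : wActP (permOf D) w r1 = ord.getD κ 0)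
    (e2 : wActP (permOf D) w r2 = ord.getD (κ + 1) 0)
    (h1 : rho.getD (ord.getD κ 0) 0 = ord.getD (κ + 1) 0)
    (h2 : rho.getD (ord.getD (κ + 1) 0) 0 = ord.getD κ 0)
    (c12 : ∀ a b : K, Commute (xU A.hk (ord.getD κ 0) a) (xU A.hk (ord.getD (κ + 1) 0) b))
    (hst : RhoSt ord rho (κ + 2)) (f : K → K)
    (hsrc : ∀ t : K, xU A.hk r1 t * xU A.hk r2 (f t) ∈ G1) (c : K) :
    xU A.hk (ord.getD κ 0) c *
      xU A.hk (ord.getD (κ + 1) 0) (((eps.getD (ord.getD κ 0) 1 : ℤ) : K) * φ c) ∈ G1 := by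
  obtain ⟨-, η1, hη1, k1⟩ := nW_conj (F := K) A.hk A.nk A.xk w hw r1 hr1
  obtain ⟨-, η2, -, k2⟩ := nW_conj (F := K) A.hk A.nk A.xk w hw r2 hr2
  have hmem := mul_mem (mul_mem hn (hsrc ((η1 : K) * c))) (inv_mem hn)
  have e : nW A.hk K w * (xU A.hk r1 ((η1 : K) * c) * xU A.hk r2 (f ((η1 : K) * c))) *
      (nW A.hk K w)⁻¹ =
      (nW A.hk K w * xU A.hk r1 ((η1 : K) * c) * (nW A.hk K w)⁻¹) *
        (nW A.hk K w * xU A.hk r2 (f ((η1 : K) * c)) * (nW A.hk K w)⁻¹) := by group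
  rw [e, k1, k2, e1, e2, etaK_sq_tw hη1] at hmem
  obtain ⟨q1, -⟩ := peel_fix2 A hok φ O hκ h1 h2 c12 hst (one_mem _)
    (by rw [mul_one]; exact hG1 hmem)
  rw [q1] at hmem
  exact hmem

/-- Conjugating a block of three root elements. -/
theorem block3_conj (A : ALLOK D) (hok : GraphOK D perm permInv rho rhoInv eps) (φ : K →+* K)
    (O : OrdOK D Wt ord) (G1 : Subgroup (GL D.Idx K)) (hG1 : G1 ≤ twFix hok φ)
    (w : List ℕ) (hw : ∀ i ∈ w, i < D.rank) (hn : nW A.hk K w ∈ G1)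
    {r1 r2 r3 : ℕ} (hr1 : r1 < D.nroots) (hr2 : r2 < D.nroots) (hr3 : r3 < D.nroots)
    {κ : ℕ} (hκ : κ + 2 < ord.length)
    (e1 : wActP (permOf D) w r1 = ord.getD κ 0)
    (e2 : wActP (permOf D) w r2 = ord.getD (κ + 1) 0)
    (e3 : wActP (permOf D) w r3 = ord.getD (κ + 2) 0)
    (h1 : rho.getD (ord.getD κ 0) 0 = ord.getD (κ + 1) 0)
    (h2 : rho.getD (ord.getD (κ + 1) 0) 0 = ord.getD (κ + 2) 0)
    (h3 : rho.getD (ord.getD (κ + 2) 0) 0 = ord.getD κ 0)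
    (c12 : ∀ a b : K, Commute (xU A.hk (ord.getD κ 0) a) (xU A.hk (ord.getD (κ + 1) 0) b))
    (c13 : ∀ a b : K, Commute (xU A.hk (ord.getD κ 0) a) (xU A.hk (ord.getD (κ + 2) 0) b))
    (hst : RhoSt ord rho (κ + 3)) (f g : K → K)
    (hsrc : ∀ t : K, xU A.hk r1 t * xU A.hk r2 (f t) * xU A.hk r3 (g t) ∈ G1) (c : K) :
    xU A.hk (ord.getD κ 0) c *
      xU A.hk (ord.getD (κ + 1) 0) (((eps.getD (ord.getD κ 0) 1 : ℤ) : K) * φ c) *
      xU A.hk (ord.getD (κ + 2) 0) (((eps.getD (ord.getD (κ + 1) 0) 1 : ℤ) : K) *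
        φ (((eps.getD (ord.getD κ 0) 1 : ℤ) : K) * φ c)) ∈ G1 := by
  obtain ⟨-, η1, hη1, k1⟩ := nW_conj (F := K) A.hk A.nk A.xk w hw r1 hr1
  obtain ⟨-, η2, -, k2⟩ := nW_conj (F := K) A.hk A.nk A.xk w hw r2 hr2
  obtain ⟨-, η3, -, k3⟩ := nW_conj (F := K) A.hk A.nk A.xk w hw r3 hr3
  have hmem := mul_mem (mul_mem hn (hsrc ((η1 : K) * c))) (inv_mem hn)
  have e : nW A.hk K w * (xU A.hk r1 ((η1 : K) * c) * xU A.hk r2 (f ((η1 : K) * c)) *
      xU A.hk r3 (g ((η1 : K) * c))) * (nW A.hk K w)⁻¹ =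
      (nW A.hk K w * xU A.hk r1 ((η1 : K) * c) * (nW A.hk K w)⁻¹) *
        (nW A.hk K w * xU A.hk r2 (f ((η1 : K) * c)) * (nW A.hk K w)⁻¹) *
        (nW A.hk K w * xU A.hk r3 (g ((η1 : K) * c)) * (nW A.hk K w)⁻¹) := by group
  rw [e, k1, k2, k3, e1, e2, e3, etaK_sq_tw hη1] at hmem
  obtain ⟨q1, q2, -⟩ := peel_fix3 A hok φ O hκ h1 h2 h3 c12 c13 hst (one_mem _)
    (by rw [mul_one]; exact hG1 hmem)
  rw [q2, q1] at hmem
  exact hmem

theorem ordW_succ2 (hk : HOK D) (c : ℕ → K) (κ n : ℕ) :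
    ordW hk ord c κ (n + 2) = xU hk (ord.getD κ 0) (c κ) * xU hk (ord.getD (κ + 1) 0) (c (κ + 1)) *
      ordW hk ord c (κ + 2) n := by
  have e : ordW hk ord c κ (n + 2) = xU hk (ord.getD κ 0) (c κ) *
      (xU hk (ord.getD (κ + 1) 0) (c (κ + 1)) * ordW hk ord c (κ + 2) n) := by
    rw [show n + 2 = (n + 1) + 1 from rfl, ordW_succ, ordW_succ]
  rw [e, mul_assoc]

theorem ordW_succ3 (hk : HOK D) (c : ℕ → K) (κ n : ℕ) :
    ordW hk ord c κ (n + 3) = xU hk (ord.getD κ 0) (c κ) * xU hk (ord.getD (κ + 1) 0) (c (κ + 1)) *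
      xU hk (ord.getD (κ + 2) 0) (c (κ + 2)) * ordW hk ord c (κ + 3) n := by
  have e : ordW hk ord c κ (n + 3) = xU hk (ord.getD κ 0) (c κ) *
      (xU hk (ord.getD (κ + 1) 0) (c (κ + 1)) * (xU hk (ord.getD (κ + 2) 0) (c (κ + 2)) *
        ordW hk ord c (κ + 3) n)) := by
    rw [show n + 3 = ((n + 1) + 1) + 1 from rfl, ordW_succ, ordW_succ, ordW_succ]
  rw [e, mul_assoc, mul_assoc]

end blocks

end Cfsg.Agent.Lib.Helper9
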