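import Cfsg.Agent.Lib.Helper9.ThmTw3
import Cfsg.Agent.Lib.Helper9.ThmTwPerf
import Cfsg.Agent.Lib.Helper9.ThmOrder
import Cfsg.Agent.Lib.Helper9.TabG2
import Cfsg.Agent.Lib.Helper9.PermTabG2
import Cfsg.Prelude.Def_LieTwisted

set_option autoImplicit false

namespace Cfsg.Agent.Lib.Helper9

open Cfsg.Lie

set_option maxRecDepth 1000000 in
theorem g2_comm_facts : ∀ p ∈ [((8 : ℕ), (10 : ℕ)), (3, 10), (8, 1)],
    p.1 < chevG2.nroots ∧ p.2 < chevG2.nroots ∧ p.2 ≠ chevG2.neg p.1 ∧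
      commB chevG2 (litsOf chevG2) p.1 p.2 = true ∧ chevG2.commTerms p.1 p.2 = [] := by
  decide +kernel

theorem g2_idx_facts : chevG2.simple 0 = 7 ∧ chevG2.simple 1 = 6 ∧ chevG2.neg 7 = 4 ∧
    chevG2.neg 6 = 5 ∧ chevG2.neg 8 = 3 ∧ chevG2.neg 10 = 1 ∧ chevG2.reflectRoot 1 7 = 8 ∧
    chevG2.reflectRoot 1 4 = 3 ∧ chevG2.reflectRoot 0 6 = 10 ∧ chevG2.reflectRoot 0 5 = 1 ∧
    chevG2.rank = 2 ∧ chevG2.nroots = 12 := by
  decide +kernel

theorem g2_negIdx_facts : chevG2.negIdx[7]?.getD 0 = 4 ∧ chevG2.negIdx[6]?.getD 0 = 5 ∧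
    chevG2.negIdx[8]?.getD 0 = 3 ∧ chevG2.negIdx[9]?.getD 0 = 2 ∧ chevG2.negIdx[10]?.getD 0 = 1 ∧
    chevG2.negIdx[11]?.getD 0 = 0 := by
  decide +kernel

set_option maxRecDepth 1000000 in
theorem g2_w0_facts : ∀ r < chevG2.nroots, chevG2.IsPosRoot r →
    chevG2.IsNegRoot (chevG2.reflectRoot 1 (chevG2.reflectRoot 0 (chevG2.reflectRoot 1
      (chevG2.reflectRoot 0 (chevG2.reflectRoot 1 (chevG2.reflectRoot 0 r)))))) := by
  decide +kernel

theorem g2_vh_facts : ∀ s ∈ [(3 : ℕ), 2], chevG2.IsNegRoot s ∧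
    ∀ j < chevG2.rank, s ≠ chevG2.neg (chevG2.simple j) := by
  decide +kernel

section

variable {K : Type*} [Field K]

theorem g2_commute (hk : HOK chevG2) {r s : ℕ}
    (h : (r, s) ∈ [((8 : ℕ), (10 : ℕ)), (3, 10), (8, 1)]) (t u : K) :
    Commute (xU hk r t) (xU hk s u) := by
  obtain ⟨h1, h2, h3, h4, h5⟩ := g2_comm_facts (r, s) h
  exact comm_of_terms_nil hk h1 h2 h3 h4 h5 t u

theorem g2_word_mem (e : ℕ) (g : GL chevG2.Idx K) (w : List (ℕ × K))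
    (hw : w ∈ g2Words K e) (hg : (g : Matrix chevG2.Idx chevG2.Idx K) = chevG2.wordMat K w) :
    g ∈ twistedG2 K e :=
  Subgroup.subset_closure ⟨w, hw, hg⟩

theorem g2_pair_pos (hk : HOK chevG2) {e : ℕ} (he : e ≠ 0) :
    xU hk 8 (1 : K) * xU hk 10 1 ∈ twistedG2 K e := by
  apply g2_word_mem e _ (reeWordU e 0 1 0) ⟨0, 1, 0, Or.inl rfl⟩
  simp [reeWordU, ChevalleyDatum.wordMat, xU_val, zero_pow he, x_zero, g2a, g2b, g2ab, g2aab,
    g2aaab, g2aaabb]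

theorem g2_pair_neg (hk : HOK chevG2) {e : ℕ} (he : e ≠ 0) :
    xU hk 3 (-1 : K) * xU hk 1 (-1) ∈ twistedG2 K e := by
  apply g2_word_mem e _ (reeWordV e 0 1 0) ⟨0, 1, 0, Or.inr rfl⟩
  obtain ⟨n7, n6, n8, n9, n10, n11⟩ := g2_negIdx_facts
  simp [reeWordV, reeWordU, ChevalleyDatum.negWord, ChevalleyDatum.wordMat, xU_val, zero_pow he,
    x_zero, g2a, g2b, g2ab, g2aab, g2aaab, g2aaabb, n7, n6, n8, n9, n10, n11]

theorem g2_gen_neg (hk : HOK chevG2) {e : ℕ} (he : e ≠ 0) :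
    wordU hk (negL chevG2 [(0, (-1 : K)), (1, -1)]) * (xU hk 3 (-1 : K) * xU hk 2 (-1)) ∈
      twistedG2 K e := by
  apply g2_word_mem e _ (reeWordV e 1 0 0) ⟨1, 0, 0, Or.inr rfl⟩
  obtain ⟨n7, n6, n8, n9, n10, n11⟩ := g2_negIdx_facts
  obtain ⟨s0, s1, m7, m6, -⟩ := g2_idx_facts
  simp [reeWordV, reeWordU, ChevalleyDatum.negWord, ChevalleyDatum.wordMat, xU_val, zero_pow he,
    x_zero, g2a, g2b, g2ab, g2aab, g2aaab, g2aaabb, n7, n6, n8, n9, n10, n11, negL, wordU,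
    s0, s1, m7, m6, mul_assoc]

/-- The normal core of `B ∩ G¹` in the twisted group of type `G₂` is trivial. -/
theorem twG2_core {e : ℕ} (he : e ≠ 0) :
    ((chevG2.borelSubgroup K ⊓ twistedG2 K e).subgroupOf (twistedG2 K e)).normalCore = ⊥ := by
  have hD : chevG2 ∈ [chevG2, chevB2, chevD4, chevF4, chevE6, chevE7, chevE8] := by
    simp only [List.mem_cons, true_or]
  have A := allok_all chevG2 hD
  have hk := A.hk
  obtain ⟨s0, s1, m7, m6, m8, m10, r17, r14, r06, r05, hrank, hnr⟩ := g2_idx_facts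
  have h0 : (0 : ℕ) < chevG2.rank := by rw [hrank]; norm_num
  have h1 : (1 : ℕ) < chevG2.rank := by rw [hrank]; norm_num
  -- the element of `N`
  have hg₀ : nrU hk 8 (1 : K) * nrU hk 10 1 ∈ twistedG2 K e := by
    apply nr_block2 hk
    · exact g2_commute hk (by simp)
    · rw [m8]; exact g2_commute hk (by simp)
    · rw [m10]; exact g2_commute hk (by simp)
    · exact g2_pair_pos hk he
    · rw [m8, m10]
      have e1 : (-(1 : K)⁻¹) = -1 := by rw [inv_one]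
      rw [e1]
      exact g2_pair_neg hk he
  have hN : nrU hk 8 (1 : K) * nrU hk 10 1 ∈ chevG2.monomialSubgroup K := by
    apply simpleN_le_mono hk
    exact mul_mem (nrU_mem_simpleN hk A.nk A.xk A.ok _ 8 (by rw [hnr]; norm_num) rfl)
      (nrU_mem_simpleN hk A.nk A.xk A.ok _ 10 (by rw [hnr]; norm_num) rfl)
  have a8 : ActsAs A (nrU A.hk 8 (1 : K)) (sig A 1 * sig A 0 * sig A 1) :=
    actsAs_nrU_conj A h1 h0 (by rw [s0]; exact r17) (by rw [s0, m7, m8]; exact r14)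
  have a10 : ActsAs A (nrU A.hk 10 (1 : K)) (sig A 0 * sig A 1 * sig A 0) :=
    actsAs_nrU_conj A h0 h1 (by rw [s1]; exact r06) (by rw [s1, m6, m10]; exact r05)
  have hU := conj_pos_neg_of_actsAs A (a8.mul a10) (by
    intro r hr
    have h := g2_w0_facts r r.2 hr
    have e1 : (((sig A 1 * sig A 0 * sig A 1 * (sig A 0 * sig A 1 * sig A 0)) r :
        Fin chevG2.nroots) : ℕ) = chevG2.reflectRoot 1 (chevG2.reflectRoot 0 (chevG2.reflectRoot 1
          (chevG2.reflectRoot 0 (chevG2.reflectRoot 1 (chevG2.reflectRoot 0 r))))) := by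
      simp only [Equiv.Perm.mul_apply, sig_apply A h0, sig_apply A h1]
    rw [e1]
    exact h)
  refine tw_core2 A (twistedG2 K e) _ hg₀ hN hU ?_
  intro i hi
  refine ⟨[(0, (-1 : K)), (1, -1)], xU hk 3 (-1 : K) * xU hk 2 (-1), ?_, ?_, ?_, ?_,
    g2_gen_neg hk he⟩
  · intro p hp
    simp only [List.mem_cons, List.not_mem_nil, or_false] at hp
    rcases hp with rfl | rfl
    · exact h0
    · exact h1
  · simp
  · refine ⟨-1, by simp, ?_⟩
    rw [hrank] at hi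
    interval_cases i <;> simp
  · exact mul_mem (xU_mem_vhSub hk (g2_vh_facts 3 (by simp)).1 (g2_vh_facts 3 (by simp)).2 _)
      (xU_mem_vhSub hk (g2_vh_facts 2 (by simp)).1 (g2_vh_facts 2 (by simp)).2 _)

end

end Cfsg.Agent.Lib.Helper9
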